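import Cfsg.Agent.Lib.H19.SchurAb

/-! Multipliers of direct products (helper19). -/

set_option autoImplicit false
set_option linter.style.haveILetI false

namespace Cfsg.Agent.H19

open scoped commutatorElement TensorProduct

universe u v w

/-- The tensor product of the commutator quotients. -/
abbrev TT (Q₁ : Type u) (Q₂ : Type v) [Group Q₁] [Group Q₂] : Type (max u v) :=
  TensorProduct ℤ (Additive (Abelianization Q₁)) (Additive (Abelianization Q₂))

/-- The pure tensor of two group elements. -/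
def tt {Q₁ : Type u} {Q₂ : Type v} [Group Q₁] [Group Q₂] (x : Q₁) (y : Q₂) : TT Q₁ Q₂ :=
  (Additive.ofMul (Abelianization.of x)) ⊗ₜ[ℤ] (Additive.ofMul (Abelianization.of y))

theorem comm_mul_left_of_central {G : Type*} [Group G] (a b c : G)
    (h : ∀ g, g * ⁅b, c⁆ = ⁅b, c⁆ * g) : ⁅a * b, c⁆ = ⁅a, c⁆ * ⁅b, c⁆ := by
  have e : ⁅a * b, c⁆ = a * ⁅b, c⁆ * c * a⁻¹ * c⁻¹ := by
    simp only [commutatorElement_def]
    group
  rw [e, h a, h ⁅a, c⁆]
  simp only [commutatorElement_def]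
  group

theorem comm_mul_right_of_central {G : Type*} [Group G] (a b c : G)
    (h : ∀ g, g * ⁅a, c⁆ = ⁅a, c⁆ * g) : ⁅a, b * c⁆ = ⁅a, b⁆ * ⁅a, c⁆ := by
  have e : ⁅a, b * c⁆ = a * b * a⁻¹ * ⁅a, c⁆ * b⁻¹ := by
    simp only [commutatorElement_def]
    group
  rw [e, h (a * b * a⁻¹), h ⁅a, b⁆]
  simp only [commutatorElement_def]
  group

section tt

variable {Q₁ : Type u} {Q₂ : Type v} [Group Q₁] [Group Q₂]

theorem tt_mul_left (x x' : Q₁) (y : Q₂) : tt (x * x') y = tt x y + tt x' y := by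
  simp only [tt, map_mul, ofMul_mul, TensorProduct.add_tmul]

theorem tt_mul_right (x : Q₁) (y y' : Q₂) : tt x (y * y') = tt x y + tt x y' := by
  simp only [tt, map_mul, ofMul_mul, TensorProduct.tmul_add]

theorem tt_one_left (y : Q₂) : tt (1 : Q₁) y = 0 := by
  simp [tt]

theorem tt_one_right (x : Q₁) : tt x (1 : Q₂) = 0 := by
  simp [tt]

/-- Pure tensors generate. -/
theorem tt_induction {P : TT Q₁ Q₂ → Prop} (h0 : P 0) (ht : ∀ x y, P (tt x y))
    (ha : ∀ s t, P s → P t → P (s + t)) (t : TT Q₁ Q₂) : P t := by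
  induction t using TensorProduct.induction_on with
  | zero => exact h0
  | tmul x y =>
    obtain ⟨x', rfl⟩ : ∃ x' : Q₁, Additive.ofMul (Abelianization.of x') = x := by
      obtain ⟨x', hx'⟩ := QuotientGroup.mk_surjective (Additive.toMul x)
      exact ⟨x', congrArg Additive.ofMul hx'⟩
    obtain ⟨y', rfl⟩ : ∃ y' : Q₂, Additive.ofMul (Abelianization.of y') = y := by
      obtain ⟨y', hy'⟩ := QuotientGroup.mk_surjective (Additive.toMul y)
      exact ⟨y', congrArg Additive.ofMul hy'⟩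
    exact ht x' y'
  | add s t hs ht => exact ha s t hs ht

/-- Universal property of the tensor product. -/
theorem exists_tensor_hom {K : Type w} [Group K] (hK : ∀ a b : K, a * b = b * a)
    (c : Q₁ → Q₂ → K) (hl : ∀ x y z, c (x * y) z = c x z * c y z)
    (hr : ∀ x y z, c x (y * z) = c x y * c x z) :
    ∃ π : Multiplicative (TT Q₁ Q₂) →* K, ∀ x y, π (Multiplicative.ofAdd (tt x y)) = c x y := by
  letI iK : CommGroup K := { (inferInstance : Group K) with mul_comm := hK }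
  have hone : ∀ z, c 1 z = 1 := by
    intro z
    have := hl 1 1 z
    rw [one_mul] at this
    exact left_eq_mul.mp this
  have hone' : ∀ z, c z 1 = 1 := by
    intro z
    have := hr z 1 1
    rw [one_mul] at this
    exact left_eq_mul.mp this
  let row : Q₁ →* (Abelianization Q₂ →* K) :=
    { toFun := fun x => Abelianization.lift
        { toFun := fun y => c x y
          map_one' := hone' x
          map_mul' := fun y z => hr x y z }
      map_one' := by
        apply Abelianization.hom_ext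
        ext y
        simp [hone]
      map_mul' := by
        intro x x'
        apply Abelianization.hom_ext
        ext y
        simp [hl] }
  let L : Abelianization Q₁ →* (Abelianization Q₂ →* K) := Abelianization.lift row
  let fadd : Additive (Abelianization Q₁) →+ Additive (Abelianization Q₂) →+ Additive K :=
    { toFun := fun x => MonoidHom.toAdditive (L x.toMul)
      map_zero' := by
        ext y
        simp
      map_add' := by
        intro x x'
        ext y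
        simp }
  have hf : ∀ (r : ℤ) (m : Additive (Abelianization Q₁)) (n : Additive (Abelianization Q₂)),
      fadd (r • m) n = fadd m (r • n) := by
    intro r m n
    rw [map_zsmul, map_zsmul]
    rfl
  let lift0 : TT Q₁ Q₂ →+ Additive K := TensorProduct.liftAddHom fadd hf
  refine ⟨{ toFun := fun t => (lift0 t.toAdd).toMul
            map_one' := by simp
            map_mul' := by
              intro s t
              simp }, ?_⟩
  intro x y
  show (lift0 (tt x y)).toMul = c x y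
  simp only [tt, lift0, TensorProduct.liftAddHom_tmul]
  rfl

/-- Descent of a bimultiplicative map along surjections. -/
theorem exists_bimul_descend {D₁ D₂ K : Type*} [Group D₁] [Group D₂] [Group K]
    (ξ₁ : D₁ →* Q₁) (ξ₂ : D₂ →* Q₂) (h₁ : Function.Surjective ξ₁) (h₂ : Function.Surjective ξ₂)
    (c : D₁ → D₂ → K) (hl : ∀ x y z, c (x * y) z = c x z * c y z)
    (hr : ∀ x y z, c x (y * z) = c x y * c x z)
    (hk1 : ∀ x y, ξ₁ x = 1 → c x y = 1) (hk2 : ∀ x y, ξ₂ y = 1 → c x y = 1) :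
    ∃ c' : Q₁ → Q₂ → K, (∀ x y z, c' (x * y) z = c' x z * c' y z) ∧
      (∀ x y z, c' x (y * z) = c' x y * c' x z) ∧ ∀ x y, c' (ξ₁ x) (ξ₂ y) = c x y := by
  choose s₁ hs₁ using h₁
  choose s₂ hs₂ using h₂
  have eq1 : ∀ x x' y, ξ₁ x = ξ₁ x' → c x y = c x' y := by
    intro x x' y h
    have h0 : x' = x * (x⁻¹ * x') := by group
    rw [h0, hl, hk1 (x⁻¹ * x') y (by rw [map_mul, map_inv, h, inv_mul_cancel]), mul_one]
  have eq2 : ∀ x y y', ξ₂ y = ξ₂ y' → c x y = c x y' := by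
    intro x y y' h
    have h0 : y' = y * (y⁻¹ * y') := by group
    rw [h0, hr, hk2 x (y⁻¹ * y') (by rw [map_mul, map_inv, h, inv_mul_cancel]), mul_one]
  refine ⟨fun a b => c (s₁ a) (s₂ b), ?_, ?_, ?_⟩
  · intro a a' b
    show c (s₁ (a * a')) (s₂ b) = _
    rw [eq1 (s₁ (a * a')) (s₁ a * s₁ a') _ (by rw [map_mul, hs₁, hs₁, hs₁]), hl]
  · intro a b b'
    show c (s₁ a) (s₂ (b * b')) = _
    rw [eq2 _ (s₂ (b * b')) (s₂ b * s₂ b') (by rw [map_mul, hs₂, hs₂, hs₂]), hr]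
  · intro x y
    show c (s₁ (ξ₁ x)) (s₂ (ξ₂ y)) = _
    rw [eq1 (s₁ (ξ₁ x)) x _ (hs₁ _), eq2 x (s₂ (ξ₂ y)) y (hs₂ _)]

end tt

instance tt_finite {Q₁ : Type u} {Q₂ : Type v} [Group Q₁] [Group Q₂] [Finite Q₁] [Finite Q₂] :
    Finite (TT Q₁ Q₂) := by
  have hfin1 : Finite (Additive (Abelianization Q₁)) :=
    Finite.of_surjective (fun x : Q₁ => Additive.ofMul (Abelianization.of x)) (by
      intro x
      obtain ⟨x', hx'⟩ := QuotientGroup.mk_surjective (Additive.toMul x)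
      exact ⟨x', congrArg Additive.ofMul hx'⟩)
  have hfin2 : Finite (Additive (Abelianization Q₂)) :=
    Finite.of_surjective (fun x : Q₂ => Additive.ofMul (Abelianization.of x)) (by
      intro x
      obtain ⟨x', hx'⟩ := QuotientGroup.mk_surjective (Additive.toMul x)
      exact ⟨x', congrArg Additive.ofMul hx'⟩)
  haveI : Module.Finite ℤ (Additive (Abelianization Q₁)) := Module.Finite.of_finite
  haveI : Module.Finite ℤ (Additive (Abelianization Q₂)) := Module.Finite.of_finite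
  have hfin : Module.Finite ℤ (TT Q₁ Q₂) := Module.Finite.tensorProduct ℤ _ _
  refine @Module.finite_of_fg_torsion (TT Q₁ Q₂) _ _ hfin ?_
  intro t
  have hn : Nat.card Q₁ ≠ 0 := Nat.card_pos.ne'
  refine ⟨⟨(Nat.card Q₁ : ℤ), mem_nonZeroDivisors_of_ne_zero (by exact_mod_cast hn)⟩, ?_⟩
  show ((Nat.card Q₁ : ℤ)) • t = 0
  induction t using tt_induction with
  | h0 => simp
  | ht x y =>
    have hp : x ^ Nat.card Q₁ = 1 := pow_card_eq_one'
    have : (Nat.card Q₁ : ℤ) • tt x y = tt (x ^ Nat.card Q₁) y := by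
      have : ∀ n : ℕ, tt (x ^ n) y = (n : ℤ) • tt x y := by
        intro n
        induction n with
        | zero => simp [tt_one_left]
        | succ n ih =>
          rw [pow_succ, tt_mul_left, ih]
          push_cast
          rw [add_smul, one_smul]
      exact (this _).symm
    rw [this, hp, tt_one_left]
  | ha s t hs ht => rw [smul_add, hs, ht, add_zero]

section existence

variable {Q₁ : Type u} {Q₂ : Type v} [Group Q₁] [Group Q₂]
  {Γ₁ : Type u} {Γ₂ : Type v} [Group Γ₁] [Group Γ₂] (σ₁ : Γ₁ →* Q₁) (σ₂ : Γ₂ →* Q₂)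

/-- The cocycle of the product cover. -/
def prodCoc : BiMul (Γ₁ × Γ₂) (TT Q₁ Q₂) where
  f := fun x y => tt (σ₁ x.1) (σ₂ y.2)
  hl := by
    intro x y z
    simp only [Prod.fst_mul, map_mul, tt_mul_left]
  hr := by
    intro x y z
    simp only [Prod.snd_mul, map_mul, tt_mul_right]

/-- The product cover's projection. -/
def prodProj : CocExt (prodCoc σ₁ σ₂) →* Q₁ × Q₂ :=
  (σ₁.prodMap σ₂).comp CocExt.proj

theorem prodProj_apply (x : CocExt (prodCoc σ₁ σ₂)) :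
    prodProj σ₁ σ₂ x = (σ₁ x.g.1, σ₂ x.g.2) := rfl

theorem mem_ker_prodProj {x : CocExt (prodCoc σ₁ σ₂)} :
    x ∈ (prodProj σ₁ σ₂).ker ↔ σ₁ x.g.1 = 1 ∧ σ₂ x.g.2 = 1 := by
  rw [MonoidHom.mem_ker, prodProj_apply, Prod.ext_iff]
  rfl

/-- First inclusion. -/
def prodI₁ : Γ₁ →* CocExt (prodCoc σ₁ σ₂) where
  toFun := fun g => ⟨(g, 1), 0⟩
  map_one' := rfl
  map_mul' := by
    intro x y
    apply CocExt.ext
    · apply Prod.ext
      · rfl
      · show (1 : Γ₂) = 1 * 1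
        simp
    · show (0 : TT Q₁ Q₂) = 0 + 0 + tt (σ₁ x) (σ₂ 1)
      simp [tt_one_right]

/-- Second inclusion. -/
def prodI₂ : Γ₂ →* CocExt (prodCoc σ₁ σ₂) where
  toFun := fun g => ⟨(1, g), 0⟩
  map_one' := rfl
  map_mul' := by
    intro x y
    apply CocExt.ext
    · apply Prod.ext
      · show (1 : Γ₁) = 1 * 1
        simp
      · rfl
    · show (0 : TT Q₁ Q₂) = 0 + 0 + tt (σ₁ 1) (σ₂ y)
      simp [tt_one_left]

theorem prod_commT (h₁ : Function.Surjective σ₁) (h₂ : Function.Surjective σ₂) :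
    CocExt.commT (prodCoc σ₁ σ₂) = ⊤ := by
  rw [eq_top_iff]
  intro t _
  induction t using tt_induction with
  | h0 => exact AddSubgroup.zero_mem _
  | ht x y =>
    obtain ⟨g₁, rfl⟩ := h₁ x
    obtain ⟨g₂, rfl⟩ := h₂ y
    have := CocExt.comm_mem_commT (b := prodCoc σ₁ σ₂) (g₁, (1 : Γ₂)) ((1 : Γ₁), g₂) (by simp)
    simpa [prodCoc, tt_one_left, tt_one_right] using this
  | ha s t hs ht => exact AddSubgroup.add_mem _ (hs trivial) (ht trivial)

theorem prodProj_isStem (h₁ : Cfsg.IsStemExtension σ₁) (h₂ : Cfsg.IsStemExtension σ₂) :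
    Cfsg.IsStemExtension (prodProj σ₁ σ₂) := by
  refine ⟨?_, ?_, ?_⟩
  · rintro ⟨a, b⟩
    obtain ⟨g₁, rfl⟩ := h₁.1 a
    obtain ⟨g₂, rfl⟩ := h₂.1 b
    exact ⟨⟨(g₁, g₂), 0⟩, rfl⟩
  · intro x hx
    rw [mem_ker_prodProj] at hx
    apply CocExt.mem_center_of
    · rw [Subgroup.mem_center_iff]
      rintro ⟨a, b⟩
      have h3 := Subgroup.mem_center_iff.mp (h₁.2.1 (MonoidHom.mem_ker.mpr hx.1)) a
      have h4 := Subgroup.mem_center_iff.mp (h₂.2.1 (MonoidHom.mem_ker.mpr hx.2)) b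
      exact Prod.ext h3 h4
    · intro y
      show tt (σ₁ x.g.1) (σ₂ y.2) = tt (σ₁ y.1) (σ₂ x.g.2)
      rw [hx.1, hx.2, tt_one_left, tt_one_right]
  · intro x hx
    rw [mem_ker_prodProj] at hx
    have hdec : x = prodI₁ σ₁ σ₂ x.g.1 * prodI₂ σ₁ σ₂ x.g.2 * CocExt.ofT x.t := by
      apply CocExt.ext
      · apply Prod.ext
        · show x.g.1 = x.g.1 * 1 * 1
          simp
        · show x.g.2 = 1 * x.g.2 * 1
          simp
      · show x.t = 0 + 0 + tt (σ₁ x.g.1) (σ₂ x.g.2) + x.t + tt (σ₁ (x.g.1 * 1)) (σ₂ 1)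
        rw [hx.1, tt_one_left, map_one, tt_one_right]
        simp
    rw [hdec]
    refine Subgroup.mul_mem _ (Subgroup.mul_mem _ ?_ ?_) ?_
    · have := Subgroup.mem_map_of_mem (prodI₁ σ₁ σ₂) (h₁.2.2 (MonoidHom.mem_ker.mpr hx.1))
      rw [commutator_def, Subgroup.map_commutator] at this
      rw [commutator_def]
      exact Subgroup.commutator_mono le_top le_top this
    · have := Subgroup.mem_map_of_mem (prodI₂ σ₁ σ₂) (h₂.2.2 (MonoidHom.mem_ker.mpr hx.2))
      rw [commutator_def, Subgroup.map_commutator] at this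
      rw [commutator_def]
      exact Subgroup.commutator_mono le_top le_top this
    · have : x.t ∈ CocExt.commT (prodCoc σ₁ σ₂) := by
        rw [prod_commT σ₁ σ₂ h₁.1 h₂.1]
        trivial
      exact this

/-- The kernel of the product cover. -/
def prodKerEquiv : (prodProj σ₁ σ₂).ker ≃* σ₁.ker × σ₂.ker × Multiplicative (TT Q₁ Q₂) where
  toFun := fun x =>
    (⟨x.1.g.1, ((mem_ker_prodProj σ₁ σ₂).mp x.2).1⟩, ⟨x.1.g.2, ((mem_ker_prodProj σ₁ σ₂).mp x.2).2⟩,
      Multiplicative.ofAdd x.1.t)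
  invFun := fun p => ⟨⟨(p.1.1, p.2.1.1), p.2.2.toAdd⟩, (mem_ker_prodProj σ₁ σ₂).mpr ⟨p.1.2, p.2.1.2⟩⟩
  left_inv := by
    rintro ⟨x, hx⟩
    rfl
  right_inv := by
    rintro ⟨⟨a, ha⟩, ⟨b, hb⟩, t⟩
    rfl
  map_mul' := by
    rintro ⟨x, hx⟩ ⟨y, hy⟩
    have hx' := (mem_ker_prodProj σ₁ σ₂).mp hx
    refine Prod.ext rfl (Prod.ext rfl ?_)
    have h0 : tt (σ₁ x.g.1) (σ₂ y.g.2) = 0 := by rw [hx'.1, tt_one_left]
    show Multiplicative.ofAdd (x.t + y.t + tt (σ₁ x.g.1) (σ₂ y.g.2)) =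
      Multiplicative.ofAdd x.t * Multiplicative.ofAdd y.t
    rw [h0, add_zero]
    rfl

end existence

section surjection

variable {Q₁ : Type u} {Q₂ : Type v} [Group Q₁] [Group Q₂]
  {Δ : Type w} [Group Δ] (τ : Δ →* Q₁ × Q₂) 

/-- Elements over the first factor. -/
abbrev prodD₁ : Subgroup Δ := ((MonoidHom.snd Q₁ Q₂).comp τ).ker
/-- Elements over the second factor. -/
abbrev prodD₂ : Subgroup Δ := ((MonoidHom.fst Q₁ Q₂).comp τ).ker
/-- Projection from the first part. -/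
def prodξ₁ : prodD₁ τ →* Q₁ := ((MonoidHom.fst Q₁ Q₂).comp τ).comp (prodD₁ τ).subtype
/-- Projection from the second part. -/
def prodξ₂ : prodD₂ τ →* Q₂ := ((MonoidHom.snd Q₁ Q₂).comp τ).comp (prodD₂ τ).subtype

variable {τ}

theorem prodξ₁_surj (hτ : Function.Surjective τ) : Function.Surjective (prodξ₁ τ) := by
  intro a
  obtain ⟨d, hd⟩ := hτ (a, 1)
  refine ⟨⟨d, ?_⟩, ?_⟩
  · simp [MonoidHom.mem_ker, hd]
  · simp [prodξ₁, hd]

theorem prodξ₂_surj (hτ : Function.Surjective τ) : Function.Surjective (prodξ₂ τ) := by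
  intro a
  obtain ⟨d, hd⟩ := hτ (1, a)
  refine ⟨⟨d, ?_⟩, ?_⟩
  · simp [MonoidHom.mem_ker, hd]
  · simp [prodξ₂, hd]

theorem mem_ker_of_D₁ {x : Δ} (hx : x ∈ prodD₁ τ) (h : (τ x).1 = 1) : x ∈ τ.ker := by
  rw [MonoidHom.mem_ker] at hx ⊢
  exact Prod.ext h hx

theorem mem_ker_of_D₂ {x : Δ} (hx : x ∈ prodD₂ τ) (h : (τ x).2 = 1) : x ∈ τ.ker := by
  rw [MonoidHom.mem_ker] at hx ⊢
  exact Prod.ext hx h

theorem prodξ₁_ker_le (hτ : τ.ker ≤ Subgroup.center Δ) :
    (prodξ₁ τ).ker ≤ Subgroup.center (prodD₁ τ) := by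
  intro x hx
  rw [Subgroup.mem_center_iff]
  intro y
  apply Subtype.ext
  exact Subgroup.mem_center_iff.mp (hτ (mem_ker_of_D₁ x.2 hx)) y.1

theorem prodξ₂_ker_le (hτ : τ.ker ≤ Subgroup.center Δ) :
    (prodξ₂ τ).ker ≤ Subgroup.center (prodD₂ τ) := by
  intro x hx
  rw [Subgroup.mem_center_iff]
  intro y
  apply Subtype.ext
  exact Subgroup.mem_center_iff.mp (hτ (mem_ker_of_D₂ x.2 hx)) y.1

theorem comm_mem_ker {x y : Δ} (hx : x ∈ prodD₁ τ) (hy : y ∈ prodD₂ τ) : ⁅x, y⁆ ∈ τ.ker := by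
  rw [MonoidHom.mem_ker] at hx hy ⊢
  rw [map_commutatorElement, commutatorElement_eq_one_iff_commute]
  have hx' : (τ x).2 = 1 := hx
  have hy' : (τ y).1 = 1 := hy
  exact Prod.ext (by simp [hy']) (by simp [hx'])

/-- Over the first factor, the central extension gives the map on the tensor. -/
theorem exists_pair_hom (hs : Function.Surjective τ) (hτ : τ.ker ≤ Subgroup.center Δ) :
    ∃ π : Multiplicative (TT Q₁ Q₂) →* τ.ker, ∀ (x : prodD₁ τ) (y : prodD₂ τ),
      ((π (Multiplicative.ofAdd (tt (prodξ₁ τ x) (prodξ₂ τ y))) : τ.ker) : Δ) = ⁅(x : Δ), (y : Δ)⁆ := by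
  have hcen : ∀ k ∈ τ.ker, ∀ g : Δ, g * k = k * g := fun k hk g =>
    Subgroup.mem_center_iff.mp (hτ hk) g
  have hKcomm : ∀ a b : τ.ker, a * b = b * a := by
    rintro ⟨a, ha⟩ ⟨b, hb⟩
    exact Subtype.ext (hcen b hb a)
  let c : prodD₁ τ → prodD₂ τ → τ.ker := fun x y => ⟨⁅(x : Δ), (y : Δ)⁆, comm_mem_ker x.2 y.2⟩
  have hl : ∀ x y z, c (x * y) z = c x z * c y z := by
    intro x y z
    apply Subtype.ext
    show ⁅(x : Δ) * y, (z : Δ)⁆ = ⁅(x : Δ), (z : Δ)⁆ * ⁅(y : Δ), (z : Δ)⁆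
    exact comm_mul_left_of_central _ _ _ (hcen _ (comm_mem_ker y.2 z.2))
  have hr : ∀ x y z, c x (y * z) = c x y * c x z := by
    intro x y z
    apply Subtype.ext
    show ⁅(x : Δ), (y : Δ) * z⁆ = ⁅(x : Δ), (y : Δ)⁆ * ⁅(x : Δ), (z : Δ)⁆
    exact comm_mul_right_of_central _ _ _ (hcen _ (comm_mem_ker x.2 z.2))
  have hk1 : ∀ x y, prodξ₁ τ x = 1 → c x y = 1 := by
    intro x y h
    apply Subtype.ext
    show ⁅(x : Δ), (y : Δ)⁆ = 1
    rw [commutatorElement_eq_one_iff_commute]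
    exact (hcen _ (mem_ker_of_D₁ x.2 h) y.1).symm
  have hk2 : ∀ x y, prodξ₂ τ y = 1 → c x y = 1 := by
    intro x y h
    apply Subtype.ext
    show ⁅(x : Δ), (y : Δ)⁆ = 1
    rw [commutatorElement_eq_one_iff_commute]
    exact hcen _ (mem_ker_of_D₂ y.2 h) x.1
  obtain ⟨c', h1, h2, h3⟩ := exists_bimul_descend (prodξ₁ τ) (prodξ₂ τ) (prodξ₁_surj hs)
    (prodξ₂_surj hs) c hl hr hk1 hk2
  obtain ⟨π, hπ⟩ := exists_tensor_hom hKcomm c' h1 h2
  refine ⟨π, ?_⟩
  intro x y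
  rw [hπ, h3]

/-- The commutator of `Δ` is generated by the commutators of its two parts. -/
theorem commutator_le_prod (hs : Function.Surjective τ) (hτ : τ.ker ≤ Subgroup.center Δ) :
    commutator Δ ≤ ⁅prodD₁ τ, prodD₁ τ⁆ ⊔ ⁅prodD₂ τ, prodD₂ τ⁆ ⊔ ⁅prodD₁ τ, prodD₂ τ⁆ := by
  apply commutator_le_of_gens ((prodD₁ τ : Set Δ) ∪ (prodD₂ τ : Set Δ))
  · rw [eq_top_iff]
    intro δ _
    obtain ⟨d₁, hd₁⟩ := hs ((τ δ).1, 1)
    obtain ⟨d₂, hd₂⟩ := hs (1, (τ δ).2)
    have hd1 : d₁ ∈ prodD₁ τ := by simp [MonoidHom.mem_ker, hd₁]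
    have hd2 : d₂ ∈ prodD₂ τ := by simp [MonoidHom.mem_ker, hd₂]
    have hk : δ * (d₁ * d₂)⁻¹ ∈ prodD₁ τ := by
      rw [MonoidHom.mem_ker]
      simp [hd₁, hd₂]
    have : δ = (δ * (d₁ * d₂)⁻¹) * d₁ * d₂ := by group
    rw [this]
    refine Subgroup.mul_mem _ (Subgroup.mul_mem _ ?_ ?_) ?_
    · exact Subgroup.subset_closure (Or.inl hk)
    · exact Subgroup.subset_closure (Or.inl hd1)
    · exact Subgroup.subset_closure (Or.inr hd2)
  · rintro x (hx | hx) y (hy | hy)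
    · exact Subgroup.mem_sup_left (Subgroup.mem_sup_left
        (Subgroup.commutator_mem_commutator hx hy))
    · exact Subgroup.mem_sup_right (Subgroup.commutator_mem_commutator hx hy)
    · rw [← commutatorElement_inv]
      exact Subgroup.inv_mem _ (Subgroup.mem_sup_right (Subgroup.commutator_mem_commutator hy hx))
    · exact Subgroup.mem_sup_left (Subgroup.mem_sup_right
        (Subgroup.commutator_mem_commutator hx hy))

theorem comm4 {K : Type*} [Group K] (h : ∀ a b : K, a * b = b * a) (a a' b b' c c' : K) :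
    a * a' * (b * b') * (c * c') = a * b * c * (a' * b' * c') := by
  have h1 : a' * b = b * a' := h _ _
  have h2 : (a' * b') * c = c * (a' * b') := h _ _
  calc a * a' * (b * b') * (c * c') = a * (a' * b) * b' * (c * c') := by simp only [mul_assoc]
    _ = a * (b * a') * b' * (c * c') := by rw [h1]
    _ = a * b * ((a' * b') * c) * c' := by simp only [mul_assoc]
    _ = a * b * (c * (a' * b')) * c' := by rw [h2]
    _ = _ := by simp only [mul_assoc]

theorem prod_surjection [Finite Q₁] [Finite Q₂] {A B : Type*} [CommGroup A] [CommGroup B]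
    (hA : Cfsg.HasSchurMultiplier Q₁ A) (hB : Cfsg.HasSchurMultiplier Q₂ B)
    (hτ : Cfsg.IsStemExtension τ) :
    ∃ π : A × B × Multiplicative (TT Q₁ Q₂) →* τ.ker, Function.Surjective π := by
  have hε₁ := Hopf.canon_surjective Q₁
  have hε₂ := Hopf.canon_surjective Q₂
  obtain ⟨e₁⟩ := Hopf.nonempty_equiv_covM (Hopf.canon Q₁) hε₁ hA
  obtain ⟨e₂⟩ := Hopf.nonempty_equiv_covM (Hopf.canon Q₂) hε₂ hB
  have hs₁ := prodξ₁_surj hτ.1
  have hs₂ := prodξ₂_surj hτ.1
  have hk₁ := prodξ₁_ker_le hτ.2.1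
  have hk₂ := prodξ₂_ker_le hτ.2.1
  obtain ⟨θ₁, hθ₁⟩ := Hopf.exists_cov_lift (Hopf.canon Q₁) (prodξ₁ τ) hs₁ hk₁
  obtain ⟨θ₂, hθ₂⟩ := Hopf.exists_cov_lift (Hopf.canon Q₂) (prodξ₂ τ) hs₂ hk₂
  have hcen : ∀ k ∈ τ.ker, ∀ g : Δ, g * k = k * g := fun k hk g =>
    Subgroup.mem_center_iff.mp (hτ.2.1 hk) g
  have hKcomm : ∀ a b : τ.ker, a * b = b * a := by
    rintro ⟨a, ha⟩ ⟨b, hb⟩
    exact Subtype.ext (hcen b hb a)
  let f₁ : A →* τ.ker :=
    { toFun := fun a => ⟨((θ₁ (e₁ a).1 : prodD₁ τ) : Δ), mem_ker_of_D₁ (θ₁ (e₁ a).1).2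
        (Hopf.image_covM_mem (Hopf.canon Q₁) (prodξ₁ τ) θ₁ hθ₁ (e₁ a).2).1⟩
      map_one' := by
        apply Subtype.ext
        simp
      map_mul' := by
        intro a b
        apply Subtype.ext
        simp }
  let f₂ : B →* τ.ker :=
    { toFun := fun a => ⟨((θ₂ (e₂ a).1 : prodD₂ τ) : Δ), mem_ker_of_D₂ (θ₂ (e₂ a).1).2
        (Hopf.image_covM_mem (Hopf.canon Q₂) (prodξ₂ τ) θ₂ hθ₂ (e₂ a).2).1⟩
      map_one' := by
        apply Subtype.ext
        simp
      map_mul' := by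
        intro a b
        apply Subtype.ext
        simp }
  obtain ⟨π₃, hπ₃⟩ := exists_pair_hom hτ.1 hτ.2.1
  refine ⟨{ toFun := fun p => f₁ p.1 * f₂ p.2.1 * π₃ p.2.2
            map_one' := by simp
            map_mul' := by
              rintro ⟨a, b, t⟩ ⟨a', b', t'⟩
              simp only [Prod.mk_mul_mk, map_mul]
              exact comm4 hKcomm _ _ _ _ _ _ }, ?_⟩
  rintro ⟨y, hy⟩
  have hyc := commutator_le_prod hτ.1 hτ.2.1 (hτ.2.2 hy)
  obtain ⟨p, hp, c, hc, rfl⟩ := Subgroup.mem_sup_of_normal_right.mp hyc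
  obtain ⟨u, hu, v, hv, rfl⟩ := Subgroup.mem_sup_of_normal_right.mp hp
  have hu1 : u ∈ prodD₁ τ := Subgroup.commutator_le_left _ _ hu
  have hv1 : v ∈ prodD₂ τ := Subgroup.commutator_le_left _ _ hv
  have hc1 : c ∈ τ.ker := by
    have : ⁅prodD₁ τ, prodD₂ τ⁆ ≤ τ.ker := by
      rw [Subgroup.commutator_le]
      intro a ha b hb
      exact comm_mem_ker ha hb
    exact this hc
  have hy1 : τ u * τ v = 1 := by
    have := MonoidHom.mem_ker.mp hy
    rw [map_mul, map_mul, MonoidHom.mem_ker.mp hc1, mul_one] at this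
    exact this
  have hu2 : (τ u).2 = 1 := hu1
  have hv2 : (τ v).1 = 1 := hv1
  have hu3 : (τ u).1 = 1 := by
    have := congrArg Prod.fst hy1
    simpa [hv2] using this
  have hv3 : (τ v).2 = 1 := by
    have := congrArg Prod.snd hy1
    simpa [hu2] using this
  -- the three components
  have hu' : ∃ a : A, ((f₁ a : τ.ker) : Δ) = u := by
    rw [← Subgroup.map_subtype_commutator] at hu
    obtain ⟨u', hu'1, rfl⟩ := hu
    obtain ⟨w, hw, hw2⟩ := Hopf.mem_image_covM (Hopf.canon Q₁) (prodξ₁ τ) hk₁ θ₁ hθ₁ hε₁ hs₁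
      (y := u') hu3 hu'1
    refine ⟨e₁.symm ⟨w, hw⟩, ?_⟩
    show ((θ₁ (e₁ (e₁.symm ⟨w, hw⟩)).1 : prodD₁ τ) : Δ) = _
    rw [MulEquiv.apply_symm_apply, hw2]
    rfl
  have hv' : ∃ b : B, ((f₂ b : τ.ker) : Δ) = v := by
    rw [← Subgroup.map_subtype_commutator] at hv
    obtain ⟨v', hv'1, rfl⟩ := hv
    obtain ⟨w, hw, hw2⟩ := Hopf.mem_image_covM (Hopf.canon Q₂) (prodξ₂ τ) hk₂ θ₂ hθ₂ hε₂ hs₂
      (y := v') hv3 hv'1
    refine ⟨e₂.symm ⟨w, hw⟩, ?_⟩
    show ((θ₂ (e₂ (e₂.symm ⟨w, hw⟩)).1 : prodD₂ τ) : Δ) = _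
    rw [MulEquiv.apply_symm_apply, hw2]
    rfl
  have hc' : ∃ t, ((π₃ t : τ.ker) : Δ) = c := by
    have : ⁅prodD₁ τ, prodD₂ τ⁆ ≤ (π₃.range).map τ.ker.subtype := by
      rw [Subgroup.commutator_le]
      intro a ha b hb
      exact ⟨π₃ (Multiplicative.ofAdd (tt (prodξ₁ τ ⟨a, ha⟩) (prodξ₂ τ ⟨b, hb⟩))), ⟨_, rfl⟩,
        hπ₃ ⟨a, ha⟩ ⟨b, hb⟩⟩
    obtain ⟨_, ⟨t, rfl⟩, hz⟩ := this hc
    exact ⟨t, hz⟩
  obtain ⟨a, rfl⟩ := hu'
  obtain ⟨b, rfl⟩ := hv'
  obtain ⟨t, rfl⟩ := hc'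
  exact ⟨(a, b, t), Subtype.ext rfl⟩

end surjection

/-- The Schur multiplier of a direct product. -/
theorem hasSchurMultiplier_prod {Q₁ : Type u} {Q₂ : Type v} [Group Q₁] [Group Q₂] [Finite Q₁] [Finite Q₂]
    {A B : Type w} [CommGroup A] [CommGroup B] (hA : Cfsg.HasSchurMultiplier Q₁ A)
    (hB : Cfsg.HasSchurMultiplier Q₂ B) :
    Cfsg.HasSchurMultiplier (Q₁ × Q₂) (A × B × Multiplicative (TT Q₁ Q₂)) := by
  refine ⟨?_, ?_⟩
  · obtain ⟨⟨Γ₁, _, _, σ₁, h₁, ⟨e₁⟩⟩, _⟩ := hA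
    obtain ⟨⟨Γ₂, _, _, σ₂, h₂, ⟨e₂⟩⟩, _⟩ := hB
    exact ⟨CocExt (prodCoc σ₁ σ₂), inferInstance, inferInstance, prodProj σ₁ σ₂,
      prodProj_isStem σ₁ σ₂ h₁ h₂,
      ⟨(prodKerEquiv σ₁ σ₂).trans (e₁.prodCongr (e₂.prodCongr (MulEquiv.refl _)))⟩⟩
  · intro Γ _ _ σ hσ
    exact prod_surjection hA hB hσ

/-- Isomorphic groups are multipliers together. -/
theorem hasSchurMultiplier_congr {G : Type u} [Group G] {A : Type v} {A' : Type w} [CommGroup A]
    [CommGroup A'] (h : Cfsg.HasSchurMultiplier G A) (e : A ≃* A') : Cfsg.HasSchurMultiplier G A' := by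
  obtain ⟨⟨Γ, i1, i2, σ, hσ, ⟨e'⟩⟩, h2⟩ := h
  refine ⟨⟨Γ, i1, i2, σ, hσ, ⟨e'.trans e⟩⟩, ?_⟩
  intro Γ' _ _ σ' hσ'
  obtain ⟨π, hπ⟩ := h2 Γ' σ' hσ'
  exact ⟨π.comp e.symm.toMonoidHom, hπ.comp e.symm.surjective⟩

/-- The tensor product vanishes when the commutator quotients have coprime orders. -/
theorem tt_subsingleton {Q₁ : Type u} {Q₂ : Type v} [Group Q₁] [Group Q₂] [Finite Q₁] [Finite Q₂]
    (hcop : Nat.Coprime (Nat.card (Abelianization Q₁)) (Nat.card (Abelianization Q₂))) :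
    Subsingleton (TT Q₁ Q₂) := by
  haveI : Finite (Abelianization Q₁) :=
    Finite.of_surjective (Abelianization.of : Q₁ →* _) (fun x => QuotientGroup.mk_surjective x)
  haveI : Finite (Abelianization Q₂) :=
    Finite.of_surjective (Abelianization.of : Q₂ →* _) (fun x => QuotientGroup.mk_surjective x)
  have hpow : ∀ (x : Q₁) (y : Q₂) (n : ℕ), tt (x ^ n) y = (n : ℤ) • tt x y := by
    intro x y n
    induction n with
    | zero => simp [tt_one_left]
    | succ n ih =>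
      rw [pow_succ, tt_mul_left, ih]
      push_cast
      rw [add_smul, one_smul]
  have hpow' : ∀ (x : Q₁) (y : Q₂) (n : ℕ), tt x (y ^ n) = (n : ℤ) • tt x y := by
    intro x y n
    induction n with
    | zero => simp [tt_one_right]
    | succ n ih =>
      rw [pow_succ, tt_mul_right, ih]
      push_cast
      rw [add_smul, one_smul]
  have h1 : ∀ (x : Q₁) (y : Q₂), (Nat.card (Abelianization Q₁) : ℤ) • tt x y = 0 := by
    intro x y
    rw [← hpow]
    have : Abelianization.of (x ^ Nat.card (Abelianization Q₁)) = 1 := by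
      rw [map_pow, pow_card_eq_one']
    simp only [tt, this, ofMul_one, TensorProduct.zero_tmul]
  have h2 : ∀ (x : Q₁) (y : Q₂), (Nat.card (Abelianization Q₂) : ℤ) • tt x y = 0 := by
    intro x y
    rw [← hpow']
    have : Abelianization.of (y ^ Nat.card (Abelianization Q₂)) = 1 := by
      rw [map_pow, pow_card_eq_one']
    simp only [tt, this, ofMul_one, TensorProduct.tmul_zero]
  have hb := Nat.isCoprime_iff_coprime.mpr hcop
  obtain ⟨a, b, hab⟩ := hb
  have h0 : ∀ (x : Q₁) (y : Q₂), tt x y = 0 := by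
    intro x y
    have : tt x y = (a * (Nat.card (Abelianization Q₁) : ℤ) + b * (Nat.card (Abelianization Q₂) : ℤ)) • tt x y := by
      rw [hab, one_smul]
    rw [this, add_smul, mul_smul, mul_smul, h1, h2, smul_zero, smul_zero, add_zero]
  refine ⟨fun s t => ?_⟩
  have hz : ∀ t : TT Q₁ Q₂, t = 0 := by
    intro t
    induction t using tt_induction with
    | h0 => rfl
    | ht x y => exact h0 x y
    | ha s t hs ht => rw [hs, ht, add_zero]
  rw [hz s, hz t]

/-- The Schur multiplier of a product with coprime commutator quotients. -/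
theorem hasSchurMultiplier_prod_coprime {Q₁ : Type u} {Q₂ : Type v} [Group Q₁] [Group Q₂] [Finite Q₁]
    [Finite Q₂] {A B : Type w} [CommGroup A] [CommGroup B] (hA : Cfsg.HasSchurMultiplier Q₁ A)
    (hB : Cfsg.HasSchurMultiplier Q₂ B)
    (hcop : Nat.Coprime (Nat.card (Abelianization Q₁)) (Nat.card (Abelianization Q₂))) :
    Cfsg.HasSchurMultiplier (Q₁ × Q₂) (A × B) := by
  haveI := tt_subsingleton hcop
  have h := hasSchurMultiplier_prod hA hB
  refine hasSchurMultiplier_congr h ?_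
  exact MulEquiv.prodCongr (MulEquiv.refl A)
    { toFun := fun p => p.1
      invFun := fun b => (b, 1)
      left_inv := by
        rintro ⟨b, t⟩
        refine Prod.ext rfl ?_
        exact (Subsingleton.elim (α := TT Q₁ Q₂) _ _)
      right_inv := fun _ => rfl
      map_mul' := fun _ _ => rfl }

end Cfsg.Agent.H19
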