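import Mathlib

/-! Central extensions of a group by bi-multiplicative cocycles (helper19). -/

set_option autoImplicit false
set_option linter.style.haveILetI false

namespace Cfsg.Agent.H19

open scoped commutatorElement

universe u v

/-- A function `G → G → T`, multiplicative in each variable. -/
structure BiMul (G : Type u) (T : Type v) [Group G] [AddCommGroup T] where
  f : G → G → T
  hl : ∀ x y z, f (x * y) z = f x z + f y z
  hr : ∀ x y z, f x (y * z) = f x y + f x z

namespace BiMul

variable {G : Type u} {T : Type v} [Group G] [AddCommGroup T] (b : BiMul G T)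

theorem f_one_left (z : G) : b.f 1 z = 0 := by
  have h := b.hl 1 1 z
  rw [one_mul] at h
  simpa using h

theorem f_one_right (z : G) : b.f z 1 = 0 := by
  have h := b.hr z 1 1
  rw [one_mul] at h
  simpa using h

theorem f_inv_left (x z : G) : b.f x⁻¹ z = - b.f x z := by
  have h := b.hl x⁻¹ x z
  rw [inv_mul_cancel, f_one_left] at h
  exact eq_neg_of_add_eq_zero_left h.symm

theorem f_inv_right (x z : G) : b.f z x⁻¹ = - b.f z x := by
  have h := b.hr z x⁻¹ x
  rw [inv_mul_cancel, f_one_right] at h
  exact eq_neg_of_add_eq_zero_left h.symm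

end BiMul

/-- The central extension of `G` by `T` with cocycle `b`. -/
@[ext] structure CocExt {G : Type u} {T : Type v} [Group G] [AddCommGroup T] (b : BiMul G T) where
  g : G
  t : T

namespace CocExt

variable {G : Type u} {T : Type v} [Group G] [AddCommGroup T] {b : BiMul G T}

instance : Mul (CocExt b) := ⟨fun x y => ⟨x.g * y.g, x.t + y.t + b.f x.g y.g⟩⟩
instance : One (CocExt b) := ⟨⟨1, 0⟩⟩
instance : Inv (CocExt b) := ⟨fun x => ⟨x.g⁻¹, - x.t + b.f x.g x.g⟩⟩

@[simp] theorem mul_g (x y : CocExt b) : (x * y).g = x.g * y.g := rfl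
@[simp] theorem mul_t (x y : CocExt b) : (x * y).t = x.t + y.t + b.f x.g y.g := rfl
@[simp] theorem one_g : (1 : CocExt b).g = 1 := rfl
@[simp] theorem one_t : (1 : CocExt b).t = 0 := rfl
@[simp] theorem inv_g (x : CocExt b) : (x⁻¹).g = x.g⁻¹ := rfl
@[simp] theorem inv_t (x : CocExt b) : (x⁻¹).t = - x.t + b.f x.g x.g := rfl

instance : Group (CocExt b) :=
  Group.ofLeftAxioms
    (by
      intro x y z
      ext
      · simp [mul_assoc]
      · simp only [mul_t, mul_g, b.hl, b.hr]
        abel)
    (by
      intro x
      ext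
      · simp
      · simp [b.f_one_left])
    (by
      intro x
      ext
      · simp
      · simp [b.f_inv_left])

/-- The projection onto `G`. -/
def proj : CocExt b →* G where
  toFun := CocExt.g
  map_one' := rfl
  map_mul' := fun _ _ => rfl

@[simp] theorem proj_apply (x : CocExt b) : proj x = x.g := rfl

theorem proj_surjective : Function.Surjective (proj : CocExt b →* G) :=
  fun y => ⟨⟨y, 0⟩, rfl⟩

/-- Central elements of the extension. -/
theorem mem_center_of {x : CocExt b} (h1 : x.g ∈ Subgroup.center G)
    (h2 : ∀ y, b.f x.g y = b.f y x.g) : x ∈ Subgroup.center (CocExt b) := by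
  rw [Subgroup.mem_center_iff]
  intro y
  have h3 := Subgroup.mem_center_iff.mp h1 y.g
  ext
  · simpa using h3
  · simp only [mul_t, h2 y.g]
    abel

/-- The element `(1, t)`. -/
def ofT (t : T) : CocExt b := ⟨1, t⟩

theorem ofT_mem_center (t : T) : (ofT t : CocExt b) ∈ Subgroup.center (CocExt b) := by
  apply mem_center_of
  · exact Subgroup.one_mem _
  · intro y
    show b.f 1 y = b.f y 1
    rw [b.f_one_left, b.f_one_right]

theorem ofT_add (s t : T) : (ofT (s + t) : CocExt b) = ofT s * ofT t := by
  ext
  · simp [ofT]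
  · simp [ofT, b.f_one_left]

theorem ofT_zero : (ofT 0 : CocExt b) = 1 := rfl

theorem ofT_neg (t : T) : (ofT (-t) : CocExt b) = (ofT t)⁻¹ := by
  ext
  · simp [ofT]
  · simp [ofT, b.f_one_left]

/-- Commutators of elements over a commuting pair. -/
theorem comm_eq_ofT (x y : CocExt b) (h : x.g * y.g = y.g * x.g) :
    ⁅x, y⁆ = ofT (b.f x.g y.g - b.f y.g x.g) := by
  have hz := ofT_mem_center (b := b) (b.f x.g y.g - b.f y.g x.g)
  have key : x * y = ofT (b.f x.g y.g - b.f y.g x.g) * (y * x) := by
    ext
    · simp [ofT, h]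
    · simp only [mul_t, mul_g, ofT, b.f_one_left]
      abel
  rw [commutatorElement_def, key]
  group

/-- The subgroup of those `t` with `(1,t)` a product of commutators. -/
def commT (b : BiMul G T) : AddSubgroup T where
  carrier := {t | (ofT t : CocExt b) ∈ commutator (CocExt b)}
  add_mem' := by
    intro s t hs ht
    show (ofT (s + t) : CocExt b) ∈ commutator (CocExt b)
    rw [ofT_add]
    exact Subgroup.mul_mem _ hs ht
  zero_mem' := by
    show (ofT 0 : CocExt b) ∈ commutator (CocExt b)
    rw [ofT_zero]
    exact Subgroup.one_mem _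
  neg_mem' := by
    intro s hs
    show (ofT (-s) : CocExt b) ∈ commutator (CocExt b)
    rw [ofT_neg]
    exact Subgroup.inv_mem _ hs

theorem comm_mem_commT (x y : G) (h : x * y = y * x) : b.f x y - b.f y x ∈ commT b := by
  show (ofT (b.f x y - b.f y x) : CocExt b) ∈ commutator (CocExt b)
  have h1 := comm_eq_ofT (⟨x, 0⟩ : CocExt b) ⟨y, 0⟩ h
  simp only at h1
  rw [← h1, commutator_def]
  exact Subgroup.commutator_mem_commutator (Subgroup.mem_top _) (Subgroup.mem_top _)


end CocExt

end Cfsg.Agent.H19
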