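import Mathlib
import Cfsg.Prelude.Def_KGroupFacts

/-! Schur multiplier of a finite presentation: at most `r - n` generators (helper19). -/

set_option autoImplicit false

namespace Cfsg.Agent.H19.Def

open Subgroup
open scoped commutatorElement

universe u

lemma comm_central {Γ : Type*} [Group Γ] (x y k l : Γ) (hk : ∀ g, k * g = g * k)
    (hl : ∀ g, l * g = g * l) :
    (x * k) * (y * l) * (x * k)⁻¹ * (y * l)⁻¹ = x * y * x⁻¹ * y⁻¹ := by
  have e1 : (x * k) * (y * l) = (x * y) * (k * l) := by
    calc (x * k) * (y * l) = x * (k * y) * l := by group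
      _ = x * (y * k) * l := by rw [hk]
      _ = _ := by group
  have e2 : (y * l) * (x * k) = (y * x) * (l * k) := by
    calc (y * l) * (x * k) = y * (l * x) * k := by group
      _ = y * (x * l) * k := by rw [hl]
      _ = _ := by group
  have e3 : (x * k)⁻¹ * (y * l)⁻¹ = ((y * l) * (x * k))⁻¹ := by group
  rw [mul_assoc, e3, e1, e2, hk l]
  group

theorem main (n : ℕ) (rels : Finset (FreeGroup (Fin n)))
    [Finite (PresentedGroup (rels : Set (FreeGroup (Fin n))))]
    {A : Type*} [CommGroup A] [Finite A]
    (hA : Cfsg.HasSchurMultiplier (PresentedGroup (rels : Set (FreeGroup (Fin n)))) A) :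
    Group.rank A ≤ rels.card - n := by
  classical
  obtain ⟨⟨Γ, _, _, σ, ⟨hsurj, hcen, hcomm⟩, ⟨iso⟩⟩, -⟩ := hA
  let F := FreeGroup (Fin n)
  let π : F →* PresentedGroup (rels : Set F) := PresentedGroup.mk (rels : Set F)
  have hπker : ∀ w : F, π w = 1 ↔ w ∈ Subgroup.normalClosure (rels : Set F) := by
    intro w
    exact QuotientGroup.eq_one_iff w
  choose γ hγ using fun i : Fin n => hsurj (PresentedGroup.of i)
  let φ : F →* Γ := FreeGroup.lift γ
  have hσφ : ∀ w : F, σ (φ w) = π w := by
    intro w
    have h1 : σ.comp φ = π := by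
      apply FreeGroup.ext_hom
      intro i
      simp only [MonoidHom.comp_apply, φ, FreeGroup.lift_apply_of]
      exact hγ i
    exact DFunLike.congr_fun h1 w
  have hπsurj : Function.Surjective π := PresentedGroup.mk_surjective _
  have hdec : ∀ g : Γ, ∃ w : F, ∃ k ∈ σ.ker, g = φ w * k := by
    intro g
    obtain ⟨w, hw⟩ := hπsurj (σ g)
    refine ⟨w, (φ w)⁻¹ * g, ?_, by group⟩
    rw [MonoidHom.mem_ker, map_mul, map_inv, hσφ, hw]
    group
  have hcentral : ∀ k ∈ σ.ker, ∀ g : Γ, k * g = g * k := by
    intro k hk g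
    exact (mem_center_iff.1 (hcen hk) g).symm
  have hcommS : commutator Γ ≤ φ.range := by
    rw [_root_.commutator_def, Subgroup.commutator_le]
    intro a _ b _
    obtain ⟨u, k, hk, rfl⟩ := hdec a
    obtain ⟨v, l, hl, rfl⟩ := hdec b
    rw [commutatorElement_def, comm_central _ _ _ _ (hcentral k hk) (hcentral l hl)]
    exact ⟨⁅u, v⁆, by simp [commutatorElement_def]⟩
  have hφsurj : Function.Surjective φ := by
    intro g
    obtain ⟨w, k, hk, rfl⟩ := hdec g
    obtain ⟨v, hv⟩ := hcommS (hcomm hk)
    exact ⟨w * v, by rw [map_mul, hv]⟩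
  have hcommmap : commutator Γ = (commutator F).map φ := by
    rw [_root_.commutator_def, _root_.commutator_def, Subgroup.map_commutator,
      Subgroup.map_top_of_surjective φ hφsurj]
  -- exponent sums
  let e' : F →* Multiplicative (Fin n → ℤ) :=
    FreeGroup.lift (fun i => Multiplicative.ofAdd (Pi.single i 1))
  have he'comm : ∀ w ∈ commutator F, e' w = 1 := by
    intro w hw
    exact (Abelianization.commutator_subset_ker e') hw
  let J := {x // x ∈ rels}
  have hrelker : ∀ j : J, φ j.1 ∈ σ.ker := by
    intro j
    rw [MonoidHom.mem_ker, hσφ, hπker]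
    exact Subgroup.subset_normalClosure j.2
  let v : J → Additive A := fun j => Additive.ofMul (iso ⟨φ j.1, hrelker j⟩)
  let ψ : (J → ℤ) →ₗ[ℤ] Additive A := Fintype.linearCombination ℤ v
  let E : (J → ℤ) →ₗ[ℤ] (Fin n → ℤ) :=
    Fintype.linearCombination ℤ (fun j : J => Multiplicative.toAdd (e' j.1))
  -- the key subgroup
  let T : Subgroup F :=
    { carrier := {w | ∃ c : J → ℤ, ∃ h : φ w ∈ σ.ker,
        Additive.ofMul (iso ⟨φ w, h⟩) = ψ c ∧ Multiplicative.toAdd (e' w) = E c}
      mul_mem' := by
        rintro a b ⟨c, h, h1, h2⟩ ⟨d, k, k1, k2⟩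
        have hab : φ (a * b) ∈ σ.ker := by rw [map_mul]; exact mul_mem h k
        refine ⟨c + d, hab, ?_, ?_⟩
        · rw [map_add, ← h1, ← k1, ← ofMul_mul, ← map_mul]
          congr 2
          exact Subtype.ext (map_mul φ a b)
        · rw [map_add, ← h2, ← k2, map_mul, toAdd_mul]
      one_mem' := by
        refine ⟨0, ?_, ?_, ?_⟩
        · rw [map_one]; exact one_mem _
        · rw [map_zero]
          have : (⟨φ 1, by rw [map_one]; exact one_mem _⟩ : σ.ker) = 1 := Subtype.ext (map_one φ)
          rw [this, map_one]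
          rfl
        · rw [map_zero, map_one]; rfl
      inv_mem' := by
        rintro a ⟨c, h, h1, h2⟩
        have ha : φ a⁻¹ ∈ σ.ker := by rw [map_inv]; exact inv_mem h
        refine ⟨-c, ha, ?_, ?_⟩
        · rw [map_neg, ← h1, ← ofMul_inv, ← map_inv]
          congr 2
          exact Subtype.ext (map_inv φ a)
        · rw [map_neg, ← h2, map_inv, toAdd_inv] }
  have hTnormal : T.Normal := by
    refine ⟨?_⟩
    rintro a ⟨c, h, h1, h2⟩ g
    have hφ : φ (g * a * g⁻¹) = φ a := by
      rw [map_mul, map_mul, map_inv, ← hcentral _ h (φ g)]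
      group
    have hmem : φ (g * a * g⁻¹) ∈ σ.ker := by rw [hφ]; exact h
    refine ⟨c, hmem, ?_, ?_⟩
    · rw [← h1]
      congr 2
      exact Subtype.ext hφ
    · have h3 : e' (g * a * g⁻¹) = e' a := by
        rw [map_mul, map_mul, map_inv, mul_comm (e' g) (e' a), mul_inv_cancel_right]
      rw [h3]
      exact h2
  have hrelT : (rels : Set F) ⊆ T := by
    intro w hw
    let j : J := ⟨w, hw⟩
    refine ⟨Pi.single j 1, hrelker j, ?_, ?_⟩
    · simp only [ψ]
      rw [Fintype.linearCombination_apply_single, one_smul]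
    · simp only [E]
      rw [Fintype.linearCombination_apply_single, one_smul]
  have hRT : Subgroup.normalClosure (rels : Set F) ≤ T :=
    Subgroup.normalClosure_le_normal hrelT
  -- surjectivity of ψ on the kernel of E
  have hsurjK : ∀ a : A, ∃ c : J → ℤ, E c = 0 ∧ ψ c = Additive.ofMul a := by
    intro a
    have hk : (iso.symm a : Γ) ∈ commutator Γ := hcomm (iso.symm a).2
    rw [hcommmap] at hk
    obtain ⟨w, hw, hwk⟩ := hk
    have hwR : w ∈ Subgroup.normalClosure (rels : Set F) := by
      rw [← hπker, ← hσφ, hwk]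
      exact (iso.symm a).2
    obtain ⟨c, h, h1, h2⟩ := hRT hwR
    refine ⟨c, ?_, ?_⟩
    · rw [← h2, he'comm w hw]; rfl
    · rw [← h1]
      congr 1
      have : (⟨φ w, h⟩ : σ.ker) = iso.symm a := Subtype.ext hwk
      rw [this, MulEquiv.apply_symm_apply]
  -- rank nullity
  have hrange : Module.finrank ℤ (LinearMap.range E) = n := by
    apply le_antisymm
    · have := Submodule.finrank_le (LinearMap.range E)
      simpa using this
    · -- a diagonal family in the range
      have hord : ∀ i : Fin n, ∃ o : ℕ, 0 < o ∧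
          (o : ℤ) • (Pi.single i 1 : Fin n → ℤ) ∈ LinearMap.range E := by
        intro i
        refine ⟨orderOf (PresentedGroup.of i : PresentedGroup (rels : Set F)), orderOf_pos _, ?_⟩
        let o := orderOf (PresentedGroup.of i : PresentedGroup (rels : Set F))
        have h1 : π ((FreeGroup.of i) ^ o) = 1 := by
          rw [map_pow]
          exact pow_orderOf_eq_one (PresentedGroup.of i : PresentedGroup (rels : Set F))
        obtain ⟨c, _, _, h2⟩ := hRT ((hπker _).1 h1)
        refine ⟨c, ?_⟩
        have he : e' (FreeGroup.of i) = Multiplicative.ofAdd (Pi.single i 1) :=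
          FreeGroup.lift_apply_of
        rw [← h2, map_pow, toAdd_pow, he, toAdd_ofAdd]
        exact (natCast_zsmul _ _)
      choose o ho hoR using hord
      let fam : Fin n → LinearMap.range E := fun i => ⟨_, hoR i⟩
      have hli : LinearIndependent ℤ fam := by
        rw [Fintype.linearIndependent_iff]
        intro g hg i
        have h1 := congrArg (fun x : LinearMap.range E => (x : Fin n → ℤ) i) hg
        simp only [fam, Submodule.coe_sum, Submodule.coe_smul, Submodule.coe_zero, Finset.sum_apply,
          Pi.smul_apply, Pi.zero_apply, smul_eq_mul] at h1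
        rw [Finset.sum_eq_single i] at h1
        · simp only [Pi.single_eq_same, mul_one] at h1
          have hne : (o i : ℤ) ≠ 0 := by exact_mod_cast (ho i).ne'
          exact (mul_eq_zero.1 h1).resolve_right hne
        · intro b _ hb
          simp [Pi.single_eq_of_ne (Ne.symm hb)]
        · intro hh; exact absurd (Finset.mem_univ i) hh
      have := hli.fintype_card_le_finrank
      simpa using this
  have hrn : Module.finrank ℤ (LinearMap.range E) + Module.finrank ℤ (LinearMap.ker E) = rels.card := by
    have h1 := Submodule.finrank_quotient_add_finrank (LinearMap.ker E)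
    have h2 := (LinearMap.quotKerEquivRange E).finrank_eq
    rw [h2] at h1
    rw [h1]
    simp [J]
  -- generators
  let K := LinearMap.ker E
  let b := Module.finBasis ℤ K
  let S : Finset A := Finset.univ.image (fun i => Additive.toMul (ψ (b i : J → ℤ)))
  have hS : Subgroup.closure (S : Set A) = ⊤ := by
    rw [eq_top_iff]
    intro a _
    obtain ⟨c, hc, hca⟩ := hsurjK a
    let cK : K := ⟨c, hc⟩
    have h1 : c = ∑ i, (b.repr cK i) • (b i : J → ℤ) := by
      have h2 := b.sum_repr cK
      have h3 := congrArg (Subtype.val) h2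
      simp only [Submodule.coe_sum, Submodule.coe_smul] at h3
      exact h3.symm
    have h4 : Additive.ofMul a = ∑ i, (b.repr cK i) • ψ (b i : J → ℤ) := by
      rw [← hca]
      conv_lhs => rw [h1]
      rw [map_sum]
      simp only [map_smul]
    have h5 : Additive.ofMul a ∈ (Subgroup.closure (S : Set A)).toAddSubgroup := by
      rw [h4]
      refine sum_mem (fun i _ => zsmul_mem ?_ _)
      change Additive.toMul (ψ (b i : J → ℤ)) ∈ Subgroup.closure (S : Set A)
      apply Subgroup.subset_closure
      exact Finset.mem_coe.2 (Finset.mem_image_of_mem _ (Finset.mem_univ i))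
    exact h5
  have h1 := Group.rank_le hS
  have h2 : S.card ≤ Module.finrank ℤ K := by
    have := Finset.card_image_le (s := (Finset.univ : Finset (Fin (Module.finrank ℤ K))))
      (f := fun i => Additive.toMul (ψ (b i : J → ℤ)))
    simpa using this
  have h3 : Module.finrank ℤ K = rels.card - n := by
    have : Module.finrank ℤ K = Module.finrank ℤ (LinearMap.ker E) := rfl
    omega
  omega

end Cfsg.Agent.H19.Def
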