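import Mathlib
import Cfsg.Prelude.Def_SolvableStructure
import Cfsg.Agent.Lib.H02.SuperSolv4
import Cfsg.Agent.Lib.H18.Syl
import Cfsg.Agent.Lib.H19.FrobCount

/-! Same order type as a supersolvable group: Sylow tower and solvability. -/

set_option autoImplicit false

namespace Cfsg.Agent.H19

universe u v

open Cfsg

/-- The number of solutions of `x ^ d = 1` in terms of the order type. -/
theorem sol_eq_sum_orderOf (G : Type*) [Group G] [Finite G] {d : ℕ} (hd : d ≠ 0) :
    sol G d = ∑ m ∈ d.divisors, Nat.card {g : G // orderOf g = m} := by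
  classical
  haveI := Fintype.ofFinite G
  have h1 : sol G d = (Finset.univ.filter fun u : G => u ^ d = 1).card := by
    unfold sol
    rw [Nat.card_eq_fintype_card, Fintype.card_subtype]
  rw [h1, Finset.card_eq_sum_card_fiberwise (f := orderOf) (t := d.divisors)]
  · apply Finset.sum_congr rfl
    intro m hm
    rw [Nat.card_eq_fintype_card, Fintype.card_subtype]
    congr 1
    ext g
    simp only [Finset.mem_filter, Finset.mem_univ, true_and]
    constructor
    · exact fun h => h.2
    · intro h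
      refine ⟨?_, h⟩
      rw [← orderOf_dvd_iff_pow_eq_one, h]
      exact Nat.dvd_of_mem_divisors hm
  · intro g hg
    have hg' : g ^ d = 1 := by simpa using hg
    simp only [Finset.mem_coe, Nat.mem_divisors]
    exact ⟨orderOf_dvd_of_pow_eq_one hg', hd⟩

/-- All primes of `d` exceed all primes of `e`. -/
def Tow (d e : ℕ) : Prop := ∀ p q : ℕ, p.Prime → q.Prime → p ∣ d → q ∣ e → q < p

theorem Tow.coprime {d e : ℕ} (h : Tow d e) : d.Coprime e := by
  refine Nat.coprime_of_dvd fun r hr hd he => ?_
  exact lt_irrefl _ (h r r hr hr hd he)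

theorem tower_super : ∀ n : ℕ, ∀ (G : Type u) [Group G] [Finite G], Nat.card G = n → IsSupersolvable G →
    ∀ d e : ℕ, d * e = n → Tow d e → ∃ K : Subgroup G, K.Normal ∧ Nat.card K = d := by
  intro n
  induction n using Nat.strong_induction_on with
  | _ n ih =>
  intro G _ _ hn hG d e hde hT
  classical
  by_cases hd1 : d = 1
  · exact ⟨⊥, inferInstance, by simp [hd1]⟩
  have hn0 : n ≠ 0 := by rw [← hn]; exact Nat.card_pos.ne'
  have hd0 : d ≠ 0 := by
    rintro rfl
    simp at hde
    exact hn0 hde.symm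
  have hn1 : 1 < n := by
    have h1 : d ∣ n := Dvd.intro _ hde
    have h2 := Nat.le_of_dvd (Nat.pos_of_ne_zero hn0) h1
    omega
  have hfac : n.primeFactors.Nonempty := by
    rw [Nat.nonempty_primeFactors]
    exact hn1
  set p := n.primeFactors.max' hfac with hp
  have hpmem : p ∈ n.primeFactors := Finset.max'_mem _ _
  have hpp : p.Prime := Nat.prime_of_mem_primeFactors hpmem
  have hpd : p ∣ n := Nat.dvd_of_mem_primeFactors hpmem
  haveI : Fact p.Prime := ⟨hpp⟩
  have hmax : ∀ q : ℕ, q.Prime → q ∣ n → q ≤ p := by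
    intro q hq hqd
    apply Finset.le_max'
    rw [Nat.mem_primeFactors]
    exact ⟨hq, hqd, hn0⟩
  -- `p` divides `d`
  have hpdd : p ∣ d := by
    obtain ⟨r, hr, hrd⟩ := Nat.exists_prime_and_dvd hd1
    by_contra hno
    have h1 : p ∣ e := by
      rw [← hde] at hpd
      exact (hpp.dvd_mul.mp hpd).resolve_left hno
    have h2 := hT r p hr hpp hrd h1
    have h3 := hmax r hr (by rw [← hde]; exact hrd.trans (Dvd.intro _ rfl))
    omega
  obtain ⟨x, hx, hxn⟩ := Cfsg.Agent.H02.exists_normal_largest_prime hG p (by rw [hn]; exact hpd)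
    (fun q hq hqd => hmax q hq (by rw [← hn]; exact hqd))
  set X := Subgroup.zpowers x with hX
  haveI : X.Normal := hxn
  have hcardX : Nat.card X = p := by rw [hX, Nat.card_zpowers, hx]
  have hcardG : Nat.card G = Nat.card (G ⧸ X) * p := by
    rw [Subgroup.card_eq_card_quotient_mul_card_subgroup X, hcardX]
  obtain ⟨d', rfl⟩ := hpdd
  have hq : Nat.card (G ⧸ X) = d' * e := by
    have h1 : Nat.card (G ⧸ X) * p = (d' * e) * p := by
      rw [← hcardG, hn, ← hde]; ring
    exact Nat.eq_of_mul_eq_mul_right hpp.pos h1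
  have hlt : Nat.card (G ⧸ X) < n := by
    rw [← hn, hcardG]
    have h1 : 0 < Nat.card (G ⧸ X) := Nat.card_pos
    have h2 := hpp.one_lt
    nlinarith
  obtain ⟨Kb, hKbn, hKb⟩ := ih _ hlt (G ⧸ X) rfl (Cfsg.Agent.H02.isSupersolvable_quotient X hG) d' e hq.symm
    (fun a b ha hb h1 h2 => hT a b ha hb (Dvd.dvd.mul_left h1 p) h2)
  refine ⟨Kb.comap (QuotientGroup.mk' X), hKbn.comap _, ?_⟩
  rw [Cfsg.Agent.H02.card_comap_mk, hKb, hcardX]
  ring

theorem sol_of_normal {G : Type*} [Group G] [Finite G] (K : Subgroup G) [K.Normal] {d e : ℕ}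
    (hK : Nat.card K = d) (hde : d * e = Nat.card G) (hc : d.Coprime e) : sol G d = d := by
  have hiff : ∀ x : G, x ^ d = 1 ↔ x ∈ K := by
    intro x
    constructor
    · intro hx
      have h1 : ((x : G ⧸ K)) ^ d = 1 := by
        rw [← QuotientGroup.mk_pow, hx]
        rfl
      have h2 : Nat.card (G ⧸ K) = e := by
        have h3 := Subgroup.card_eq_card_quotient_mul_card_subgroup K
        rw [hK, ← hde] at h3
        have hd0 : d ≠ 0 := by rw [← hK]; exact Nat.card_pos.ne'
        have h4 : d * Nat.card (G ⧸ K) = d * e := by rw [h3]; ring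
        exact Nat.eq_of_mul_eq_mul_left (Nat.pos_of_ne_zero hd0) h4
      have h5 : ((x : G ⧸ K)) ^ e = 1 := by
        rw [← h2]; exact pow_card_eq_one'
      have h6 : orderOf (x : G ⧸ K) ∣ 1 := by
        rw [← Nat.Coprime.gcd_eq_one hc]
        exact Nat.dvd_gcd (orderOf_dvd_of_pow_eq_one h1) (orderOf_dvd_of_pow_eq_one h5)
      have h7 : (x : G ⧸ K) = 1 := orderOf_eq_one_iff.mp (Nat.dvd_one.mp h6)
      exact (QuotientGroup.eq_one_iff x).mp h7
    · intro hx
      have h1 : (⟨x, hx⟩ : K) ^ Nat.card K = 1 := pow_card_eq_one'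
      rw [hK] at h1
      exact congrArg Subtype.val h1
  unfold sol
  rw [← hK]
  exact Nat.card_congr (Equiv.subtypeEquivRight fun x => by rw [hK]; exact hiff x)

theorem tower_solvable {H : Type u} [Group H] [Finite H]
    (hsol : ∀ d e : ℕ, d * e = Nat.card H → Tow d e → sol H d = d) :
    ∀ d e : ℕ, d * e = Nat.card H → Tow d e → ∃ K : Subgroup H, K.Normal ∧ Nat.card K = d ∧ Group.IsSolvable K := by
  intro d
  induction d using Nat.strong_induction_on with
  | _ d ih =>
  intro e hde hT
  classical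
  by_cases hd1 : d = 1
  · refine ⟨⊥, inferInstance, by simp [hd1], ?_⟩
    exact Group.isSolvable_of_comm (fun a b => Subsingleton.elim _ _)
  have hn0 : Nat.card H ≠ 0 := Nat.card_pos.ne'
  have hd0 : d ≠ 0 := by
    rintro rfl
    simp at hde
    exact hn0 hde.symm
  set q := d.minFac with hq
  have hqp : q.Prime := Nat.minFac_prime hd1
  have hqd : q ∣ d := Nat.minFac_dvd d
  set a := d.factorization q with ha
  obtain ⟨d', hd', hnq⟩ : ∃ d', d = q ^ a * d' ∧ ¬ q ∣ d' := by
    refine ⟨d / q ^ a, ?_, ?_⟩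
    · exact (Nat.mul_div_cancel' (Nat.ordProj_dvd d q)).symm
    · exact Nat.not_dvd_ordCompl hqp hd0
  have ha0 : a ≠ 0 := by
    rw [ha]
    exact (hqp.factorization_pos_of_dvd hd0 hqd).ne'
  have hd'lt : d' < d := by
    have h1 : 1 < q ^ a := Nat.one_lt_pow ha0 hqp.one_lt
    have h2 : 0 < d' := by
      rcases Nat.eq_zero_or_pos d' with h | h
      · rw [h] at hd'; simp at hd'; exact absurd hd' hd0
      · exact h
    rw [hd']
    nlinarith
  have hTow' : Tow d' (q ^ a * e) := by
    intro r s hr hs hrd hsd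
    rcases (hs.dvd_mul).mp hsd with h | h
    · have h1 : s = q := (Nat.prime_dvd_prime_iff_eq hs hqp).mp (hs.dvd_of_dvd_pow h)
      rw [h1]
      have h2 : q ≤ r := Nat.minFac_le_of_dvd hr.two_le (by rw [hd']; exact Dvd.dvd.mul_left hrd _)
      have h3 : r ≠ q := by
        rintro rfl
        exact hnq hrd
      omega
    · exact hT r s hr hs (by rw [hd']; exact Dvd.dvd.mul_left hrd _) h
  obtain ⟨K, hKn, hKc, hKs⟩ := ih d' hd'lt (q ^ a * e) (by rw [← hde, hd']; ring) hTow'
  haveI := hKn
  haveI : Fact q.Prime := ⟨hqp⟩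
  obtain ⟨Q⟩ : Nonempty (Sylow q H) := inferInstance
  have hnqe : ¬ q ∣ e := by
    intro h
    exact lt_irrefl _ (hT q q hqp hqp hqd h)
  have hQc : Nat.card (Q : Subgroup H) = q ^ a := by
    rw [Sylow.card_eq_multiplicity, ← hde, Nat.factorization_mul hd0 (by rintro rfl; simp at hde; exact hn0 hde.symm)]
    simp only [Finsupp.coe_add, Pi.add_apply]
    rw [Nat.factorization_eq_zero_of_not_dvd hnqe, add_zero]
  have hinf : ((Q : Subgroup H) ⊓ K : Subgroup H) = ⊥ := by
    have hcop : (Nat.card (Q : Subgroup H)).Coprime (Nat.card K) := by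
      rw [hQc, hKc]
      exact Nat.Coprime.pow_left _ ((Nat.Prime.coprime_iff_not_dvd hqp).mpr hnq)
    exact Subgroup.inf_eq_bot_of_coprime hcop
  have hcardL : Nat.card ((Q : Subgroup H) ⊔ K : Subgroup H) = d := by
    have h1 := Cfsg.Agent.H18.card_sup_mul_card_inf (Q : Subgroup H) K
    rw [hinf, Subgroup.card_bot, mul_one, hQc, hKc] at h1
    rw [h1, hd']
  set L : Subgroup H := (Q : Subgroup H) ⊔ K with hL
  -- `L` is the solution set
  have hsoleq := hsol d e hde hT
  have hLsub : ∀ x ∈ L, x ^ d = 1 := by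
    intro x hx
    have h1 : (⟨x, hx⟩ : L) ^ Nat.card L = 1 := pow_card_eq_one'
    rw [hcardL] at h1
    exact congrArg Subtype.val h1
  have hiff : ∀ x : H, x ^ d = 1 ↔ x ∈ L := by
    intro x
    refine ⟨fun hx => ?_, hLsub x⟩
    by_contra hxL
    let f : L → {u : H // u ^ d = 1} := fun y => ⟨y.1, hLsub y.1 y.2⟩
    have hf : Function.Injective f := fun a b h => by
      have h' := congrArg Subtype.val h
      exact Subtype.ext h'
    have hsurj : Function.Surjective f := by
      refine (Function.Injective.bijective_of_nat_card_le hf ?_).2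
      unfold sol at hsoleq
      rw [hsoleq, hcardL]
    obtain ⟨y, hy⟩ := hsurj ⟨x, hx⟩
    have := congrArg Subtype.val hy
    apply hxL
    rw [← show y.1 = x from this]
    exact y.2
  have hLn : L.Normal := by
    constructor
    intro x hx g
    rw [← hiff] at hx ⊢
    rw [conj_pow, hx]
    simp
  refine ⟨L, hLn, hcardL, ?_⟩
  -- solvability
  have hKL : K ≤ L := le_sup_right
  let f : K →* L := Subgroup.inclusion hKL
  haveI hn' : (K.subgroupOf L).Normal := inferInstance
  let g : L →* L ⧸ K.subgroupOf L := QuotientGroup.mk' _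
  have hcardquot : Nat.card (L ⧸ K.subgroupOf L) = q ^ a := by
    have h1 := Subgroup.card_eq_card_quotient_mul_card_subgroup (K.subgroupOf L)
    have h2 : Nat.card (K.subgroupOf L) = Nat.card K :=
      Nat.card_congr (Subgroup.subgroupOfEquivOfLe hKL).toEquiv
    rw [h2, hKc, hcardL, hd'] at h1
    have h3 : 0 < d' := by
      rcases Nat.eq_zero_or_pos d' with h | h
      · rw [h] at hd'; simp at hd'; exact absurd hd' hd0
      · exact h
    exact (Nat.eq_of_mul_eq_mul_right h3 h1).symm
  haveI hpq : IsPGroup q (L ⧸ K.subgroupOf L) := IsPGroup.of_card hcardquot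
  haveI : Group.IsNilpotent (L ⧸ K.subgroupOf L) := hpq.isNilpotent
  have hker : g.ker ≤ f.range := by
    intro x hx
    have h1 : x ∈ K.subgroupOf L := by
      rwa [QuotientGroup.ker_mk'] at hx
    exact ⟨⟨x.1, Subgroup.mem_subgroupOf.mp h1⟩, rfl⟩
  exact Group.isSolvable_of_ker_le_range f g hker

/-- A group with the same order type as a supersolvable group is solvable. -/
theorem solvable_of_orderType_supersolvable {G H : Type*} [Group G] [Finite G] [Group H] [Finite H]
    (hT : ∀ m : ℕ, Nat.card {g : G // orderOf g = m} = Nat.card {h : H // orderOf h = m})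
    (hG : IsSupersolvable G) : Group.IsSolvable H := by
  have hsoleq : ∀ d : ℕ, d ≠ 0 → sol G d = sol H d := by
    intro d hd
    rw [sol_eq_sum_orderOf G hd, sol_eq_sum_orderOf H hd]
    exact Finset.sum_congr rfl fun m _ => hT m
  have hcard : Nat.card G = Nat.card H := by
    have h0 : Nat.card G * Nat.card H ≠ 0 := mul_ne_zero Nat.card_pos.ne' Nat.card_pos.ne'
    have h1 : sol G (Nat.card G * Nat.card H) = Nat.card G := by
      unfold sol
      exact Nat.card_congr (Equiv.subtypeUnivEquiv fun x => by rw [pow_mul, pow_card_eq_one', one_pow])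
    have h2 : sol H (Nat.card G * Nat.card H) = Nat.card H := by
      unfold sol
      exact Nat.card_congr (Equiv.subtypeUnivEquiv fun x => by rw [mul_comm, pow_mul, pow_card_eq_one', one_pow])
    calc Nat.card G = sol G (Nat.card G * Nat.card H) := h1.symm
      _ = sol H (Nat.card G * Nat.card H) := hsoleq _ h0
      _ = Nat.card H := h2
  have hsol : ∀ d e : ℕ, d * e = Nat.card H → Tow d e → sol H d = d := by
    intro d e hde hTow
    have hd0 : d ≠ 0 := by
      rintro rfl
      simp at hde
      exact Nat.card_pos.ne' hde.symm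
    obtain ⟨K, hKn, hK⟩ := tower_super _ G rfl hG d e (by rw [hcard]; exact hde) hTow
    haveI := hKn
    rw [← hsoleq d hd0]
    exact sol_of_normal K hK (by rw [hcard]; exact hde) hTow.coprime
  have hTow1 : Tow (Nat.card H) 1 := by
    intro p q _ hq _ h1
    exact absurd (Nat.dvd_one.mp h1) hq.ne_one
  obtain ⟨K, -, hKc, hKs⟩ := tower_solvable hsol (Nat.card H) 1 (mul_one _) hTow1
  have hKt : K = ⊤ := Subgroup.eq_top_of_card_eq K hKc
  rw [hKt] at hKs
  exact solvable_of_surjective (f := (⊤ : Subgroup H).subtype) (by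
    intro x
    exact ⟨⟨x, Subgroup.mem_top x⟩, rfl⟩)

end Cfsg.Agent.H19
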