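import Mathlib
import Cfsg.Prelude.Def_Solvable
import Cfsg.Agent.Lib.H01.Fitting
import Cfsg.Agent.Lib.H01.Solv2
import Cfsg.Agent.Lib.H14.UniqueSub
import Cfsg.Agent.Lib.H19.Basic
import Cfsg.Agent.Lib.H19.OrderType
import Cfsg.Agent.Lib.Lead.Burnside

/-! Same order type as a Frobenius group: automorphisms of groups with a cyclic subgroup of
index at most two, and the Sylow tower of Frobenius complements. -/

set_option autoImplicit false

namespace Cfsg.Agent.H19

universe u v

open Cfsg Subgroup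

/-- A cyclic subgroup of index at most two. -/
def C2 (T : Type*) [Group T] : Prop := ∃ A : Subgroup T, IsCyclic A ∧ A.index ≤ 2

theorem C2.congr {T T' : Type*} [Group T] [Group T'] (e : T ≃* T') (h : C2 T') : C2 T := by
  obtain ⟨A, hA, hi⟩ := h
  refine ⟨A.comap e.toMonoidHom, ?_, ?_⟩
  · have e2 : A.comap e.toMonoidHom ≃* A := by
      refine MulEquiv.ofBijective ((e.toMonoidHom.comp (A.comap e.toMonoidHom).subtype).codRestrict A
        (fun x => x.2)) ⟨?_, ?_⟩
      · intro x y h
        have := congrArg Subtype.val h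
        exact Subtype.ext (e.injective this)
      · intro y
        refine ⟨⟨e.symm y, ?_⟩, ?_⟩
        · show e (e.symm y) ∈ A
          simp
        · apply Subtype.ext
          show e (e.symm y) = y
          simp
    exact isCyclic_of_surjective e2.symm.toMonoidHom e2.symm.surjective
  · rw [Subgroup.index_comap_of_surjective A e.surjective]
    exact hi

theorem aut_trivial_cyclic {T : Type*} [Group T] [Finite T] [IsCyclic T] {r p k : ℕ} (hr : r.Prime)
    (hp : p.Prime) (hrT : IsPGroup r T) (hrp : r < p) (α : MulAut T) (hα : α ^ (p ^ k) = 1) : α = 1 := by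
  haveI : Fact r.Prime := ⟨hr⟩
  obtain ⟨n, hn⟩ := IsPGroup.iff_card.mp hrT
  have h1 : orderOf α ∣ Nat.card (MulAut T) := orderOf_dvd_natCard α
  rw [IsCyclic.card_mulAut, hn] at h1
  have h2 : orderOf α ∣ p ^ k := orderOf_dvd_of_pow_eq_one hα
  have hc : (Nat.totient (r ^ n)).Coprime (p ^ k) := by
    apply Nat.Coprime.pow_right
    apply Nat.Coprime.symm
    rw [Nat.Prime.coprime_iff_not_dvd hp]
    intro hd
    rcases Nat.eq_zero_or_pos n with h0 | h0
    · rw [h0] at hd
      simp at hd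
      exact hp.one_lt.ne' hd
    · rw [Nat.totient_prime_pow hr h0] at hd
      rcases (hp.dvd_mul).mp hd with h | h
      · have := (Nat.prime_dvd_prime_iff_eq hp hr).mp (hp.dvd_of_dvd_pow h)
        omega
      · have h3 : 0 < r - 1 := by have := hr.one_lt; omega
        have := Nat.le_of_dvd h3 h
        omega
  have h3 : orderOf α = 1 := Nat.eq_one_of_dvd_coprimes hc h1 h2
  exact orderOf_eq_one_iff.mp h3

open scoped Pointwise in
theorem aut_trivial {T : Type*} [Group T] [Finite T] {r p k : ℕ} (hr : r.Prime)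
    (hp : p.Prime) (hp5 : 5 ≤ p) (hrT : IsPGroup r T) (hrp : r < p) (hC : C2 T) (α : MulAut T)
    (hα : α ^ (p ^ k) = 1) : α = 1 := by
  classical
  haveI : Fact r.Prime := ⟨hr⟩
  haveI : Fact p.Prime := ⟨hp⟩
  obtain ⟨A, hAc, hi⟩ := hC
  have hi0 : A.index ≠ 0 := Subgroup.index_ne_zero_of_finite
  have hcases : A.index = 1 ∨ A.index = 2 := by omega
  rcases hcases with h1 | h2
  · have htop : A = ⊤ := Subgroup.index_eq_one.mp h1
    subst htop
    haveI : IsCyclic T := by
      exact isCyclic_of_surjective (⊤ : Subgroup T).subtype (fun x => ⟨⟨x, Subgroup.mem_top x⟩, rfl⟩)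
    exact aut_trivial_cyclic hr hp hrT hrp α hα
  -- index two
  haveI hAn : A.Normal := Subgroup.normal_of_index_eq_two h2
  obtain ⟨a, ha⟩ := hAc
  obtain ⟨b, hb⟩ : ∃ b : T, b ∉ A := by
    by_contra hno
    push_neg at hno
    have : A = ⊤ := (Subgroup.eq_top_iff' A).mpr hno
    rw [this, Subgroup.index_top] at h2
    omega
  have hclos : Subgroup.closure ({(a : T), b} : Set T) = ⊤ := by
    rw [eq_top_iff]
    intro x _
    by_cases hx : x ∈ A
    · have : (⟨x, hx⟩ : A) ∈ Subgroup.zpowers a := ha _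
      obtain ⟨m, hm⟩ := this
      have h3 : ((a : T)) ^ m = x := by simpa using congrArg Subtype.val hm
      rw [← h3]
      exact Subgroup.zpow_mem _ (Subgroup.subset_closure (by simp)) _
    · have h3 : b⁻¹ * x ∈ A := by
        rw [Subgroup.mul_mem_iff_of_index_two h2]
        simp [hb, hx]
      have h4 : x = b * (b⁻¹ * x) := by group
      rw [h4]
      refine Subgroup.mul_mem _ (Subgroup.subset_closure (by simp)) ?_
      have : (⟨b⁻¹ * x, h3⟩ : A) ∈ Subgroup.zpowers a := ha _
      obtain ⟨m, hm⟩ := this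
      have h5 : ((a : T)) ^ m = b⁻¹ * x := by simpa using congrArg Subtype.val hm
      rw [← h5]
      exact Subgroup.zpow_mem _ (Subgroup.subset_closure (by simp)) _
  -- at most four subgroups of index two
  have hdet : ∀ B B' : Subgroup T, B.index = 2 → B'.index = 2 → ((a : T) ∈ B ↔ (a : T) ∈ B') →
      (b ∈ B ↔ b ∈ B') → B = B' := by
    intro B B' hB hB' h1 h2
    ext x
    have hx : x ∈ Subgroup.closure ({(a : T), b} : Set T) := by rw [hclos]; trivial
    induction hx using Subgroup.closure_induction with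
    | mem x hx =>
      rcases hx with rfl | hx
      · exact h1
      · rw [Set.mem_singleton_iff.mp hx]; exact h2
    | one => simp
    | mul x y _ _ hx hy =>
      have hx' : x ∈ B ↔ x ∈ B' := hx
      have hy' : y ∈ B ↔ y ∈ B' := hy
      rw [Subgroup.mul_mem_iff_of_index_two hB, Subgroup.mul_mem_iff_of_index_two hB', hx', hy']
    | inv x _ hx =>
      have hx' : x ∈ B ↔ x ∈ B' := hx
      simp [hx']
  have hfin : ∀ S : Set (Subgroup T), (∀ B ∈ S, B.index = 2) → S.Finite ∧ S.ncard ≤ 4 := by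
    intro S hS
    have hSfin : S.Finite := Set.toFinite S
    refine ⟨hSfin, ?_⟩
    let f : Subgroup T → Prop × Prop := fun B => ((a : T) ∈ B, b ∈ B)
    have hf : Set.InjOn f S := by
      intro B hB B' hB' h
      have h1 := congrArg Prod.fst h
      have h2 := congrArg Prod.snd h
      exact hdet B B' (hS B hB) (hS B' hB') (by simpa [f] using h1) (by simpa [f] using h2)
    have h3 := Set.ncard_image_of_injOn hf
    rw [← h3]
    have h4 : (f '' S).ncard ≤ Nat.card (Prop × Prop) := by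
      rw [← Set.ncard_univ]
      exact Set.ncard_le_ncard (Set.subset_univ _) (Set.toFinite _)
    have h5 : Nat.card (Prop × Prop) = 4 := by
      rw [Nat.card_eq_fintype_card]; rfl
    omega
  -- orbit of `A`
  have hord : orderOf α ∣ p ^ k := orderOf_dvd_of_pow_eq_one hα
  obtain ⟨j, -, hj⟩ := (Nat.dvd_prime_pow hp).mp hord
  have hPG : IsPGroup p (Subgroup.zpowers α) := isPGroup_zpowers_of_orderOf hj
  have hAidx : ∀ g : MulAut T, (g • A).index = 2 := by
    intro g
    have h3 : g • A = A.comap (g⁻¹ : MulAut T).toMonoidHom := by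
      ext x
      rw [Subgroup.mem_pointwise_smul_iff_inv_smul_mem]
      rfl
    rw [h3, Subgroup.index_comap_of_surjective A (g⁻¹ : MulAut T).surjective]
    exact h2
  have hfixA : α • A = A := by
    obtain ⟨n, hn⟩ := hPG.card_orbit A
    have hO : ∀ B ∈ MulAction.orbit (Subgroup.zpowers α) A, B.index = 2 := by
      rintro B ⟨g, rfl⟩
      exact hAidx g.1
    have hle := (hfin _ hO).2
    rw [Nat.card_coe_set_eq] at hn
    rw [hn] at hle
    have hn0 : n = 0 := by
      by_contra hne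
      have h3 : p ≤ p ^ n := Nat.le_self_pow hne p
      omega
    rw [hn0, pow_zero] at hn
    obtain ⟨B, hB⟩ := Set.ncard_eq_one.mp hn
    have h3 : A ∈ MulAction.orbit (Subgroup.zpowers α) A := MulAction.mem_orbit_self A
    have h4 : α • A ∈ MulAction.orbit (Subgroup.zpowers α) A :=
      ⟨⟨α, Subgroup.mem_zpowers α⟩, rfl⟩
    rw [hB] at h3 h4
    exact (Set.mem_singleton_iff.mp h4).trans (Set.mem_singleton_iff.mp h3).symm
  have hmap : A.map α.toMonoidHom = A := hfixA
  have hβ : ∀ c ∈ A, α c = c := by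
    let β : MulAut A := (α.subgroupMap A).trans (MulEquiv.subgroupCongr hmap)
    have hβv : ∀ c : A, ((β c : A) : T) = α c := fun c => rfl
    have hβn : ∀ (n : ℕ) (c : A), (((β ^ n) c : A) : T) = (α ^ n) c := by
      intro n
      induction n with
      | zero => intro c; rfl
      | succ n ih =>
        intro c
        rw [pow_succ', MulAut.mul_apply, hβv, ih, pow_succ', MulAut.mul_apply]
    have hβ1 : β ^ (p ^ k) = 1 := by
      ext c
      rw [hβn, hα]
      rfl
    have hAp : IsPGroup r A := hrT.to_subgroup A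
    haveI : IsCyclic A := ⟨a, ha⟩
    have hβt := aut_trivial_cyclic hr hp hAp hrp β hβ1
    intro c hc
    have := hβv ⟨c, hc⟩
    rw [hβt] at this
    exact this.symm
  have hall : ∀ x : T, α x = x := by
    intro x
    by_cases hx : x ∈ A
    · exact hβ x hx
    have hαx : α x ∉ A := by
      intro h
      have : α • x ∈ α • A := by
        rw [hfixA]
        exact h
      exact hx ((Subgroup.smul_mem_pointwise_smul_iff).mp this)
    have hc : x⁻¹ * α x ∈ A := by
      rw [Subgroup.mul_mem_iff_of_index_two h2]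
      simp [hx, hαx]
    set c := x⁻¹ * α x with hcdef
    have hαxc : α x = x * c := by rw [hcdef]; group
    have hpow : ∀ n : ℕ, (α ^ n) x = x * c ^ n := by
      intro n
      induction n with
      | zero => simp
      | succ n ih =>
        rw [pow_succ', MulAut.mul_apply, ih, map_mul, hαxc, map_pow, hβ c hc, pow_succ']
        group
    have h1 := hpow (p ^ k)
    rw [hα] at h1
    have h3 : c ^ (p ^ k) = 1 := by
      have : x = x * c ^ (p ^ k) := h1
      simpa using this
    have h4 : ∃ i, orderOf c = r ^ i := by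
      obtain ⟨i, hi⟩ := (IsPGroup.iff_orderOf.mp hrT) c
      exact ⟨i, hi⟩
    obtain ⟨i, hi⟩ := h4
    have h5 : orderOf c = 1 := by
      have h6 : orderOf c ∣ p ^ k := orderOf_dvd_of_pow_eq_one h3
      have h7 : (r ^ i).Coprime (p ^ k) := by
        apply Nat.Coprime.pow
        exact (Nat.coprime_primes hr hp).mpr hrp.ne
      exact Nat.eq_one_of_dvd_coprimes h7 (by rw [hi]) h6
    rw [hαxc, orderOf_eq_one_iff.mp h5, mul_one]
  exact MulEquiv.ext hall

/-- Hypothesis on all `r`-subgroups. -/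
def Syl (G : Type*) [Group G] : Prop := ∀ r : ℕ, r.Prime → ∀ T : Subgroup G, IsPGroup r T → C2 T

theorem Syl.subgroup {G : Type*} [Group G] (h : Syl G) (Y : Subgroup G) : Syl Y := by
  intro r hr T hT
  haveI : Fact r.Prime := ⟨hr⟩
  let e := T.equivMapOfInjective Y.subtype Y.subtype_injective
  exact C2.congr e (h r hr _ (hT.of_equiv e))

/-- A `p`-element of `F(G)`-type: membership in the core. -/
theorem mem_pCore_of_mem_nilpotent {G : Type*} [Group G] [Finite G] {N : Subgroup G} (hN : N.Normal)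
    (hnil : Group.IsNilpotent N) {r k : ℕ} [Fact r.Prime] {y : G} (hy : y ∈ N)
    (hyo : orderOf y = r ^ k) : y ∈ Cfsg.pCore r G := by
  obtain ⟨P⟩ : Nonempty (Sylow r N) := inferInstance
  have hn : (P : Subgroup N).Normal := inferInstance
  have hchar : (P : Subgroup N).Characteristic := Sylow.characteristic_of_normal P hn
  have hPnormal : ((P : Subgroup N).map N.subtype).Normal := inferInstance
  have hP' : IsPGroup r ((P : Subgroup N).map N.subtype) := P.isPGroup'.map _
  have h1 : ((P : Subgroup N).map N.subtype) ≤ Cfsg.pCore r G :=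
    Cfsg.Agent.H01.le_pCore hPnormal hP'
  apply h1
  have h2 : (⟨y, hy⟩ : N) ∈ (P : Subgroup N) :=
    mem_sylow_of_normal (by rw [Subgroup.orderOf_mk]; exact hyo) P hn
  exact Subgroup.mem_map_of_mem _ h2

theorem normal_sylow_top {G : Type*} [Group G] [Finite G] [Group.IsSolvable G] (hS : Syl G)
    {p : ℕ} [hpf : Fact p.Prime] (hp5 : 5 ≤ p)
    (htop : ∀ r : ℕ, r.Prime → r ∣ Nat.card G → r ≤ p) (P : Sylow p G) :
    (P : Subgroup G).Normal := by
  classical
  have hp : p.Prime := hpf.out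
  set F := Cfsg.fittingSubgroup G with hF
  have hFn : F.Normal := Cfsg.Agent.H01.fitting_normal
  have hFnil : Group.IsNilpotent F := Cfsg.Agent.H01.fitting_nilpotent
  -- Step 1: `P` centralizes `r`-cores
  have h1 : ∀ x ∈ (P : Subgroup G), ∀ r : ℕ, r.Prime → r ≠ p → ∀ y ∈ Cfsg.pCore r G, Commute x y := by
    intro x hx r hr hrp y hy
    by_cases hy1 : y = 1
    · rw [hy1]; exact Commute.one_right x
    haveI : Fact r.Prime := ⟨hr⟩
    have hRp := Cfsg.Agent.H01.pCore_isPGroup (G := G) r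
    have hRn := Cfsg.Agent.H01.pCore_normal (G := G) r
    haveI := hRn
    obtain ⟨k, hk⟩ := orderOf_of_mem_isPGroup hRp hy
    have hrd : r ∣ Nat.card G := by
      have h2 : orderOf y ∣ Nat.card G := orderOf_dvd_natCard y
      have h3 : k ≠ 0 := by
        rintro rfl
        rw [pow_zero, orderOf_eq_one_iff] at hk
        exact hy1 hk
      rw [hk] at h2
      exact (dvd_pow_self r h3).trans h2
    have hrlt : r < p := lt_of_le_of_ne (htop r hr hrd) hrp
    obtain ⟨m, hm⟩ := orderOf_of_mem_isPGroup P.isPGroup' hx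
    let α : MulAut (Cfsg.pCore r G) := MulAut.conjNormal x
    have hα : α ^ (p ^ m) = 1 := by
      rw [← map_pow, ← hm, pow_orderOf_eq_one, map_one]
    have h2 := aut_trivial hr hp hp5 hRp hrlt (hS r hr _ hRp) α hα
    have h3 : (α ⟨y, hy⟩ : G) = x * y * x⁻¹ := rfl
    rw [h2] at h3
    have h4 : y = x * y * x⁻¹ := h3
    show x * y = y * x
    rw [eq_mul_inv_iff_mul_eq] at h4
    exact h4.symm
  -- Step 2: `P` centralizes `p'`-elements of `F`
  have h2 : ∀ n : ℕ, ∀ x ∈ (P : Subgroup G), ∀ y ∈ F, orderOf y = n → (orderOf y).Coprime p → Commute x y := by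
    intro n
    induction n using Nat.strong_induction_on with
    | _ n ih =>
    intro x hx y hy hn hc
    by_cases hy1 : y = 1
    · rw [hy1]; exact Commute.one_right x
    have hn1 : orderOf y ≠ 1 := fun h => hy1 (orderOf_eq_one_iff.mp h)
    obtain ⟨r, hr, hrd⟩ := Nat.exists_prime_and_dvd hn1
    haveI : Fact r.Prime := ⟨hr⟩
    have hrp : r ≠ p := by
      rintro rfl
      exact hr.one_lt.ne' (Nat.eq_one_of_dvd_coprimes hc hrd (dvd_refl r))
    obtain ⟨a, b, hab, hcomm, ⟨k, hk⟩, hbc, hazp, hbzp⟩ := exists_primary_decomp r y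
    have haF : a ∈ F := (Subgroup.zpowers_le.mpr hy) hazp
    have hbF : b ∈ F := (Subgroup.zpowers_le.mpr hy) hbzp
    have hacore : a ∈ Cfsg.pCore r G := mem_pCore_of_mem_nilpotent hFn hFnil haF hk
    have hbdvd : orderOf b ∣ orderOf y := orderOf_dvd_of_mem_zpowers hbzp
    have hblt : orderOf b < n := by
      rw [← hn]
      have hpos : 0 < orderOf y := orderOf_pos y
      refine lt_of_le_of_ne (Nat.le_of_dvd hpos hbdvd) ?_
      intro h
      rw [h] at hbc
      have := Nat.eq_one_of_dvd_coprimes hbc hrd (dvd_refl r)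
      exact hr.one_lt.ne' this
    have hb := ih _ hblt x hx b hbF rfl (Nat.Coprime.coprime_dvd_left hbdvd hc)
    rw [hab]
    exact Commute.mul_right (h1 x hx r hr hrp a hacore) hb
  -- Step 3: the `p`-core is cyclic
  have hApg := Cfsg.Agent.H01.pCore_isPGroup (G := G) p
  haveI hAn := Cfsg.Agent.H01.pCore_normal (G := G) p
  have hAcyc : IsCyclic (Cfsg.pCore p G) := by
    obtain ⟨A₀, hA₀, hi⟩ := hS p hp _ hApg
    have hi0 : A₀.index ≠ 0 := Subgroup.index_ne_zero_of_finite
    have hi1 : A₀.index = 1 := by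
      have hcases : A₀.index = 1 ∨ A₀.index = 2 := by omega
      rcases hcases with h | h
      · exact h
      · exfalso
        obtain ⟨n, hn⟩ := IsPGroup.iff_card.mp hApg
        have h3 : A₀.index ∣ Nat.card (Cfsg.pCore p G) := Subgroup.index_dvd_card A₀
        rw [h, hn] at h3
        have h4 : 2 ∣ p := Nat.Prime.dvd_of_dvd_pow Nat.prime_two h3
        have := (Nat.prime_dvd_prime_iff_eq Nat.prime_two hp).mp h4
        omega
    have htop' : A₀ = ⊤ := Subgroup.index_eq_one.mp hi1
    subst htop'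
    exact isCyclic_of_surjective (⊤ : Subgroup (Cfsg.pCore p G)).subtype
      (fun x => ⟨⟨x, Subgroup.mem_top x⟩, rfl⟩)
  have hAP : Cfsg.pCore p G ≤ (P : Subgroup G) := Cfsg.Agent.H01.pCore_le_sylow p P
  -- Step 4: the centralizer of the `p'`-part
  set Y : Set G := {y | y ∈ F ∧ (orderOf y).Coprime p} with hY
  set C : Subgroup G := Subgroup.centralizer Y with hC
  have hYconj : ∀ g y : G, y ∈ Y → g * y * g⁻¹ ∈ Y := by
    rintro g y ⟨hy, hc⟩
    refine ⟨hFn.conj_mem y hy g, ?_⟩
    have : orderOf (g * y * g⁻¹) = orderOf y := by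
      rw [← MulAut.conj_apply, MulEquiv.orderOf_eq]
    rwa [this]
  have hCn : C.Normal := by
    constructor
    intro c hc g
    rw [Subgroup.mem_centralizer_iff] at hc ⊢
    intro y hy
    have h3 := hc (g⁻¹ * y * g⁻¹⁻¹) (hYconj g⁻¹ y hy)
    rw [inv_inv] at h3
    calc y * (g * c * g⁻¹) = g * (g⁻¹ * y * g * c) * g⁻¹ := by group
      _ = g * (c * (g⁻¹ * y * g)) * g⁻¹ := by rw [h3]
      _ = g * c * g⁻¹ * y := by group
  have hPC : (P : Subgroup G) ≤ C := by
    intro x hx
    rw [Subgroup.mem_centralizer_iff]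
    rintro y ⟨hy, hc⟩
    exact (h2 _ x hx y hy rfl hc).eq.symm
  -- commutators centralize the cyclic `p`-core
  have hcomm : ∀ u v : G, ∀ a ∈ Cfsg.pCore p G, (u * v) * a * (u * v)⁻¹ = (v * u) * a * (v * u)⁻¹ := by
    intro u v a ha
    let φ : G →* MulAut (Cfsg.pCore p G) := MulAut.conjNormal
    have h3 : φ u * φ v = φ v * φ u := by
      apply (IsCyclic.mulAutMulEquiv (Cfsg.pCore p G)).injective
      rw [map_mul, map_mul, mul_comm]
    have h4 : φ (u * v) = φ (v * u) := by rw [map_mul, map_mul, h3]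
    have h5 : ((φ (u * v) ⟨a, ha⟩ : Cfsg.pCore p G) : G) = (φ (v * u) ⟨a, ha⟩ : Cfsg.pCore p G) := by rw [h4]
    exact h5
  have hz : ∀ u v : G, u ∈ C → v ∈ C → u * v * u⁻¹ * v⁻¹ ∈ F := by
    intro u v hu hv
    have hzC : u * v * u⁻¹ * v⁻¹ ∈ C := C.mul_mem (C.mul_mem (C.mul_mem hu hv) (C.inv_mem hu)) (C.inv_mem hv)
    apply Cfsg.Agent.H01.centralizer_fitting_le
    rw [Subgroup.mem_centralizer_iff]
    intro f hf
    obtain ⟨a, b, hab, hcm, ⟨k, hk⟩, hbc, hazp, hbzp⟩ := exists_primary_decomp p f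
    have haF : a ∈ F := (Subgroup.zpowers_le.mpr hf) hazp
    have hbF : b ∈ F := (Subgroup.zpowers_le.mpr hf) hbzp
    have hacore : a ∈ Cfsg.pCore p G := mem_pCore_of_mem_nilpotent hFn hFnil haF hk
    have hbY : b ∈ Y := ⟨hbF, hbc⟩
    have h3 : b * (u * v * u⁻¹ * v⁻¹) = (u * v * u⁻¹ * v⁻¹) * b := (Subgroup.mem_centralizer_iff.mp hzC) b hbY
    have h4 : a * (u * v * u⁻¹ * v⁻¹) = (u * v * u⁻¹ * v⁻¹) * a := by
      have ha' : (v * u)⁻¹ * a * (v * u) ∈ Cfsg.pCore p G := by
        have := hAn.conj_mem a hacore (v * u)⁻¹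
        rwa [inv_inv] at this
      have h5 := hcomm u v _ ha'
      have h6 : (v * u) * ((v * u)⁻¹ * a * (v * u)) * (v * u)⁻¹ = a := by group
      rw [h6] at h5
      calc a * (u * v * u⁻¹ * v⁻¹) = (u * v * ((v * u)⁻¹ * a * (v * u)) * (u * v)⁻¹) * (u * v * u⁻¹ * v⁻¹) := by rw [h5]
        _ = (u * v * u⁻¹ * v⁻¹) * a := by group
    rw [hab]
    calc a * b * (u * v * u⁻¹ * v⁻¹) = a * (b * (u * v * u⁻¹ * v⁻¹)) := by group
      _ = a * ((u * v * u⁻¹ * v⁻¹) * b) := by rw [h3]
      _ = (a * (u * v * u⁻¹ * v⁻¹)) * b := by group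
      _ = (u * v * u⁻¹ * v⁻¹) * a * b := by rw [h4]
      _ = (u * v * u⁻¹ * v⁻¹) * (a * b) := by group
  -- Step 5: `P` is normal in `C`
  have h5 : ∀ g ∈ C, ∀ x ∈ (P : Subgroup G), g * x * g⁻¹ ∈ (P : Subgroup G) := by
    intro g hg x hx
    have hzF := hz g x hg (hPC hx)
    set z := g * x * g⁻¹ * x⁻¹ with hzdef
    obtain ⟨a, b, hab, hcm, ⟨k, hk⟩, hbc, hazp, hbzp⟩ := exists_primary_decomp p z
    have haF : a ∈ F := (Subgroup.zpowers_le.mpr hzF) hazp
    have hbF : b ∈ F := (Subgroup.zpowers_le.mpr hzF) hbzp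
    have hacore : a ∈ Cfsg.pCore p G := mem_pCore_of_mem_nilpotent hFn hFnil haF hk
    have ht : a * x ∈ (P : Subgroup G) := Subgroup.mul_mem _ (hAP hacore) hx
    have hbt : Commute b (a * x) := by
      have h3 := h2 _ (a * x) ht b hbF rfl hbc
      exact h3.symm
    have hgx : g * x * g⁻¹ = b * (a * x) := by
      have h3 : g * x * g⁻¹ = z * x := by rw [hzdef]; group
      rw [h3, hab, hcm.eq]
      group
    obtain ⟨m1, hm1⟩ := orderOf_of_mem_isPGroup P.isPGroup' ht
    obtain ⟨m2, hm2⟩ := orderOf_of_mem_isPGroup P.isPGroup' hx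
    have hm3 : orderOf (g * x * g⁻¹) = p ^ m2 := by
      rw [← MulAut.conj_apply, MulEquiv.orderOf_eq, hm2]
    have h6 : (g * x * g⁻¹) ^ (p ^ (m1 + m2)) = 1 := by
      rw [pow_add, pow_mul', ← hm3, pow_orderOf_eq_one, one_pow]
    have h7 : (a * x) ^ (p ^ (m1 + m2)) = 1 := by
      rw [pow_add, pow_mul, ← hm1, pow_orderOf_eq_one, one_pow]
    rw [hgx, hbt.mul_pow, h7, mul_one] at h6
    have h8 : orderOf b = 1 :=
      Nat.eq_one_of_dvd_coprimes (Nat.Coprime.pow_right _ hbc) (dvd_refl _) (orderOf_dvd_of_pow_eq_one h6)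
    rw [hgx, orderOf_eq_one_iff.mp h8, one_mul]
    exact ht
  -- Step 6: `P` is normal in `G`
  constructor
  intro x hx g
  have hxC : g * x * g⁻¹ ∈ C := hCn.conj_mem x (hPC hx) g
  let PC : Sylow p C := P.subtype hPC
  have hPCn : (PC : Subgroup C).Normal := by
    constructor
    rintro ⟨u, hu⟩ hu' ⟨c, hc⟩
    have hu2 : u ∈ (P : Subgroup G) := by
      simpa [PC, Sylow.coe_subtype, Subgroup.mem_subgroupOf] using hu'
    have := h5 c hc u hu2
    simpa [PC, Sylow.coe_subtype, Subgroup.mem_subgroupOf] using this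
  obtain ⟨m2, hm2⟩ := orderOf_of_mem_isPGroup P.isPGroup' hx
  have hm3 : orderOf (g * x * g⁻¹) = p ^ m2 := by
    rw [← MulAut.conj_apply, MulEquiv.orderOf_eq, hm2]
  have h6 : (⟨g * x * g⁻¹, hxC⟩ : C) ∈ (PC : Subgroup C) :=
    mem_sylow_of_normal (by rw [Subgroup.orderOf_mk]; exact hm3) PC hPCn
  simpa [PC, Sylow.coe_subtype, Subgroup.mem_subgroupOf] using h6

/-- Quotient by a normal Hall subgroup keeps the hypothesis. -/
theorem Syl.quot {G : Type*} [Group G] [Finite G] (hS : Syl G) (P : Subgroup G) [P.Normal]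
    (hc : (Nat.card P).Coprime P.index) : Syl (G ⧸ P) := by
  classical
  obtain ⟨Y, hY⟩ := Subgroup.exists_right_complement'_of_coprime hc
  intro r hr T hT
  haveI : Fact r.Prime := ⟨hr⟩
  -- `T' = π⁻¹(T) ∩ Y`
  let T' : Subgroup G := T.comap (QuotientGroup.mk' P) ⊓ Y
  let f : T' →* T := ((QuotientGroup.mk' P).comp T'.subtype).codRestrict T (fun x => x.2.1)
  have hinj : Function.Injective f := by
    rw [injective_iff_map_eq_one]
    intro x hx
    have h1 : ((x : G) : G ⧸ P) = 1 := congrArg Subtype.val hx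
    have h2 : (x : G) ∈ P := (QuotientGroup.eq_one_iff _).mp h1
    have h3 : (x : G) ∈ P ⊓ Y := ⟨h2, x.2.2⟩
    rw [disjoint_iff.mp hY.disjoint] at h3
    exact Subtype.ext (Subgroup.mem_bot.mp h3)
  have hsurj : Function.Surjective f := by
    rintro ⟨t, ht⟩
    obtain ⟨g, rfl⟩ := QuotientGroup.mk_surjective t
    obtain ⟨⟨u, v⟩, huv⟩ := hY.2 g
    have huv' : (u : G) * v = g := huv
    have h1 : ((v : G) : G ⧸ P) = (g : G ⧸ P) := by
      rw [QuotientGroup.eq]
      rw [← huv']
      have : (v : G)⁻¹ * ((u : G) * v) = (v : G)⁻¹ * u * v := by group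
      rw [this]
      have := (inferInstance : P.Normal).conj_mem u u.2 (v : G)⁻¹
      rwa [inv_inv] at this
    refine ⟨⟨v, ?_, v.2⟩, ?_⟩
    · show ((v : G) : G ⧸ P) ∈ T
      rw [h1]; exact ht
    · apply Subtype.ext
      exact h1
  let e : T' ≃* T := MulEquiv.ofBijective f ⟨hinj, hsurj⟩
  exact C2.congr e.symm (hS r hr T' (hT.of_equiv e.symm))

theorem tower5 : ∀ n : ℕ, ∀ (G : Type u) [Group G] [Finite G], Nat.card G = n → Group.IsSolvable G → Syl G →
    ∀ d e : ℕ, d * e = n → Tow d e → (∀ q : ℕ, q.Prime → q ∣ d → 5 ≤ q) →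
    ∃ K : Subgroup G, K.Normal ∧ Nat.card K = d := by
  intro n
  induction n using Nat.strong_induction_on with
  | _ n ih =>
  intro G _ _ hn hG hS d e hde hT h5
  classical
  by_cases hd1 : d = 1
  · exact ⟨⊥, inferInstance, by simp [hd1]⟩
  have hn0 : n ≠ 0 := by rw [← hn]; exact Nat.card_pos.ne'
  have hd0 : d ≠ 0 := by
    rintro rfl
    simp at hde
    exact hn0 hde.symm
  have hn1 : 1 < n := by
    have h1 : d ∣ n := Dvd.intro _ hde
    have h2 := Nat.le_of_dvd (Nat.pos_of_ne_zero hn0) h1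
    omega
  have hfac : n.primeFactors.Nonempty := by
    rw [Nat.nonempty_primeFactors]
    exact hn1
  set p := n.primeFactors.max' hfac with hp
  have hpmem : p ∈ n.primeFactors := Finset.max'_mem _ _
  have hpp : p.Prime := Nat.prime_of_mem_primeFactors hpmem
  have hpd : p ∣ n := Nat.dvd_of_mem_primeFactors hpmem
  haveI : Fact p.Prime := ⟨hpp⟩
  have hmax : ∀ q : ℕ, q.Prime → q ∣ n → q ≤ p := by
    intro q hq hqd
    apply Finset.le_max'
    rw [Nat.mem_primeFactors]
    exact ⟨hq, hqd, hn0⟩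
  -- `p` divides `d`
  have hpdd : p ∣ d := by
    obtain ⟨r, hr, hrd⟩ := Nat.exists_prime_and_dvd hd1
    by_contra hno
    have h1 : p ∣ e := by
      rw [← hde] at hpd
      exact (hpp.dvd_mul.mp hpd).resolve_left hno
    have h2 := hT r p hr hpp hrd h1
    have h3 := hmax r hr (by rw [← hde]; exact hrd.trans (Dvd.intro _ rfl))
    omega
  have hp5 := h5 p hpp hpdd
  obtain ⟨P⟩ : Nonempty (Sylow p G) := inferInstance
  haveI hPn : (P : Subgroup G).Normal :=
    normal_sylow_top hS hp5 (fun r hr hrd => hmax r hr (by rw [← hn]; exact hrd)) P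
  have hd' : ∃ d', d = Nat.card (P : Subgroup G) * d' ∧ ¬ p ∣ d' := by
    refine ⟨d / p ^ d.factorization p, ?_, Nat.not_dvd_ordCompl hpp hd0⟩
    have h1 : Nat.card (P : Subgroup G) = p ^ d.factorization p := by
      rw [Sylow.card_eq_multiplicity, hn, ← hde, Nat.factorization_mul hd0 (by rintro rfl; simp at hde; exact hn0 hde.symm)]
      have hne : ¬ p ∣ e := fun h => lt_irrefl _ (hT p p hpp hpp hpdd h)
      simp [Nat.factorization_eq_zero_of_not_dvd hne]
    rw [h1]
    exact (Nat.mul_div_cancel' (Nat.ordProj_dvd d p)).symm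
  obtain ⟨d', hdd', hpd'⟩ := hd'
  have hPpos : 0 < Nat.card (P : Subgroup G) := Nat.card_pos
  have hPgt : 1 < Nat.card (P : Subgroup G) := by
    have h1 : Nat.card (P : Subgroup G) ≠ 1 := by
      rintro h
      rw [h, one_mul] at hdd'
      rw [hdd'] at hpdd
      exact hpd' hpdd
    omega
  have hcardG : Nat.card G = Nat.card (G ⧸ (P : Subgroup G)) * Nat.card (P : Subgroup G) :=
    Subgroup.card_eq_card_quotient_mul_card_subgroup _
  have hq : Nat.card (G ⧸ (P : Subgroup G)) = d' * e := by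
    have h1 : Nat.card (G ⧸ (P : Subgroup G)) * Nat.card (P : Subgroup G) = (d' * e) * Nat.card (P : Subgroup G) := by
      rw [← hcardG, hn, ← hde, hdd']; ring
    exact Nat.eq_of_mul_eq_mul_right hPpos h1
  have hlt : Nat.card (G ⧸ (P : Subgroup G)) < n := by
    rw [← hn, hcardG]
    have h1 : 0 < Nat.card (G ⧸ (P : Subgroup G)) := Nat.card_pos
    nlinarith
  have hidx : (Nat.card (P : Subgroup G)).Coprime (P : Subgroup G).index := P.card_coprime_index
  obtain ⟨Kb, hKbn, hKb⟩ := ih _ hlt (G ⧸ (P : Subgroup G)) rfl inferInstance (hS.quot _ hidx) d' e hq.symm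
    (fun a b ha hb h1 h2 => hT a b ha hb (by rw [hdd']; exact Dvd.dvd.mul_left h1 _) h2)
    (fun q hq hqd => h5 q hq (by rw [hdd']; exact Dvd.dvd.mul_left hqd _))
  refine ⟨Kb.comap (QuotientGroup.mk' (P : Subgroup G)), hKbn.comap _, ?_⟩
  rw [Cfsg.Agent.H02.card_comap_mk, hKb, hdd']
  ring

theorem tower_solvable5 {H : Type v} [Group H] [Finite H]
    (hsol : ∀ d e : ℕ, d * e = Nat.card H → Tow d e → (∀ q : ℕ, q.Prime → q ∣ d → 5 ≤ q) → sol H d = d) :
    ∀ d e : ℕ, d * e = Nat.card H → Tow d e → (∀ q : ℕ, q.Prime → q ∣ d → 5 ≤ q) → ∃ K : Subgroup H, K.Normal ∧ Nat.card K = d ∧ Group.IsSolvable K := by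
  intro d
  induction d using Nat.strong_induction_on with
  | _ d ih =>
  intro e hde hT h55
  classical
  by_cases hd1 : d = 1
  · refine ⟨⊥, inferInstance, by simp [hd1], ?_⟩
    exact Group.isSolvable_of_comm (fun a b => Subsingleton.elim _ _)
  have hn0 : Nat.card H ≠ 0 := Nat.card_pos.ne'
  have hd0 : d ≠ 0 := by
    rintro rfl
    simp at hde
    exact hn0 hde.symm
  set q := d.minFac with hq
  have hqp : q.Prime := Nat.minFac_prime hd1
  have hqd : q ∣ d := Nat.minFac_dvd d
  set a := d.factorization q with ha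
  obtain ⟨d', hd', hnq⟩ : ∃ d', d = q ^ a * d' ∧ ¬ q ∣ d' := by
    refine ⟨d / q ^ a, ?_, ?_⟩
    · exact (Nat.mul_div_cancel' (Nat.ordProj_dvd d q)).symm
    · exact Nat.not_dvd_ordCompl hqp hd0
  have ha0 : a ≠ 0 := by
    rw [ha]
    exact (hqp.factorization_pos_of_dvd hd0 hqd).ne'
  have hd'lt : d' < d := by
    have h1 : 1 < q ^ a := Nat.one_lt_pow ha0 hqp.one_lt
    have h2 : 0 < d' := by
      rcases Nat.eq_zero_or_pos d' with h | h
      · rw [h] at hd'; simp at hd'; exact absurd hd' hd0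
      · exact h
    rw [hd']
    nlinarith
  have hTow' : Tow d' (q ^ a * e) := by
    intro r s hr hs hrd hsd
    rcases (hs.dvd_mul).mp hsd with h | h
    · have h1 : s = q := (Nat.prime_dvd_prime_iff_eq hs hqp).mp (hs.dvd_of_dvd_pow h)
      rw [h1]
      have h2 : q ≤ r := Nat.minFac_le_of_dvd hr.two_le (by rw [hd']; exact Dvd.dvd.mul_left hrd _)
      have h3 : r ≠ q := by
        rintro rfl
        exact hnq hrd
      omega
    · exact hT r s hr hs (by rw [hd']; exact Dvd.dvd.mul_left hrd _) h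
  obtain ⟨K, hKn, hKc, hKs⟩ := ih d' hd'lt (q ^ a * e) (by rw [← hde, hd']; ring) hTow'
    (fun r hr hrd => h55 r hr (by rw [hd']; exact Dvd.dvd.mul_left hrd _))
  haveI := hKn
  haveI : Fact q.Prime := ⟨hqp⟩
  obtain ⟨Q⟩ : Nonempty (Sylow q H) := inferInstance
  have hnqe : ¬ q ∣ e := by
    intro h
    exact lt_irrefl _ (hT q q hqp hqp hqd h)
  have hQc : Nat.card (Q : Subgroup H) = q ^ a := by
    rw [Sylow.card_eq_multiplicity, ← hde, Nat.factorization_mul hd0 (by rintro rfl; simp at hde; exact hn0 hde.symm)]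
    simp only [Finsupp.coe_add, Pi.add_apply]
    rw [Nat.factorization_eq_zero_of_not_dvd hnqe, add_zero]
  have hinf : ((Q : Subgroup H) ⊓ K : Subgroup H) = ⊥ := by
    have hcop : (Nat.card (Q : Subgroup H)).Coprime (Nat.card K) := by
      rw [hQc, hKc]
      exact Nat.Coprime.pow_left _ ((Nat.Prime.coprime_iff_not_dvd hqp).mpr hnq)
    exact Subgroup.inf_eq_bot_of_coprime hcop
  have hcardL : Nat.card ((Q : Subgroup H) ⊔ K : Subgroup H) = d := by
    have h1 := Cfsg.Agent.H18.card_sup_mul_card_inf (Q : Subgroup H) K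
    rw [hinf, Subgroup.card_bot, mul_one, hQc, hKc] at h1
    rw [h1, hd']
  set L : Subgroup H := (Q : Subgroup H) ⊔ K with hL
  -- `L` is the solution set
  have hsoleq := hsol d e hde hT h55
  have hLsub : ∀ x ∈ L, x ^ d = 1 := by
    intro x hx
    have h1 : (⟨x, hx⟩ : L) ^ Nat.card L = 1 := pow_card_eq_one'
    rw [hcardL] at h1
    exact congrArg Subtype.val h1
  have hiff : ∀ x : H, x ^ d = 1 ↔ x ∈ L := by
    intro x
    refine ⟨fun hx => ?_, hLsub x⟩
    by_contra hxL
    let f : L → {u : H // u ^ d = 1} := fun y => ⟨y.1, hLsub y.1 y.2⟩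
    have hf : Function.Injective f := fun a b h => by
      have h' := congrArg Subtype.val h
      exact Subtype.ext h'
    have hsurj : Function.Surjective f := by
      refine (Function.Injective.bijective_of_nat_card_le hf ?_).2
      unfold sol at hsoleq
      rw [hsoleq, hcardL]
    obtain ⟨y, hy⟩ := hsurj ⟨x, hx⟩
    have := congrArg Subtype.val hy
    apply hxL
    rw [← show y.1 = x from this]
    exact y.2
  have hLn : L.Normal := by
    constructor
    intro x hx g
    rw [← hiff] at hx ⊢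
    rw [conj_pow, hx]
    simp
  refine ⟨L, hLn, hcardL, ?_⟩
  -- solvability
  have hKL : K ≤ L := le_sup_right
  let f : K →* L := Subgroup.inclusion hKL
  haveI hn' : (K.subgroupOf L).Normal := inferInstance
  let g : L →* L ⧸ K.subgroupOf L := QuotientGroup.mk' _
  have hcardquot : Nat.card (L ⧸ K.subgroupOf L) = q ^ a := by
    have h1 := Subgroup.card_eq_card_quotient_mul_card_subgroup (K.subgroupOf L)
    have h2 : Nat.card (K.subgroupOf L) = Nat.card K :=
      Nat.card_congr (Subgroup.subgroupOfEquivOfLe hKL).toEquiv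
    rw [h2, hKc, hcardL, hd'] at h1
    have h3 : 0 < d' := by
      rcases Nat.eq_zero_or_pos d' with h | h
      · rw [h] at hd'; simp at hd'; exact absurd hd' hd0
      · exact h
    exact (Nat.eq_of_mul_eq_mul_right h3 h1).symm
  haveI hpq : IsPGroup q (L ⧸ K.subgroupOf L) := IsPGroup.of_card hcardquot
  haveI : Group.IsNilpotent (L ⧸ K.subgroupOf L) := hpq.isNilpotent
  have hker : g.ker ≤ f.range := by
    intro x hx
    have h1 : x ∈ K.subgroupOf L := by
      rwa [QuotientGroup.ker_mk'] at hx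
    exact ⟨⟨x.1, Subgroup.mem_subgroupOf.mp h1⟩, rfl⟩
  exact Group.isSolvable_of_ker_le_range f g hker


theorem solvable_of_sol5 {H : Type v} [Group H] [Finite H]
    (hsol : ∀ d e : ℕ, d * e = Nat.card H → Tow d e → (∀ q : ℕ, q.Prime → q ∣ d → 5 ≤ q) → sol H d = d) :
    Group.IsSolvable H := by
  classical
  set n := Nat.card H with hn
  have hn0 : n ≠ 0 := Nat.card_pos.ne'
  set a := n.factorization 2 with ha
  set n1 := n / 2 ^ a with hn1
  have hn1d : 2 ^ a * n1 = n := Nat.mul_div_cancel' (Nat.ordProj_dvd n 2)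
  have h2n1 : ¬ 2 ∣ n1 := Nat.not_dvd_ordCompl Nat.prime_two hn0
  have hn10 : n1 ≠ 0 := by
    rintro h
    rw [h] at hn1d
    simp at hn1d
    exact hn0 hn1d.symm
  set b := n1.factorization 3 with hb
  set n2 := n1 / 3 ^ b with hn2
  have hn2d : 3 ^ b * n2 = n1 := Nat.mul_div_cancel' (Nat.ordProj_dvd n1 3)
  have h3n2 : ¬ 3 ∣ n2 := Nat.not_dvd_ordCompl Nat.prime_three hn10
  have h2n2 : ¬ 2 ∣ n2 := fun h => h2n1 (by rw [← hn2d]; exact Dvd.dvd.mul_left h _)
  have h5 : ∀ q : ℕ, q.Prime → q ∣ n2 → 5 ≤ q := by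
    intro q hq hqd
    have h1 : q ≠ 2 := by rintro rfl; exact h2n2 hqd
    have h2 : q ≠ 3 := by rintro rfl; exact h3n2 hqd
    have h3 := hq.two_le
    by_contra h4
    have h6 : q = 4 := by omega
    rw [h6] at hq
    exact absurd hq (by norm_num)
  have hT : Tow n2 (2 ^ a * 3 ^ b) := by
    intro p q hp hq hpd hqd
    have h4 := h5 p hp hpd
    rcases hq.dvd_mul.mp hqd with h | h
    · have := (Nat.prime_dvd_prime_iff_eq hq Nat.prime_two).mp (hq.dvd_of_dvd_pow h)
      omega
    · have := (Nat.prime_dvd_prime_iff_eq hq Nat.prime_three).mp (hq.dvd_of_dvd_pow h)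
      omega
  have hde : n2 * (2 ^ a * 3 ^ b) = Nat.card H := by
    rw [← hn, ← hn1d, ← hn2d]; ring
  obtain ⟨K, hKn, hKc, hKs⟩ := tower_solvable5 hsol n2 _ hde hT h5
  haveI := hKn
  have hq : Nat.card (H ⧸ K) = 2 ^ a * 3 ^ b := by
    have h1 := Subgroup.card_eq_card_quotient_mul_card_subgroup K
    rw [hKc, ← hde] at h1
    have hn2pos : 0 < n2 := by
      rcases Nat.eq_zero_or_pos n2 with h | h
      · rw [h] at h2n2; simp at h2n2
      · exact h
    have h2 : (2 ^ a * 3 ^ b) * n2 = Nat.card (H ⧸ K) * n2 := by rw [← h1]; ring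
    exact (Nat.eq_of_mul_eq_mul_right hn2pos h2).symm
  haveI hsq : Group.IsSolvable (H ⧸ K) := Cfsg.Agent.Lead.burnside_two_prime 2 3 a b Nat.prime_two Nat.prime_three hq
  haveI := hKs
  exact Group.isSolvable_of_ker_le_range K.subtype (QuotientGroup.mk' K) (by
    intro x hx
    have h1 : x ∈ K := by rwa [QuotientGroup.ker_mk'] at hx
    exact ⟨⟨x, h1⟩, rfl⟩)

/-- Same counts of solutions: solvability transfers from a group with the Sylow hypothesis. -/
theorem solvable_transfer {H : Type u} {L : Type v} [Group H] [Finite H] [Group L] [Finite L]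
    (hH : Group.IsSolvable H) (hS : Syl H) (hc : Nat.card H = Nat.card L)
    (hsol : ∀ d : ℕ, d ∣ Nat.card H → sol H d = sol L d) : Group.IsSolvable L := by
  apply solvable_of_sol5
  intro d e hde hT h5
  have hde' : d * e = Nat.card H := by rw [hde, hc]
  obtain ⟨K, hKn, hK⟩ := tower5 _ H rfl hH hS d e hde' hT h5
  haveI := hKn
  have h1 := sol_of_normal K hK hde' hT.coprime
  rw [← hsol d (Dvd.intro _ hde'), h1]

end Cfsg.Agent.H19
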