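import Cfsg.Agent.Lib.H19.Hopf2
import Mathlib.GroupTheory.IsPerfect

/-! Perfect groups: universal central extensions (helper19). -/

set_option autoImplicit false
set_option linter.style.haveILetI false

namespace Cfsg.Agent.H19.Hopf

open scoped commutatorElement

universe u v w

/-- Perfect groups have a universal central extension (S3960). -/
theorem exists_universal {Q : Type u} [Group Q] [Finite Q] (hQ : Group.IsPerfect Q) :
    ∃ (G : Type u) (_ : Group G) (_ : Finite G) (π : G →* Q), Group.IsPerfect G ∧
      Function.Surjective π ∧ π.ker ≤ Subgroup.center G ∧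
      ∀ (X : Type u) [Group X] (ξ : X →* Q), Function.Surjective ξ → ξ.ker ≤ Subgroup.center X →
        ∃! η : G →* X, ξ.comp η = π := by
  let ε := canon Q
  have hε : Function.Surjective ε := canon_surjective Q
  have hperf : commutator Q = ⊤ := hQ.commutator_eq_top
  let C : Subgroup (Cov ε) := commutator (Cov ε)
  let π : C →* Q := (covMap ε).comp C.subtype
  have hcm : Function.Surjective (covMap ε) := covMap_surjective ε hε
  have hπ : Function.Surjective π := by
    intro y
    have hy : y ∈ commutator Q := hperf ▸ Subgroup.mem_top y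
    have hmap : commutator Q = C.map (covMap ε) := by
      show commutator Q = (commutator (Cov ε)).map (covMap ε)
      rw [commutator_def, commutator_def, Subgroup.map_commutator,
        Subgroup.map_top_of_surjective _ hcm]
    rw [hmap] at hy
    obtain ⟨c, hc, rfl⟩ := hy
    exact ⟨⟨c, hc⟩, rfl⟩
  have hdec : ∀ x : Cov ε, ∃ c : C, ∃ k ∈ covKer ε, x = c * k := by
    intro x
    obtain ⟨c, hc⟩ := hπ (covMap ε x)
    refine ⟨c, (c : Cov ε)⁻¹ * x, ?_, by group⟩
    show covMap ε ((c : Cov ε)⁻¹ * x) = 1
    have : covMap ε c = covMap ε x := hc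
    rw [map_mul, map_inv, this, inv_mul_cancel]
  have hperfC : commutator C = ⊤ := by
    rw [eq_top_iff]
    rintro ⟨x, hx⟩ _
    have hle : C ≤ (commutator C).map C.subtype := by
      show commutator (Cov ε) ≤ _
      rw [commutator_def (Cov ε), Subgroup.commutator_le]
      intro a _ b _
      obtain ⟨c, k, hk, rfl⟩ := hdec a
      obtain ⟨c', k', hk', rfl⟩ := hdec b
      have h1 := Subgroup.mem_center_iff.mp (covKer_le_center ε hk)
      have h2 := Subgroup.mem_center_iff.mp (covKer_le_center ε hk')
      rw [comm_mul_central_left h1, comm_mul_central_right h2]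
      refine ⟨⁅c, c'⁆, ?_, rfl⟩
      rw [commutator_def]
      exact Subgroup.commutator_mem_commutator (Subgroup.mem_top c) (Subgroup.mem_top c')
    obtain ⟨y, hy, hyx⟩ := hle hx
    have : y = ⟨x, hx⟩ := Subtype.ext hyx
    rw [← this]
    exact hy
  refine ⟨C, inferInstance, inferInstance, π, ⟨hperfC⟩, hπ, ?_, ?_⟩
  · intro x hx
    rw [Subgroup.mem_center_iff]
    intro g
    apply Subtype.ext
    exact Subgroup.mem_center_iff.mp (covKer_le_center ε hx) g.1
  · intro X _ ξ hξ hcen
    obtain ⟨θ, hθ⟩ := exists_cov_lift ε ξ hξ hcen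
    refine ⟨θ.comp C.subtype, ?_, ?_⟩
    · ext x
      exact DFunLike.congr_fun hθ x.1
    · intro η hη
      ext x
      have hcent : ∀ w : C, η w * ((θ.comp C.subtype) w)⁻¹ ∈ Subgroup.center X := by
        intro w
        apply hcen
        rw [MonoidHom.mem_ker, map_mul, map_inv, mul_inv_eq_one]
        have h1 : ξ (η w) = π w := DFunLike.congr_fun hη w
        have h2 : ξ (θ w) = covMap ε w := DFunLike.congr_fun hθ w.1
        show ξ (η w) = ξ (θ w)
        rw [h1, h2]
        rfl
      exact lifts_agree_on_commutator η (θ.comp C.subtype) hcent (hperfC ▸ Subgroup.mem_top x)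

/-- S3961 -/
theorem universal_iff {G : Type u} {Q : Type v} [Group G] [Group Q] [Finite G] (hG : Group.IsPerfect G)
    (π : G →* Q) (hπ : Function.Surjective π) (hker : π.ker ≤ Subgroup.center G) :
    (∀ (X : Type u) [Group X] (ξ : X →* Q), Function.Surjective ξ → ξ.ker ≤ Subgroup.center X →
      ∃ η : G →* X, ξ.comp η = π) ↔ Cfsg.HasCyclicSchurMultiplier G 1 := by
  have hperf : commutator G = ⊤ := hG.commutator_eq_top
  constructor
  · intro huniv
    rw [hasCyclic_one_iff]
    intro Δ _ _ τ hτ
    -- `Δ` is perfect
    have hΔ : commutator Δ = ⊤ := by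
      rw [eq_top_iff]
      intro x _
      have h1 : τ x ∈ commutator G := hperf ▸ Subgroup.mem_top _
      have hmap : commutator G = (commutator Δ).map τ := by
        rw [commutator_def, commutator_def, Subgroup.map_commutator,
          Subgroup.map_top_of_surjective _ hτ.1]
      rw [hmap] at h1
      obtain ⟨c, hc, hcx⟩ := h1
      have h2 : c⁻¹ * x ∈ τ.ker := by
        rw [MonoidHom.mem_ker, map_mul, map_inv, hcx, inv_mul_cancel]
      have h3 := (commutator Δ).mul_mem hc (hτ.2.2 h2)
      simpa using h3
    have hcen : (π.comp τ).ker ≤ Subgroup.center Δ := by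
      intro x hx
      have hτx : τ x ∈ Subgroup.center G := hker hx
      rw [Subgroup.mem_center_iff]
      intro y
      let b : Δ →* Δ := (MulAut.conj x).toMonoidHom
      have hc : ∀ w, (MonoidHom.id Δ) w * (b w)⁻¹ ∈ Subgroup.center Δ := by
        intro w
        apply hτ.2.1
        rw [MonoidHom.mem_ker, map_mul, map_inv, mul_inv_eq_one]
        show τ w = τ (x * w * x⁻¹)
        rw [map_mul, map_mul, map_inv]
        have := Subgroup.mem_center_iff.mp hτx (τ w)
        rw [← this, mul_inv_cancel_right]
      have := lifts_agree_on_commutator (MonoidHom.id Δ) b hc (hΔ ▸ Subgroup.mem_top y)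
      have h5 : y = x * y * x⁻¹ := this
      calc y * x = (x * y * x⁻¹) * x := by rw [← h5]
        _ = x * y := by group
    obtain ⟨η, hη⟩ := huniv Δ (π.comp τ) (hπ.comp hτ.1) hcen
    have hτη : ∀ g, τ (η g) = g := by
      intro g
      have hc : ∀ w, (τ.comp η) w * ((MonoidHom.id G) w)⁻¹ ∈ Subgroup.center G := by
        intro w
        apply hker
        rw [MonoidHom.mem_ker, map_mul, map_inv, mul_inv_eq_one]
        exact DFunLike.congr_fun hη w
      exact lifts_agree_on_commutator (τ.comp η) (MonoidHom.id G) hc (hperf ▸ Subgroup.mem_top g)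
    have hle : commutator Δ ≤ η.range := by
      rw [commutator_def, Subgroup.commutator_le]
      intro a _ b _
      have hdec : ∀ y : Δ, ∃ k ∈ τ.ker, y = η (τ y) * k := by
        intro y
        refine ⟨(η (τ y))⁻¹ * y, ?_, by group⟩
        rw [MonoidHom.mem_ker, map_mul, map_inv, hτη, inv_mul_cancel]
      obtain ⟨k, hk, hak⟩ := hdec a
      obtain ⟨k', hk', hbk⟩ := hdec b
      rw [hak, hbk, comm_mul_central_left (Subgroup.mem_center_iff.mp (hτ.2.1 hk)),
        comm_mul_central_right (Subgroup.mem_center_iff.mp (hτ.2.1 hk'))]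
      exact ⟨⁅τ a, τ b⁆, by rw [map_commutatorElement]⟩
    rw [eq_bot_iff]
    intro x hx
    obtain ⟨g, rfl⟩ := hle (hτ.2.2 hx)
    have h1 : g = 1 := by
      rw [← hτη g]
      exact hx
    rw [h1, map_one]
    exact Subgroup.one_mem _
  · intro hmult X _ ξ hξ hcen
    let ε := canon G
    have hε : Function.Surjective ε := canon_surjective G
    obtain ⟨θ, hθ⟩ := exists_cov_lift' ε ξ hξ hcen π
    have hM : covM ε = ⊥ := by
      obtain ⟨e⟩ := nonempty_equiv_covM ε hε hmult
      haveI hU : Unique (Multiplicative (ZMod 1)) := inferInstanceAs (Unique (ZMod 1))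
      rw [eq_bot_iff]
      intro x hx
      have h1 : e.symm ⟨x, hx⟩ = 1 := Subsingleton.elim _ _
      have h2 : (⟨x, hx⟩ : covM ε) = 1 := by
        have := congrArg e h1
        rwa [MulEquiv.apply_symm_apply, map_one] at this
      exact congrArg Subtype.val h2
    let C : Subgroup (Cov ε) := commutator (Cov ε)
    let f : C →* G := (covMap ε).comp C.subtype
    have hcm : Function.Surjective (covMap ε) := covMap_surjective ε hε
    have hfs : Function.Surjective f := by
      intro y
      have hy : y ∈ commutator G := hperf ▸ Subgroup.mem_top y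
      have hmap : commutator G = C.map (covMap ε) := by
        show commutator G = (commutator (Cov ε)).map (covMap ε)
        rw [commutator_def, commutator_def, Subgroup.map_commutator,
          Subgroup.map_top_of_surjective _ hcm]
      rw [hmap] at hy
      obtain ⟨c, hc, rfl⟩ := hy
      exact ⟨⟨c, hc⟩, rfl⟩
    have hfi : Function.Injective f := by
      rw [injective_iff_map_eq_one]
      rintro ⟨c, hc⟩ h
      have h1 : c ∈ covM ε := ⟨h, hc⟩
      rw [hM] at h1
      exact Subtype.ext h1
    let e : C ≃* G := MulEquiv.ofBijective f ⟨hfi, hfs⟩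
    refine ⟨(θ.comp C.subtype).comp e.symm.toMonoidHom, ?_⟩
    ext g
    have h1 : ξ (θ (e.symm g)) = π (covMap ε (e.symm g)) := DFunLike.congr_fun hθ _
    simp only [MonoidHom.comp_apply, MulEquiv.coe_toMonoidHom, Subgroup.subtype_apply]
    rw [h1]
    have h2 : covMap ε (e.symm g) = g := by
      show f (e.symm g) = g
      exact e.apply_symm_apply g
    rw [h2]

end Cfsg.Agent.H19.Hopf
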