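import Cfsg.Agent.Lib.H19.HopfTr

/-! Uniqueness of Schur covers (helper19). -/

set_option autoImplicit false
set_option linter.style.haveILetI false

namespace Cfsg.Agent.H19.Hopf

open scoped commutatorElement

universe u v w

/-- Extending a hom from a subgroup of index coprime to the target. -/
theorem exists_ext_coprime {E K : Type*} [CommGroup E] [CommGroup K] [Finite K] (I : Subgroup E)
    (hcop : Nat.Coprime I.index (Nat.card K)) (g : I →* K) : ∃ h : E →* K, ∀ y : I, h y = g y := by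
  classical
  haveI hn : I.Normal := inferInstance
  set d := I.index with hd
  let φ := Nat.totient (Nat.card K)
  have hφ : 0 < φ := Nat.totient_pos.mpr Nat.card_pos
  have hmod : d ^ φ ≡ 1 [MOD Nat.card K] := Nat.ModEq.pow_totient hcop
  let d' := d ^ (φ - 1)
  have hdd : d * d' = d ^ φ := by
    show d * d ^ (φ - 1) = d ^ φ
    rw [← pow_succ']
    congr 1
    omega
  have hkill : ∀ k : K, k ^ (d * d') = k := by
    intro k
    rw [hdd]
    have h1 : k ^ (d ^ φ) = k ^ (d ^ φ % Nat.card K) := by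
      conv_lhs => rw [← Nat.div_add_mod (d ^ φ) (Nat.card K)]
      rw [pow_add, pow_mul, pow_card_eq_one', one_pow, one_mul]
    rw [h1, hmod]
    by_cases h3 : Nat.card K = 1
    · haveI : Subsingleton K := (Finite.card_le_one_iff_subsingleton).mp h3.le
      exact Subsingleton.elim _ _
    · have h5 : 1 < Nat.card K := by
        have : 0 < Nat.card K := Nat.card_pos
        omega
      rw [Nat.mod_eq_of_lt h5, pow_one]
  let h : E →* K :=
    { toFun := fun x => (g ⟨x ^ d, I.pow_index_mem x⟩) ^ d'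
      map_one' := by
        have : (⟨(1 : E) ^ d, I.pow_index_mem 1⟩ : I) = 1 := Subtype.ext (one_pow d)
        show (g ⟨(1 : E) ^ d, _⟩) ^ d' = 1
        rw [this, map_one, one_pow]
      map_mul' := by
        intro a b
        have : (⟨(a * b) ^ d, I.pow_index_mem (a * b)⟩ : I) =
            ⟨a ^ d, I.pow_index_mem a⟩ * ⟨b ^ d, I.pow_index_mem b⟩ := Subtype.ext (mul_pow a b d)
        show (g ⟨(a * b) ^ d, _⟩) ^ d' = (g ⟨a ^ d, _⟩) ^ d' * (g ⟨b ^ d, _⟩) ^ d'
        rw [this, map_mul, mul_pow] }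
  refine ⟨h, ?_⟩
  intro y
  show (g ⟨(y : E) ^ d, _⟩) ^ d' = g y
  have : (⟨(y : E) ^ d, I.pow_index_mem (y : E)⟩ : I) = y ^ d := rfl
  rw [this, map_pow, ← pow_mul, hkill]

section setup

variable {F : Type u} [Group F] {Q : Type v} [Group Q] (ε : F →* Q)

/-- The abelianization map of `Cov ε`. -/
abbrev qAb : Cov ε →* Abelianization (Cov ε) := Abelianization.of

/-- The image `I` of the kernel in the abelianization. -/
abbrev iAb : Subgroup (Abelianization (Cov ε)) := (covKer ε).map (qAb ε)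

theorem qAb_eq_one (x : Cov ε) : qAb ε x = 1 ↔ x ∈ commutator (Cov ε) := by
  rw [← Abelianization.ker_of]
  rfl

theorem qAb_surjective : Function.Surjective (qAb ε) := QuotientGroup.mk'_surjective _

/-- The index of `I` is the order of the abelianization of `Q`. -/
theorem index_iAb [Finite Q] (hε : Function.Surjective ε) : (iAb ε).index = Nat.card (Abelianization Q) := by
  let Φ : Abelianization (Cov ε) →* Abelianization Q := Abelianization.map (covMap ε)
  have hcm := covMap_surjective ε hε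
  have hΦs : Function.Surjective Φ := by
    intro y
    obtain ⟨y', rfl⟩ := QuotientGroup.mk'_surjective _ y
    obtain ⟨w, rfl⟩ := hcm y'
    exact ⟨qAb ε w, rfl⟩
  have hker : Φ.ker = iAb ε := by
    ext x
    obtain ⟨w, rfl⟩ := qAb_surjective ε x
    constructor
    · intro hx
      have h1 : (Abelianization.of (covMap ε w) : Abelianization Q) = 1 := hx
      have h2 : covMap ε w ∈ commutator Q := by
        rw [← Abelianization.ker_of]
        exact h1
      have hmap : commutator Q = (commutator (Cov ε)).map (covMap ε) := by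
        rw [commutator_def, commutator_def, Subgroup.map_commutator,
          Subgroup.map_top_of_surjective _ hcm]
      rw [hmap] at h2
      obtain ⟨w', hw', h3⟩ := h2
      refine ⟨w * w'⁻¹, ?_, ?_⟩
      · show covMap ε (w * w'⁻¹) = 1
        rw [map_mul, map_inv, h3, mul_inv_cancel]
      · rw [map_mul, map_inv, (qAb_eq_one ε w').mpr hw', inv_one, mul_one]
    · rintro ⟨k, hk, hkw⟩
      rw [← hkw]
      show (Abelianization.of (covMap ε k) : Abelianization Q) = 1
      rw [show covMap ε k = 1 from hk, map_one]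
  rw [← hker, Subgroup.index_ker, MonoidHom.range_eq_top.mpr hΦs]
  simp

end setup

section cover_hom

variable {F : Type u} [Group F] [IsFreeGroup F] [Group.FG F] {Q : Type u} [Group Q] [Finite Q] (ε : F →* Q)

theorem card_eq_of_stem {Γ : Type*} [Group Γ] [Finite Γ] (σ : Γ →* Q) (hσ : Function.Surjective σ) :
    Nat.card Γ = Nat.card Q * Nat.card σ.ker := by
  rw [Subgroup.card_eq_card_quotient_mul_card_subgroup σ.ker]
  congr 1
  exact Nat.card_congr (QuotientGroup.quotientKerEquivOfSurjective σ hσ).toEquiv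

/-- S3974, the easy direction. -/
theorem exists_iso_of_coprime (hε : Function.Surjective ε) {A : Type v} [CommGroup A]
    (hA : Cfsg.HasSchurMultiplier Q A) (hcop : Nat.Coprime (Nat.card (Abelianization Q)) (Nat.card A))
    (Γ₁ Γ₂ : Type u) [Group Γ₁] [Finite Γ₁] [Group Γ₂] [Finite Γ₂] (σ₁ : Γ₁ →* Q) (σ₂ : Γ₂ →* Q)
    (h₁ : Cfsg.IsStemExtension σ₁) (h₂ : Cfsg.IsStemExtension σ₂) (k₁ : Nonempty (σ₁.ker ≃* A))
    (k₂ : Nonempty (σ₂.ker ≃* A)) : ∃ e : Γ₁ ≃* Γ₂, σ₂.comp e.toMonoidHom = σ₁ := by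
  classical
  obtain ⟨θ₁, hθ₁⟩ := exists_cov_lift ε σ₁ h₁.1 h₁.2.1
  obtain ⟨θ₂, hθ₂⟩ := exists_cov_lift ε σ₂ h₂.1 h₂.2.1
  have hθ₁s := stem_lift_surjective ε hε σ₁ h₁ θ₁ hθ₁
  have hinj₁ : ∀ m ∈ covM ε, θ₁ m = 1 → m = 1 :=
    fun m hm h => lift_injective_on_covM ε hε hA σ₁ h₁ k₁ θ₁ hθ₁ hm h
  obtain ⟨e₂⟩ := k₂
  obtain ⟨e₁⟩ := k₁
  have hcard : Nat.card σ₂.ker = Nat.card A := Nat.card_congr e₂.toEquiv
  have hcard' : Nat.card σ₁.ker = Nat.card A := Nat.card_congr e₁.toEquiv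
  letI : CommGroup σ₂.ker :=
    { (inferInstance : Group σ₂.ker) with
      mul_comm := fun a b => Subtype.ext ((Subgroup.mem_center_iff.mp (h₂.2.1 b.2)) a.1) }
  -- elements of the kernel of `θ₁`
  have hTle : θ₁.ker ≤ covKer ε := by
    intro t ht
    show covMap ε t = 1
    have : σ₁ (θ₁ t) = covMap ε t := DFunLike.congr_fun hθ₁ t
    rw [← this, MonoidHom.mem_ker.mp ht, map_one]
  -- the map `θ₁.ker → I` is bijective
  let q := qAb ε
  let toI : θ₁.ker →* iAb ε :=
    ((q.comp θ₁.ker.subtype)).codRestrict (iAb ε) (fun t => ⟨t.1, hTle t.2, rfl⟩)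
  have htoIinj : Function.Injective toI := by
    rw [injective_iff_map_eq_one]
    rintro ⟨t, ht⟩ h
    have h1 : q t = 1 := congrArg Subtype.val h
    have h2 : t ∈ covM ε := ⟨hTle ht, (qAb_eq_one ε t).mp h1⟩
    exact Subtype.ext (hinj₁ t h2 ht)
  have htoIsurj : Function.Surjective toI := by
    rintro ⟨_, w, hw, rfl⟩
    have h1 : θ₁ w ∈ σ₁.ker := by
      rw [MonoidHom.mem_ker]
      have : σ₁ (θ₁ w) = covMap ε w := DFunLike.congr_fun hθ₁ w
      rw [this]
      exact hw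
    obtain ⟨m, hm, hmw⟩ := mem_image_covM ε σ₁ h₁.2.1 θ₁ hθ₁ hε h₁.1 h1 (h₁.2.2 h1)
    refine ⟨⟨w * m⁻¹, ?_⟩, ?_⟩
    · rw [MonoidHom.mem_ker, map_mul, map_inv, hmw, mul_inv_cancel]
    · apply Subtype.ext
      show q (w * m⁻¹) = q w
      rw [map_mul, map_inv, (qAb_eq_one ε m).mpr hm.2, inv_one, mul_one]
  let eI : θ₁.ker ≃* iAb ε := MulEquiv.ofBijective toI ⟨htoIinj, htoIsurj⟩
  -- the hom on `T₁`
  have hθ₂k : ∀ t ∈ θ₁.ker, θ₂ t ∈ σ₂.ker := by
    intro t ht
    rw [MonoidHom.mem_ker]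
    have : σ₂ (θ₂ t) = covMap ε t := DFunLike.congr_fun hθ₂ t
    rw [this]
    exact hTle ht
  letI : CommGroup θ₁.ker :=
    { (inferInstance : Group θ₁.ker) with
      mul_comm := fun a b =>
        Subtype.ext ((Subgroup.mem_center_iff.mp (covKer_le_center ε (hTle b.2))) a.1) }
  let g₀ : θ₁.ker →* σ₂.ker :=
    { toFun := fun t => (⟨θ₂ t, hθ₂k t t.2⟩ : σ₂.ker)⁻¹
      map_one' := by
        apply Subtype.ext
        simp
      map_mul' := by
        intro a b
        rw [← mul_inv]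
        congr 1
        apply Subtype.ext
        simp }
  have hidx : (iAb ε).index = Nat.card (Abelianization Q) := index_iAb ε hε
  have hcop' : Nat.Coprime (iAb ε).index (Nat.card σ₂.ker) := by
    rw [hidx, hcard]
    exact hcop
  obtain ⟨h, hh⟩ := exists_ext_coprime (iAb ε) hcop' (g₀.comp eI.symm.toMonoidHom)
  -- the map `φ`
  have hhc : ∀ w g, ((h (q w) : σ₂.ker) : Γ₂) * g = g * (h (q w) : σ₂.ker) := by
    intro w g
    exact (Subgroup.mem_center_iff.mp (h₂.2.1 (h (q w)).2) g).symm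
  let φ : Cov ε →* Γ₂ :=
    { toFun := fun w => θ₂ w * (h (q w) : σ₂.ker)
      map_one' := by simp
      map_mul' := by
        intro a b
        rw [map_mul, map_mul, map_mul]
        push_cast
        simp only [mul_assoc]
        rw [← mul_assoc (θ₂ b), ← hhc a (θ₂ b)]
        simp only [mul_assoc] }
  have hφ : σ₂.comp φ = covMap ε := by
    refine MonoidHom.ext fun w => ?_
    show σ₂ (θ₂ w * (h (q w) : σ₂.ker)) = covMap ε w
    rw [map_mul, show σ₂ ((h (q w) : σ₂.ker) : Γ₂) = 1 from (h (q w)).2, mul_one]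
    exact DFunLike.congr_fun hθ₂ w
  have hφT : θ₁.ker ≤ φ.ker := by
    intro t ht
    rw [MonoidHom.mem_ker]
    show θ₂ t * (h (q t) : σ₂.ker) = 1
    have h1 : h (q t) = g₀ ⟨t, ht⟩ := by
      have h2 := hh (toI ⟨t, ht⟩)
      have h3 : eI.symm (toI ⟨t, ht⟩) = ⟨t, ht⟩ := eI.symm_apply_apply _
      have h4 : (g₀.comp eI.symm.toMonoidHom) (toI ⟨t, ht⟩) = g₀ ⟨t, ht⟩ := by
        simp only [MonoidHom.comp_apply, MulEquiv.coe_toMonoidHom]
        rw [h3]
      rw [h4] at h2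
      exact h2
    rw [h1]
    show θ₂ t * (θ₂ t)⁻¹ = 1
    rw [mul_inv_cancel]
  let e₀ : Γ₁ →* Γ₂ := θ₁.liftOfSurjective hθ₁s ⟨φ, hφT⟩
  have he₀ : ∀ w, e₀ (θ₁ w) = φ w := fun w => MonoidHom.liftOfRightInverse_comp_apply _ _ _ _ _
  have hφs : Function.Surjective φ := stem_lift_surjective ε hε σ₂ h₂ φ hφ
  have he₀s : Function.Surjective e₀ := by
    intro y
    obtain ⟨w, rfl⟩ := hφs y
    exact ⟨θ₁ w, he₀ w⟩
  have hcardΓ : Nat.card Γ₁ = Nat.card Γ₂ := by
    rw [card_eq_of_stem σ₁ h₁.1, card_eq_of_stem σ₂ h₂.1, hcard, hcard']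
  have hb : Function.Bijective e₀ := (Nat.bijective_iff_surjective_and_card e₀).mpr ⟨he₀s, hcardΓ⟩
  refine ⟨MulEquiv.ofBijective e₀ hb, ?_⟩
  ext x
  obtain ⟨w, rfl⟩ := hθ₁s x
  show σ₂ (e₀ (θ₁ w)) = σ₁ (θ₁ w)
  rw [he₀]
  have h1 : σ₂ (φ w) = covMap ε w := DFunLike.congr_fun hφ w
  have h2 : σ₁ (θ₁ w) = covMap ε w := DFunLike.congr_fun hθ₁ w
  rw [h1, h2]

/-- A non-`p`-th power exists when `p` divides the order. -/
theorem exists_not_pow {M : Type*} [CommGroup M] [Finite M] (p : ℕ) [hp : Fact p.Prime]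
    (h : p ∣ Nat.card M) : ∃ m₀ : M, ∀ z : M, z ^ p ≠ m₀ := by
  by_contra hall
  push Not at hall
  have hsurj : Function.Surjective (fun z : M => z ^ p) := hall
  have hinj := Finite.injective_iff_surjective.mpr hsurj
  obtain ⟨x, hx⟩ := exists_prime_orderOf_dvd_card' p h
  have h1 : x ^ p = 1 := by rw [← hx]; exact pow_orderOf_eq_one x
  have h2 : x = 1 := hinj (by simp [h1])
  rw [h2, orderOf_one] at hx
  exact hp.out.one_lt.ne hx

/-- On a free abelian group, homs can avoid `p`-th powers at a non-`p`-th power. -/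
theorem exists_hom_not_pow {I M : Type*} [CommGroup I] [CommGroup M] [Module.Free ℤ (Additive I)]
    [Module.Finite ℤ (Additive I)] (p : ℕ) [hp : Fact p.Prime] (x : I) (hx : ∀ z : I, z ^ p ≠ x)
    (m₀ : M) (hm₀ : ∀ z : M, z ^ p ≠ m₀) : ∃ g : I →* M, ∀ z : M, z ^ p ≠ g x := by
  classical
  let b := Module.finBasis ℤ (Additive I)
  let c := b.repr (Additive.ofMul x)
  have hex : ∃ i, ¬ (p : ℤ) ∣ c i := by
    by_contra hall
    push Not at hall
    choose d hd using hall
    apply hx (Additive.toMul (∑ i, d i • b i))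
    show Additive.toMul (p • ∑ i, d i • b i) = x
    have h1 : p • ∑ i, d i • b i = Additive.ofMul x := by
      rw [← b.sum_repr (Additive.ofMul x), Finset.smul_sum]
      apply Finset.sum_congr rfl
      intro i _
      show p • d i • b i = (b.repr (Additive.ofMul x)) i • b i
      have : (b.repr (Additive.ofMul x)) i = c i := rfl
      rw [this, hd i, mul_smul, natCast_zsmul]
    rw [h1]
    rfl
  obtain ⟨i, hi⟩ := hex
  let g₀ : Additive I →ₗ[ℤ] Additive M :=
    b.constr ℤ (fun j => if j = i then Additive.ofMul m₀ else 0)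
  have hgx : g₀ (Additive.ofMul x) = c i • Additive.ofMul m₀ := by
    conv_lhs => rw [← b.sum_repr (Additive.ofMul x)]
    rw [map_sum]
    rw [Finset.sum_eq_single i]
    · rw [map_zsmul, Module.Basis.constr_basis, if_pos rfl]
    · intro j _ hj
      rw [map_zsmul, Module.Basis.constr_basis, if_neg hj, smul_zero]
    · intro h
      exact absurd (Finset.mem_univ i) h
  let g : I →* M :=
    { toFun := fun z => (g₀ (Additive.ofMul z)).toMul
      map_one' := by
        show (g₀ 0).toMul = 1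
        rw [map_zero]
        rfl
      map_mul' := by
        intro u v
        show (g₀ (Additive.ofMul u + Additive.ofMul v)).toMul = _
        rw [map_add]
        rfl }
  have hgx' : g x = m₀ ^ (c i) := by
    show (g₀ (Additive.ofMul x)).toMul = _
    rw [hgx]
    rfl
  refine ⟨g, ?_⟩
  intro z hz
  rw [hgx'] at hz
  have hirr : Irreducible (p : ℤ) := (Nat.prime_iff_prime_int.mp hp.out).irreducible
  obtain ⟨u, v, huv⟩ := hirr.coprime_iff_not_dvd.mpr hi
  apply hm₀ (m₀ ^ u * z ^ v)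
  have h1 : m₀ ^ (u * p + v * c i) = m₀ := by
    rw [huv, zpow_one]
  calc (m₀ ^ u * z ^ v) ^ p = (m₀ ^ u) ^ p * (z ^ v) ^ p := mul_pow _ _ _
    _ = (m₀ ^ u) ^ (p : ℤ) * (z ^ p) ^ v := by
        have h2 : (z ^ v) ^ p = (z ^ p) ^ v := by
          rw [← zpow_natCast (z ^ v) p, ← zpow_natCast z p, ← zpow_mul, ← zpow_mul, mul_comm]
        rw [h2, zpow_natCast]
    _ = (m₀ ^ u) ^ (p : ℤ) * (m₀ ^ (c i)) ^ v := by rw [hz]
    _ = m₀ ^ (u * p + v * c i) := by
        rw [zpow_add, zpow_mul, mul_comm v, zpow_mul]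
    _ = m₀ := h1

/-- The image of the kernel in the abelianization is free. -/
theorem iAb_free (hε : Function.Surjective ε) :
    Module.Free ℤ (Additive (iAb ε)) ∧ Module.Finite ℤ (Additive (iAb ε)) := by
  have hq := qAb_surjective ε
  have hdvd : (iAb ε).index ≠ 0 := by
    intro h0
    have h1 := Subgroup.index_map_dvd (covKer ε) hq
    rw [show ((covKer ε).map (qAb ε)).index = 0 from h0] at h1
    exact Subgroup.FiniteIndex.index_ne_zero (zero_dvd_iff.mp h1)
  haveI hfi : (iAb ε).FiniteIndex := ⟨hdvd⟩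
  haveI : Group.FG (Cov ε) := QuotientGroup.fg _
  haveI : Group.FG (Abelianization (Cov ε)) := QuotientGroup.fg _
  haveI : Group.FG (iAb ε) := Subgroup.fg_of_index_ne_zero _
  haveI h3 : Module.Finite ℤ (Additive (iAb ε)) := by
    rw [Module.Finite.iff_addGroup_fg]
    exact GroupFG.iff_add_fg.mp inferInstance
  haveI : IsAddTorsionFree (Additive (iAb ε)) := by
    constructor
    intro n hn a b hab
    have hab' : n • (a - b) = 0 := by
      rw [smul_sub, sub_eq_zero]
      exact hab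
    have h0 : ∀ x : Additive (iAb ε), n • x = 0 → x = 0 := by
      intro x hx
      obtain ⟨w, hw⟩ := hq (x.toMul : iAb ε).1
      have h1 : (x.toMul : iAb ε) ^ n = 1 := hx
      have h2 : qAb ε (w ^ n) = 1 := by
        rw [map_pow, hw]
        exact congrArg Subtype.val h1
      have h3 := mem_commutator_of_pow_mem_cov ε w n hn ((qAb_eq_one ε _).mp h2)
      have h4 : qAb ε w = 1 := (qAb_eq_one ε w).mpr h3
      have h5 : (x.toMul : iAb ε) = 1 := by
        apply Subtype.ext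
        rw [← hw, h4]
        rfl
      exact h5
    exact sub_eq_zero.mp (h0 _ hab')
  exact ⟨Module.free_of_finite_type_torsion_free', h3⟩

/-- The range of a section is a complement of the multiplier. -/
theorem complement_of_section (s : iAb ε →* Cov ε) (hs : ∀ x, s x ∈ covKer ε ∧ qAb ε (s x) = x) :
    s.range ≤ covKer ε ∧ s.range ⊓ covM ε = ⊥ ∧ s.range ⊔ covM ε = covKer ε := by
  have hle : s.range ≤ covKer ε := by
    rintro _ ⟨x, rfl⟩
    exact (hs x).1
  refine ⟨hle, ?_, ?_⟩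
  · rw [eq_bot_iff]
    rintro _ ⟨⟨x, rfl⟩, hm⟩
    have h1 : qAb ε (s x) = 1 := (qAb_eq_one ε _).mpr hm.2
    rw [(hs x).2] at h1
    have h2 : x = 1 := Subtype.ext h1
    rw [h2, map_one]
    exact Subgroup.one_mem _
  · apply le_antisymm
    · apply sup_le hle inf_le_left
    · intro l hl
      let y : iAb ε := ⟨qAb ε l, Subgroup.mem_map_of_mem _ hl⟩
      have hy : (s y)⁻¹ * l ∈ covM ε := by
        constructor
        · exact (covKer ε).mul_mem ((covKer ε).inv_mem (hs y).1) hl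
        · show (s y)⁻¹ * l ∈ commutator (Cov ε)
          rw [← qAb_eq_one, map_mul, map_inv, (hs y).2]
          simp [y]
      have h1 : l = s y * ((s y)⁻¹ * l) := by group
      rw [h1]
      exact Subgroup.mul_mem_sup ⟨y, rfl⟩ hy

/-- S3974, the other direction. -/
theorem coprime_of_all_iso (hε : Function.Surjective ε) {A : Type v} [CommGroup A]
    (hA : Cfsg.HasSchurMultiplier Q A)
    (hall : ∀ (Γ₁ Γ₂ : Type u) [Group Γ₁] [Finite Γ₁] [Group Γ₂] [Finite Γ₂] (σ₁ : Γ₁ →* Q) (σ₂ : Γ₂ →* Q),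
      Cfsg.IsStemExtension σ₁ → Cfsg.IsStemExtension σ₂ → Nonempty (σ₁.ker ≃* A) →
        Nonempty (σ₂.ker ≃* A) → ∃ e : Γ₁ ≃* Γ₂, σ₂.comp e.toMonoidHom = σ₁) :
    Nat.Coprime (Nat.card (Abelianization Q)) (Nat.card A) := by
  classical
  by_contra hnc
  obtain ⟨p, hp, hp1, hp2⟩ := Nat.Prime.not_coprime_iff_dvd.mp hnc
  haveI : Fact p.Prime := ⟨hp⟩
  obtain ⟨eA⟩ := nonempty_equiv_covM ε hε hA
  have hpM : p ∣ Nat.card (covM ε) := by
    rwa [← Nat.card_congr eA.toEquiv]
  obtain ⟨m₀, hm₀⟩ := exists_not_pow (M := covM ε) p hpM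
  have hidx : (iAb ε).index = Nat.card (Abelianization Q) := index_iAb ε hε
  have hpidx : p ∣ Nat.card (Abelianization (Cov ε) ⧸ iAb ε) := by
    rw [← Subgroup.index_eq_card, hidx]
    exact hp1
  haveI : Finite (Abelianization Q) := inferInstanceAs (Finite (Q ⧸ commutator Q))
  haveI hfi : (iAb ε).FiniteIndex := ⟨by rw [hidx]; exact Nat.card_pos.ne'⟩
  obtain ⟨yb, hyb⟩ := exists_prime_orderOf_dvd_card' p hpidx
  obtain ⟨y, rfl⟩ := QuotientGroup.mk_surjective yb
  have hynot : y ∉ iAb ε := by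
    intro h
    have h1 : (y : Abelianization (Cov ε) ⧸ iAb ε) = 1 := (QuotientGroup.eq_one_iff y).mpr h
    rw [h1, orderOf_one] at hyb
    exact hp.one_lt.ne hyb
  have hyp : y ^ p ∈ iAb ε := by
    rw [← QuotientGroup.eq_one_iff, QuotientGroup.mk_pow, ← hyb]
    exact pow_orderOf_eq_one _
  let x₀ : iAb ε := ⟨y ^ p, hyp⟩
  have hx₀ : ∀ z : iAb ε, z ^ p ≠ x₀ := by
    intro z hz
    apply hynot
    have h1 : (z : Abelianization (Cov ε)) ^ p = y ^ p := congrArg Subtype.val hz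
    have h2 : (y * (z : Abelianization (Cov ε))⁻¹) ^ p = 1 := by
      rw [mul_pow, inv_pow, h1, mul_inv_cancel]
    obtain ⟨w, hw⟩ := qAb_surjective ε (y * (z : Abelianization (Cov ε))⁻¹)
    have h3 : qAb ε (w ^ p) = 1 := by
      rw [map_pow, hw, h2]
    have h4 := mem_commutator_of_pow_mem_cov ε w p hp.ne_zero ((qAb_eq_one ε _).mp h3)
    have h5 : y * (z : Abelianization (Cov ε))⁻¹ = 1 := by
      rw [← hw]
      exact (qAb_eq_one ε w).mpr h4
    have h6 : y = z := mul_inv_eq_one.mp h5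
    rw [h6]
    exact z.2
  obtain ⟨hfree, hfin⟩ := iAb_free ε hε
  obtain ⟨g, hg⟩ := exists_hom_not_pow (I := iAb ε) (M := covM ε) p x₀ hx₀ m₀ hm₀
  obtain ⟨s, hs⟩ := exists_section (qAb ε) (covKer ε) (covKer_le_center ε)
  -- the second section
  have hgc : ∀ x g', ((g x : covM ε) : Cov ε) * g' = g' * (g x : covM ε) := fun x g' =>
    (Subgroup.mem_center_iff.mp (covM_le_center ε (g x).2) g').symm
  let s' : iAb ε →* Cov ε :=
    { toFun := fun x => s x * (g x : covM ε)
      map_one' := by simp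
      map_mul' := by
        intro a b
        rw [map_mul, map_mul]
        push_cast
        simp only [mul_assoc]
        rw [← mul_assoc (s b), ← hgc a (s b)]
        simp only [mul_assoc] }
  have hs' : ∀ x, s' x ∈ covKer ε ∧ qAb ε (s' x) = x := by
    intro x
    constructor
    · exact (covKer ε).mul_mem (hs x).1 (g x).2.1
    · show qAb ε (s x * (g x : covM ε)) = x
      rw [map_mul, (hs x).2, (qAb_eq_one ε _).mpr (g x).2.2, mul_one]
  obtain ⟨h1a, h1b, h1c⟩ := complement_of_section ε s hs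
  obtain ⟨h2a, h2b, h2c⟩ := complement_of_section ε s' hs'
  obtain ⟨Γ₁, i₁, i₁', σ₁, p₁, hσ₁, hp₁, hp₁k, hσp₁, ⟨e₁⟩⟩ :=
    exists_stem_of_complement ε hε s.range h1a h1c h1b
  obtain ⟨Γ₂, i₂, i₂', σ₂, p₂, hσ₂, hp₂, hp₂k, hσp₂, ⟨e₂⟩⟩ :=
    exists_stem_of_complement ε hε s'.range h2a h2c h2b
  obtain ⟨e, he⟩ := hall Γ₁ Γ₂ σ₁ σ₂ hσ₁ hσ₂ ⟨e₁.trans eA.symm⟩ ⟨e₂.trans eA.symm⟩
  letI : CommGroup σ₂.ker :=
    { (inferInstance : Group σ₂.ker) with
      mul_comm := fun a b => Subtype.ext ((Subgroup.mem_center_iff.mp (hσ₂.2.1 b.2)) a.1) }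
  -- the map `j : covM → ker σ₂`
  let j : covM ε →* σ₂.ker :=
    (p₂.comp (covM ε).subtype).codRestrict σ₂.ker (fun x => (image_covM_mem ε σ₂ p₂ hσp₂ x.2).1)
  have hjb : Function.Bijective j := by
    constructor
    · rw [injective_iff_map_eq_one]
      rintro ⟨m, hm⟩ h
      have h3 : p₂ m = 1 := congrArg Subtype.val h
      have h4 : m ∈ p₂.ker := h3
      rw [hp₂k] at h4
      have h5 : m ∈ s'.range ⊓ covM ε := ⟨h4, hm⟩
      rw [h2b] at h5
      exact Subtype.ext h5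
    · rintro ⟨y', hy'⟩
      obtain ⟨w, hw, hwy⟩ := mem_image_covM ε σ₂ hσ₂.2.1 p₂ hσp₂ hε hσ₂.1 hy' (hσ₂.2.2 hy')
      exact ⟨⟨w, hw⟩, Subtype.ext hwy⟩
  let J : covM ε ≃* σ₂.ker := MulEquiv.ofBijective j hjb
  -- the difference hom
  let φ : Cov ε →* Γ₂ := e.toMonoidHom.comp p₁
  have hφ : ∀ w, σ₂ (φ w) = covMap ε w := by
    intro w
    have h3 : σ₂ (e (p₁ w)) = σ₁ (p₁ w) := DFunLike.congr_fun he (p₁ w)
    have h4 : σ₁ (p₁ w) = covMap ε w := DFunLike.congr_fun hσp₁ w
    exact h3.trans h4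
  have hcmem : ∀ w, φ w * (p₂ w)⁻¹ ∈ σ₂.ker := by
    intro w
    rw [MonoidHom.mem_ker, map_mul, map_inv, hφ]
    have h4 : σ₂ (p₂ w) = covMap ε w := DFunLike.congr_fun hσp₂ w
    rw [h4, mul_inv_cancel]
  let c : Cov ε →* σ₂.ker :=
    { toFun := fun w => ⟨φ w * (p₂ w)⁻¹, hcmem w⟩
      map_one' := by
        apply Subtype.ext
        simp
      map_mul' := by
        intro a b
        apply Subtype.ext
        show φ (a * b) * (p₂ (a * b))⁻¹ = (φ a * (p₂ a)⁻¹) * (φ b * (p₂ b)⁻¹)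
        rw [map_mul, map_mul, mul_inv_rev]
        have h3 := Subgroup.mem_center_iff.mp (hσ₂.2.1 (hcmem b))
        calc φ a * φ b * ((p₂ b)⁻¹ * (p₂ a)⁻¹) = φ a * (φ b * (p₂ b)⁻¹) * (p₂ a)⁻¹ := by
              simp only [mul_assoc]
          _ = φ a * ((φ b * (p₂ b)⁻¹) * (p₂ a)⁻¹) := by simp only [mul_assoc]
          _ = φ a * ((p₂ a)⁻¹ * (φ b * (p₂ b)⁻¹)) := by rw [h3 (p₂ a)⁻¹]
          _ = φ a * (p₂ a)⁻¹ * (φ b * (p₂ b)⁻¹) := by simp only [mul_assoc] }
  let c' : Cov ε →* covM ε := J.symm.toMonoidHom.comp c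
  have hc's : ∀ x, c' (s x) = g x := by
    intro x
    have hφs : φ (s x) = 1 := by
      have h3 : s x ∈ p₁.ker := by
        rw [hp₁k]
        exact ⟨x, rfl⟩
      show e (p₁ (s x)) = 1
      rw [MonoidHom.mem_ker.mp h3, map_one]
    have hp₂s : p₂ (s x) * p₂ (g x : covM ε) = 1 := by
      have h3 : s' x ∈ p₂.ker := by
        rw [hp₂k]
        exact ⟨x, rfl⟩
      rw [← map_mul]
      exact h3
    show J.symm (c (s x)) = g x
    rw [MulEquiv.symm_apply_eq]
    apply Subtype.ext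
    show φ (s x) * (p₂ (s x))⁻¹ = p₂ (g x : covM ε)
    rw [hφs, one_mul]
    exact inv_eq_of_mul_eq_one_right hp₂s
  obtain ⟨w, hw⟩ := qAb_surjective ε y
  have hcomm : w ^ p * (s x₀)⁻¹ ∈ commutator (Cov ε) := by
    rw [← qAb_eq_one, map_mul, map_inv, map_pow, hw, (hs x₀).2]
    show y ^ p * (y ^ p)⁻¹ = 1
    rw [mul_inv_cancel]
  have hker : c' (w ^ p * (s x₀)⁻¹) = 1 := Abelianization.commutator_subset_ker c' hcomm
  rw [map_mul, map_inv, map_pow, hc's, mul_inv_eq_one] at hker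
  exact hg _ hker

end cover_hom

end Cfsg.Agent.H19.Hopf
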