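import Cfsg.Agent.Lib.H19.Hopf3

/-! Corestriction and transfer on the Hopf multiplier (helper19). -/

set_option autoImplicit false
set_option linter.style.haveILetI false

namespace Cfsg.Agent.H19.Hopf

open scoped commutatorElement

universe u v w

section comm

variable {F : Type u} [Group F] {Q : Type v} [Group Q] (ε : F →* Q)

noncomputable instance covKer_commGroup : CommGroup (covKer ε) :=
  { (inferInstance : Group (covKer ε)) with
    mul_comm := fun a b => Subtype.ext ((Subgroup.mem_center_iff.mp (covKer_le_center ε b.2)) a.1) }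

noncomputable instance covM_commGroup : CommGroup (covM ε) :=
  { (inferInstance : Group (covM ε)) with
    mul_comm := fun a b => Subtype.ext ((Subgroup.mem_center_iff.mp (covM_le_center ε b.2)) a.1) }

end comm

section tr

variable {F : Type u} [Group F] {G : Type v} [Group G] (ε : F →* G) (U : Subgroup G)

/-- The preimage of `U`. -/
abbrev Fu : Subgroup F := U.comap ε

/-- The restriction of `ε`. -/
abbrev εu : Fu ε U →* U := ε.subgroupComap U

theorem εu_surjective (hε : Function.Surjective ε) : Function.Surjective (εu ε U) :=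
  ε.subgroupComap_surjective_of_surjective U hε

theorem ker_le_Fu : ε.ker ≤ Fu ε U := by
  intro r hr
  show ε r ∈ U
  rw [MonoidHom.mem_ker.mp hr]
  exact U.one_mem

/-- The class of the conjugate `x⁻¹ r x`. -/
def dConj (x : F) (r : ε.ker) : covKer (εu ε U) :=
  ⟨((⟨x⁻¹ * r * x, ker_le_Fu ε U (by
      rw [MonoidHom.mem_ker, map_mul, map_mul, map_inv, MonoidHom.mem_ker.mp r.2, mul_one, inv_mul_cancel])⟩ :
      Fu ε U) : Cov (εu ε U)), by
    show εu ε U _ = 1
    apply Subtype.ext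
    show ε (x⁻¹ * r * x) = 1
    rw [map_mul, map_mul, map_inv, MonoidHom.mem_ker.mp r.2, mul_one, inv_mul_cancel]⟩

theorem dConj_mul (x : F) (r r' : ε.ker) : dConj ε U x (r * r') = dConj ε U x r * dConj ε U x r' := by
  apply Subtype.ext
  show ((⟨x⁻¹ * (r * r') * x, _⟩ : Fu ε U) : Cov (εu ε U)) =
    ((⟨x⁻¹ * r * x, _⟩ : Fu ε U) : Cov (εu ε U)) * ((⟨x⁻¹ * r' * x, _⟩ : Fu ε U) : Cov (εu ε U))
  rw [← QuotientGroup.mk_mul]
  congr 1
  apply Subtype.ext
  show x⁻¹ * (r * r') * x = x⁻¹ * r * x * (x⁻¹ * r' * x)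
  group

/-- Only the coset matters. -/
theorem dConj_of_mem (x : F) (u : F) (hu : u ∈ Fu ε U) (r : ε.ker) :
    dConj ε U (x * u) r = dConj ε U x r := by
  apply Subtype.ext
  have hc := Subgroup.mem_center_iff.mp (covKer_le_center (εu ε U) (dConj ε U x r).2)
    ((⟨u, hu⟩ : Fu ε U) : Cov (εu ε U))
  have h1 : (dConj ε U (x * u) r : Cov (εu ε U)) =
      ((⟨u, hu⟩ : Fu ε U) : Cov (εu ε U))⁻¹ * (dConj ε U x r : Cov (εu ε U)) * ((⟨u, hu⟩ : Fu ε U) : Cov (εu ε U)) := by
    show ((⟨(x * u)⁻¹ * r * (x * u), _⟩ : Fu ε U) : Cov (εu ε U)) =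
      ((⟨u, hu⟩ : Fu ε U) : Cov (εu ε U))⁻¹ * ((⟨x⁻¹ * r * x, _⟩ : Fu ε U) : Cov (εu ε U)) * ((⟨u, hu⟩ : Fu ε U) : Cov (εu ε U))
    rw [← QuotientGroup.mk_inv, ← QuotientGroup.mk_mul, ← QuotientGroup.mk_mul]
    congr 1
    apply Subtype.ext
    show (x * u)⁻¹ * r * (x * u) = u⁻¹ * (x⁻¹ * r * x) * u
    group
  rw [h1, mul_assoc, ← hc, inv_mul_cancel_left]

/-- Conjugating `r` shifts `x`. -/
theorem dConj_conj (x g : F) (r : ε.ker) :
    dConj ε U x ⟨g * r * g⁻¹, by
      rw [MonoidHom.mem_ker, map_mul, map_mul, map_inv, MonoidHom.mem_ker.mp r.2, mul_one, mul_inv_cancel]⟩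
      = dConj ε U (g⁻¹ * x) r := by
  apply Subtype.ext
  show ((⟨x⁻¹ * (g * r * g⁻¹) * x, _⟩ : Fu ε U) : Cov (εu ε U)) = ((⟨(g⁻¹ * x)⁻¹ * r * (g⁻¹ * x), _⟩ : Fu ε U) : Cov (εu ε U))
  congr 1
  apply Subtype.ext
  show x⁻¹ * (g * r * g⁻¹) * x = (g⁻¹ * x)⁻¹ * r * (g⁻¹ * x)
  group

variable [Finite G]

instance Fu_finiteIndex : (Fu ε U).FiniteIndex := by
  constructor
  intro h
  have h1 : (Fu ε U).index = (U.subgroupOf ε.range).index := Subgroup.index_comap U ε
  rw [h] at h1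
  exact Subgroup.FiniteIndex.index_ne_zero h1.symm

/-- A representative of a coset. -/
noncomputable def repF (q : F ⧸ Fu ε U) : F :=
  (((default : (Fu ε U).LeftTransversal).2.leftQuotientEquiv q : _) : F)

theorem repF_mk (q : F ⧸ Fu ε U) : ((repF ε U q : F) : F ⧸ Fu ε U) = q :=
  Subgroup.IsComplement.quotientGroupMk_leftQuotientEquiv _ q

/-- The transfer on the relation subgroup. -/
noncomputable def W0 : ε.ker →* covKer (εu ε U) :=
  letI := Fintype.ofFinite (F ⧸ Fu ε U)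
  { toFun := fun r => ∏ q : F ⧸ Fu ε U, dConj ε U (repF ε U q) r
    map_one' := by
      apply Finset.prod_eq_one
      intro q _
      apply Subtype.ext
      show ((⟨(repF ε U q)⁻¹ * 1 * repF ε U q, _⟩ : Fu ε U) : Cov (εu ε U)) = 1
      have : (⟨(repF ε U q)⁻¹ * 1 * repF ε U q, by simp [Subgroup.one_mem]⟩ : Fu ε U) = 1 :=
        Subtype.ext (by simp)
      rw [this]
      rfl
    map_mul' := by
      intro r r'
      simp only [dConj_mul]
      exact Finset.prod_mul_distrib }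

theorem W0_conj (g : F) (r : ε.ker) :
    W0 ε U ⟨g * r * g⁻¹, by
      rw [MonoidHom.mem_ker, map_mul, map_mul, map_inv, MonoidHom.mem_ker.mp r.2, mul_one, mul_inv_cancel]⟩
      = W0 ε U r := by
  letI := Fintype.ofFinite (F ⧸ Fu ε U)
  show ∏ q : F ⧸ Fu ε U, _ = ∏ q : F ⧸ Fu ε U, _
  simp only [dConj_conj]
  refine Fintype.prod_equiv (MulAction.toPerm g⁻¹ : Equiv.Perm (F ⧸ Fu ε U)) _ _ ?_
  intro q
  -- `g⁻¹ * rep q` and `rep (g⁻¹ • q)` are in the same coset
  have h1 : ((g⁻¹ * repF ε U q : F) : F ⧸ Fu ε U) = ((repF ε U (g⁻¹ • q) : F) : F ⧸ Fu ε U) := by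
    rw [repF_mk]
    have : ((g⁻¹ * repF ε U q : F) : F ⧸ Fu ε U) = g⁻¹ • ((repF ε U q : F) : F ⧸ Fu ε U) := rfl
    rw [this, repF_mk]
  have h2 : (repF ε U (g⁻¹ • q))⁻¹ * (g⁻¹ * repF ε U q) ∈ Fu ε U := by
    exact QuotientGroup.eq.mp h1.symm
  have h3 := dConj_of_mem ε U (repF ε U (g⁻¹ • q)) _ h2 r
  rw [mul_inv_cancel_left] at h3
  exact h3

theorem W0_apply [inst : Fintype (F ⧸ Fu ε U)] (r : ε.ker) :
    W0 ε U r = ∏ q : F ⧸ Fu ε U, dConj ε U (repF ε U q) r := by
  have h : W0 ε U r = @Finset.prod _ _ _ (@Finset.univ _ (Fintype.ofFinite _))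
      (fun q => dConj ε U (repF ε U q) r) := rfl
  have h2 : (Fintype.ofFinite (F ⧸ Fu ε U)) = inst := Subsingleton.elim _ _
  rw [h, h2]

theorem W0_ker (x : ε.ker) (hx : x.1 ∈ relC ε) : W0 ε U x = 1 := by
  have hle : relC ε ≤ (W0 ε U).ker.map ε.ker.subtype := by
    rw [Subgroup.commutator_le]
    intro r hr g _
    let r' : ε.ker := ⟨r, hr⟩
    let y : ε.ker := ⟨g * (r'⁻¹ : ε.ker) * g⁻¹, by
      rw [MonoidHom.mem_ker, map_mul, map_mul, map_inv, MonoidHom.mem_ker.mp (r'⁻¹ : ε.ker).2, mul_one, mul_inv_cancel]⟩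
    have hy : W0 ε U y = W0 ε U r'⁻¹ := W0_conj ε U g r'⁻¹
    refine ⟨r' * y, ?_, ?_⟩
    · rw [SetLike.mem_coe, MonoidHom.mem_ker, map_mul, hy, map_inv, mul_inv_cancel]
    · show r * (g * r⁻¹ * g⁻¹) = ⁅r, g⁆
      rw [commutatorElement_def]
      group
  obtain ⟨y, hy, hyx⟩ := hle hx
  have : y = x := Subtype.ext hyx
  rw [← this]
  exact hy

/-- The map from the relation subgroup onto `covKer ε`. -/
def piK : ε.ker →* covKer ε where
  toFun := fun r => ⟨(r.1 : Cov ε), r.2⟩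
  map_one' := rfl
  map_mul' := fun _ _ => rfl

theorem piK_surjective : Function.Surjective (piK ε) := by
  rintro ⟨x, hx⟩
  obtain ⟨r, rfl⟩ := QuotientGroup.mk_surjective x
  exact ⟨⟨r, hx⟩, rfl⟩

theorem piK_ker_le : (piK ε).ker ≤ (W0 ε U).ker := by
  intro x hx
  have h1 : ((x.1 : F) : Cov ε) = 1 := congrArg Subtype.val (MonoidHom.mem_ker.mp hx)
  rw [MonoidHom.mem_ker]
  exact W0_ker ε U x ((QuotientGroup.eq_one_iff _).mp h1)

/-- The transfer `covKer ε → covKer (εu ε U)`. -/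
noncomputable def trK : covKer ε →* covKer (εu ε U) :=
  (piK ε).liftOfSurjective (piK_surjective ε) ⟨W0 ε U, piK_ker_le ε U⟩

theorem trK_piK (r : ε.ker) : trK ε U (piK ε r) = W0 ε U r :=
  MonoidHom.liftOfRightInverse_comp_apply _ _ _ _ _

/-- Corestriction on the covers. -/
def corCov : Cov (εu ε U) →* Cov ε :=
  QuotientGroup.map (relC (εu ε U)) (relC ε) (Fu ε U).subtype (by
    rw [Subgroup.commutator_le]
    intro r hr y _
    have hr' : (r : F) ∈ ε.ker := by
      have : εu ε U r = 1 := hr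
      have h2 := congrArg Subtype.val this
      exact h2
    show ((⁅r, y⁆ : Fu ε U) : F) ∈ relC ε
    exact Subgroup.commutator_mem_commutator hr' (Subgroup.mem_top _))

@[simp] theorem corCov_mk (y : Fu ε U) : corCov ε U (y : Cov (εu ε U)) = ((y : F) : Cov ε) := rfl

theorem corCov_dConj (x : F) (r : ε.ker) : corCov ε U (dConj ε U x r) = ((r : F) : Cov ε) := by
  have h1 : corCov ε U (dConj ε U x r) = (((x⁻¹ * r * x : F)) : Cov ε) := rfl
  rw [h1, QuotientGroup.mk_mul, QuotientGroup.mk_mul, QuotientGroup.mk_inv]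
  have hc := Subgroup.mem_center_iff.mp (covKer_le_center ε (piK ε r).2) (x : Cov ε)
  have hc' : (x : Cov ε) * ((r : F) : Cov ε) = ((r : F) : Cov ε) * (x : Cov ε) := hc
  rw [mul_assoc, ← hc', inv_mul_cancel_left]

/-- The corestriction on kernels. -/
def corK : covKer (εu ε U) →* covKer ε :=
  ((corCov ε U).comp (covKer (εu ε U)).subtype).codRestrict (covKer ε) (by
    rintro ⟨x, hx⟩
    obtain ⟨y, rfl⟩ := QuotientGroup.mk_surjective x
    have h1 : εu ε U y = 1 := hx
    have h2 := congrArg Subtype.val h1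
    exact h2)

theorem corK_trK (hε : Function.Surjective ε) (x : covKer ε) : corK ε U (trK ε U x) = x ^ U.index := by
  classical
  letI := Fintype.ofFinite (F ⧸ Fu ε U)
  obtain ⟨r, rfl⟩ := piK_surjective ε x
  rw [trK_piK, W0_apply, map_prod]
  have h1 : ∀ q, corK ε U (dConj ε U (repF ε U q) r) = piK ε r := by
    intro q
    apply Subtype.ext
    exact corCov_dConj ε U _ r
  simp only [h1]
  rw [Finset.prod_const, Finset.card_univ]
  congr 1
  rw [← Nat.card_eq_fintype_card]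
  exact Subgroup.index_comap_of_surjective U hε

theorem transfer_eq_prod [inst : Fintype (F ⧸ Fu ε U)] (ϕ : Fu ε U →* Abelianization (Fu ε U)) (r : ε.ker) :
    ϕ.transfer (r : F) = ∏ q : F ⧸ Fu ε U, ϕ ⟨(repF ε U q)⁻¹ * r * repF ε U q, ker_le_Fu ε U (by
      rw [MonoidHom.mem_ker, map_mul, map_mul, map_inv, MonoidHom.mem_ker.mp r.2, mul_one, inv_mul_cancel])⟩ := by
  rw [MonoidHom.transfer_def ϕ default (r : F)]
  unfold Subgroup.leftTransversals.diff
  simp only
  have h2 : (Subgroup.fintypeQuotientOfFiniteIndex (H := Fu ε U)) = inst := Subsingleton.elim _ _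
  rw [h2]
  apply Finset.prod_congr rfl
  intro q _
  congr 1
  apply Subtype.ext
  show ((default : (Fu ε U).LeftTransversal).2.leftQuotientEquiv q : F)⁻¹ *
      (((r : F) • (default : (Fu ε U).LeftTransversal)).2.leftQuotientEquiv q : F) =
    (repF ε U q)⁻¹ * r * repF ε U q
  rw [Subgroup.smul_apply_eq_smul_apply_inv_smul]
  have h3 : ((r : F)⁻¹ • q) = q := by
    obtain ⟨x, rfl⟩ := QuotientGroup.mk_surjective q
    show (((r : F)⁻¹ * x : F) : F ⧸ Fu ε U) = x
    rw [QuotientGroup.eq]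
    apply ker_le_Fu ε U
    rw [MonoidHom.mem_ker]
    have hε1 := MonoidHom.mem_ker.mp r.2
    simp [hε1]
  rw [h3, smul_eq_mul]
  show (repF ε U q)⁻¹ * (r * repF ε U q) = _
  group

theorem W0_mem_commutator (r : ε.ker) (hr : (r : F) ∈ commutator F) :
    (W0 ε U r : Cov (εu ε U)) ∈ commutator (Cov (εu ε U)) := by
  classical
  letI := Fintype.ofFinite (F ⧸ Fu ε U)
  let ϕ : Fu ε U →* Abelianization (Fu ε U) := Abelianization.of
  have hT : ϕ.transfer (r : F) = 1 := Abelianization.commutator_subset_ker ϕ.transfer hr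
  rw [transfer_eq_prod] at hT
  let Ψ : Abelianization (Fu ε U) →* Abelianization (Cov (εu ε U)) :=
    Abelianization.map (QuotientGroup.mk' (relC (εu ε U)))
  let ρ : Cov (εu ε U) →* Abelianization (Cov (εu ε U)) := Abelianization.of
  let ρ' : covKer (εu ε U) →* Abelianization (Cov (εu ε U)) := ρ.comp (covKer (εu ε U)).subtype
  have h1 : ρ' (W0 ε U r) = 1 := by
    rw [W0_apply, map_prod, ← map_one Ψ, ← hT, map_prod]
    rfl
  rw [← Abelianization.ker_of]
  exact h1

/-- The transfer on multipliers: `κ (tr x) = x ^ index`. -/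
theorem exists_cor_tr (hε : Function.Surjective ε) :
    ∃ (κ : covM (εu ε U) →* covM ε) (tr : covM ε →* covM (εu ε U)), ∀ x, κ (tr x) = x ^ U.index := by
  have hle1 : covM ε ≤ covKer ε := inf_le_left
  have hle2 : covM (εu ε U) ≤ covKer (εu ε U) := inf_le_left
  let tr : covM ε →* covM (εu ε U) :=
    (((covKer (εu ε U)).subtype.comp (trK ε U)).comp (Subgroup.inclusion hle1)).codRestrict
      (covM (εu ε U)) (by
      intro x
      obtain ⟨x, hx⟩ := x
      have hx1 : x ∈ covKer ε := hx.1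
      obtain ⟨r, hr⟩ := piK_surjective ε ⟨x, hx1⟩
      have hr' : (r : Cov ε) = x := congrArg Subtype.val hr
      have hx2 : (r.1 : F) ∈ commutator F := by
        rw [← mk_mem_commutator_iff ε, hr']
        exact hx.2
      show (trK ε U ⟨x, hx1⟩ : Cov (εu ε U)) ∈ covM (εu ε U)
      rw [← hr, trK_piK]
      exact ⟨(W0 ε U r).2, W0_mem_commutator ε U r hx2⟩)
  let κ : covM (εu ε U) →* covM ε :=
    ((corCov ε U).comp (covM (εu ε U)).subtype).codRestrict (covM ε) (by
      rintro ⟨x, hx⟩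
      refine ⟨(corK ε U ⟨x, hx.1⟩).2, ?_⟩
      have h1 := Subgroup.mem_map_of_mem (corCov ε U) hx.2
      rw [commutator_def, Subgroup.map_commutator] at h1
      rw [commutator_def]
      exact Subgroup.commutator_mono le_top le_top h1)
  refine ⟨κ, tr, ?_⟩
  rintro ⟨x, hx⟩
  apply Subtype.ext
  have h := congrArg Subtype.val (corK_trK ε U hε ⟨x, hx.1⟩)
  show ((corK ε U (trK ε U ⟨x, hx.1⟩) : covKer ε) : Cov ε) = x ^ U.index
  rw [h]
  rfl

end tr

end Cfsg.Agent.H19.Hopf
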