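import Cfsg.Agent.Lib.H19.HopfTr

/-! Sylow and index statements for multipliers (helper19). -/

set_option autoImplicit false
set_option linter.style.haveILetI false

namespace Cfsg.Agent.H19.Hopf

open scoped commutatorElement

universe u v w

/-- A quotient of a finite abelian group embeds in it. -/
theorem quot_embed {B D : Type*} [CommGroup B] [Finite B] [CommGroup D] (f : B →* D)
    (hf : Function.Surjective f) : ∃ g : D →* B, Function.Injective g := by
  haveI : Finite D := Finite.of_surjective f hf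
  haveI : NeZero (Monoid.exponent B) := ⟨Monoid.exponent_ne_zero_of_finite⟩
  haveI : NeZero (Monoid.exponent D) := ⟨Monoid.exponent_ne_zero_of_finite⟩
  obtain ⟨e₁⟩ := CommGroup.monoidHom_mulEquiv_of_hasEnoughRootsOfUnity B ℂ
  obtain ⟨e₂⟩ := CommGroup.monoidHom_mulEquiv_of_hasEnoughRootsOfUnity D ℂ
  refine ⟨{ toFun := fun d => e₁ ((e₂.symm d).comp f)
            map_one' := by
              have : ((e₂.symm 1).comp f) = 1 := by
                rw [map_one]
                rfl
              rw [this, map_one]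
            map_mul' := by
              intro a b
              rw [← map_mul]
              congr 1
              rw [map_mul]
              rfl }, ?_⟩
  intro a b hab
  have h1 := e₁.injective hab
  have h2 := (MonoidHom.cancel_right hf).mp h1
  exact e₂.symm.injective h2

/-- The abstract direct factor argument. -/
theorem direct_factor {A B : Type*} [CommGroup A] [CommGroup B] [Finite A] (p : ℕ) [hp : Fact p.Prime]
    (m : ℕ) (hm : ¬ p ∣ m) (κ : B →* A) (tr : A →* B) (h : ∀ a, κ (tr a) = a ^ m) :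
    ∃ C D : Subgroup B, C ⊓ D = ⊥ ∧ C ⊔ D = ⊤ ∧ Nonempty (CommGroup.primaryComponent A p ≃* C) := by
  classical
  set Ap := CommGroup.primaryComponent A p with hAp
  have hn : Nat.card A ≠ 0 := Nat.card_pos.ne'
  obtain ⟨a, n', hn', hdec⟩ := Nat.exists_eq_pow_mul_and_not_dvd hn p hp.out.ne_one
  have hcop : Nat.Coprime (m * n') (p ^ a) := by
    apply Nat.Coprime.pow_right
    apply Nat.Coprime.symm
    rw [Nat.Prime.coprime_iff_not_dvd hp.out]
    intro h1
    rcases (Nat.Prime.dvd_mul hp.out).mp h1 with h2 | h2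
    · exact hm h2
    · exact hn' h2
  let φ := Nat.totient (p ^ a)
  have hφ : 0 < φ := Nat.totient_pos.mpr (pow_pos hp.out.pos a)
  have hmod : (m * n') ^ φ ≡ 1 [MOD p ^ a] := Nat.ModEq.pow_totient hcop
  let u := (m * n') ^ (φ - 1)
  let t := n' * u
  have hmt : m * t = (m * n') ^ φ := by
    have : (m * n') ^ φ = (m * n') ^ (φ - 1) * (m * n') := by
      rw [← pow_succ]
      congr 1
      omega
    rw [this]
    show m * (n' * (m * n') ^ (φ - 1)) = _
    ring
  have hAp_mem : ∀ x : A, x ^ p ^ a = 1 → x ∈ Ap := by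
    intro x hx
    exact ⟨a, hx⟩
  have hAp_pow : ∀ x ∈ Ap, x ^ p ^ a = 1 := by
    intro x hx
    obtain ⟨k, hk⟩ := CommGroup.mem_primaryComponent_iff_orderOf.mp hx
    have h1 : orderOf x ∣ p ^ a * n' := by
      rw [← hdec]
      exact orderOf_dvd_natCard x
    have h2 : orderOf x ∣ p ^ a := by
      rw [hk] at h1 ⊢
      exact (Nat.Coprime.dvd_of_dvd_mul_right
        (Nat.Coprime.pow_left k ((Nat.Prime.coprime_iff_not_dvd hp.out).mpr hn')) h1)
    exact orderOf_dvd_iff_pow_eq_one.mp h2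
  have hxt : ∀ x : A, x ^ t ∈ Ap := by
    intro x
    apply hAp_mem
    have : (x ^ t) ^ p ^ a = (x ^ (p ^ a * n')) ^ u := by
      rw [← pow_mul, ← pow_mul]
      congr 1
      show n' * u * p ^ a = p ^ a * n' * u
      ring
    rw [this, ← hdec, pow_card_eq_one', one_pow]
  have hat : ∀ x ∈ Ap, (x ^ m) ^ t = x := by
    intro x hx
    rw [← pow_mul, hmt]
    have h1 : x ^ ((m * n') ^ φ) = x ^ ((m * n') ^ φ % p ^ a) := by
      conv_lhs => rw [← Nat.div_add_mod ((m * n') ^ φ) (p ^ a)]
      rw [pow_add, pow_mul, hAp_pow x hx, one_pow, one_mul]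
    rw [h1, hmod]
    have h2 : x ^ (1 % p ^ a) = x := by
      by_cases h3 : p ^ a = 1
      · have h4 := hAp_pow x hx
        rw [h3, pow_one] at h4
        rw [h4, one_pow]
      · have h5 : 1 < p ^ a := by
          have := pow_pos hp.out.pos a
          omega
        rw [Nat.mod_eq_of_lt h5, pow_one]
    exact h2
  let ρ : B →* A := (powMonoidHom t).comp κ
  have hρ : ∀ y, ρ y = (κ y) ^ t := fun _ => rfl
  have hρtr : ∀ x ∈ Ap, ρ (tr x) = x := by
    intro x hx
    rw [hρ, h, hat x hx]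
  let s : Ap →* B := tr.comp Ap.subtype
  have hs : Function.Injective s := by
    intro x y hxy
    apply Subtype.ext
    have h1 : ρ (tr x) = ρ (tr y) := congrArg ρ hxy
    rwa [hρtr x x.2, hρtr y y.2] at h1
  refine ⟨s.range, ρ.ker, ?_, ?_, ⟨MonoidHom.ofInjective hs⟩⟩
  · rw [eq_bot_iff]
    rintro _ ⟨⟨x, rfl⟩, h2⟩
    have h3 : ρ (tr x) = 1 := h2
    rw [hρtr x x.2] at h3
    have h4 : x = 1 := Subtype.ext h3
    rw [h4, map_one]
    exact Subgroup.one_mem _
  · rw [eq_top_iff]
    intro y _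
    have h1 : y = tr (ρ y) * ((tr (ρ y))⁻¹ * y) := by group
    rw [h1]
    apply Subgroup.mul_mem_sup
    · exact ⟨⟨ρ y, hxt _⟩, rfl⟩
    · have h2 : ρ (tr (ρ y)) = ρ y := hρtr _ (hxt _)
      rw [MonoidHom.mem_ker, map_mul, map_inv, h2, inv_mul_cancel]

/-- Common setup: maps between abstract multipliers. -/
theorem exists_cor_tr_abstract {G : Type u} [Group G] [Finite G] (U : Subgroup G) {A : Type v} {B : Type w}
    [CommGroup A] [CommGroup B] (hA : Cfsg.HasSchurMultiplier G A) (hB : Cfsg.HasSchurMultiplier U B) :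
    Finite A ∧ Finite B ∧ ∃ (κ : B →* A) (tr : A →* B), ∀ a, κ (tr a) = a ^ U.index := by
  let ε := canon G
  have hε : Function.Surjective ε := canon_surjective G
  haveI : Group.FG (Fu ε U) := Subgroup.fg_of_index_ne_zero _
  have hεu := εu_surjective ε U hε
  obtain ⟨e₁⟩ := nonempty_equiv_covM ε hε hA
  obtain ⟨e₂⟩ := nonempty_equiv_covM (εu ε U) hεu hB
  obtain ⟨κ, tr, h⟩ := exists_cor_tr ε U hε
  refine ⟨Finite.of_equiv _ e₁.symm.toEquiv, Finite.of_equiv _ e₂.symm.toEquiv, ?_⟩
  refine ⟨e₁.symm.toMonoidHom.comp (κ.comp e₂.toMonoidHom),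
    e₂.symm.toMonoidHom.comp (tr.comp e₁.toMonoidHom), ?_⟩
  intro a
  simp only [MonoidHom.comp_apply, MulEquiv.coe_toMonoidHom, MulEquiv.apply_symm_apply, h]
  rw [map_pow, MulEquiv.symm_apply_apply]

/-- S3953 -/
theorem sylow_direct_factor {G : Type u} [Group G] [Finite G] (p : ℕ) [Fact p.Prime] (P : Sylow p G)
    {A : Type v} {B : Type w} [CommGroup A] [CommGroup B] (hA : Cfsg.HasSchurMultiplier G A)
    (hB : Cfsg.HasSchurMultiplier P B) :
    ∃ C D : Subgroup B, C ⊓ D = ⊥ ∧ C ⊔ D = ⊤ ∧ Nonempty (CommGroup.primaryComponent A p ≃* C) := by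
  obtain ⟨hfA, _, κ, tr, h⟩ := exists_cor_tr_abstract (P : Subgroup G) hA hB
  exact direct_factor p _ P.not_dvd_index κ tr h

/-- S3954 -/
theorem pow_embed {G : Type u} [Group G] [Finite G] (U : Subgroup G) {A : Type v} {B : Type w}
    [CommGroup A] [CommGroup B] (hA : Cfsg.HasSchurMultiplier G A) (hB : Cfsg.HasSchurMultiplier U B) :
    ∃ C : Subgroup B, Nonempty ((powMonoidHom U.index : A →* A).range ≃* C) := by
  obtain ⟨hfA, hfB, κ, tr, h⟩ := exists_cor_tr_abstract U hA hB
  -- `κ` maps the image of `tr` onto the `m`-th powers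
  let f : tr.range →* (powMonoidHom U.index : A →* A).range :=
    (κ.comp tr.range.subtype).codRestrict _ (by
      rintro ⟨_, a, rfl⟩
      exact ⟨a, (h a).symm⟩)
  have hf : Function.Surjective f := by
    rintro ⟨_, a, rfl⟩
    exact ⟨⟨tr a, a, rfl⟩, Subtype.ext (h a)⟩
  obtain ⟨g, hg⟩ := quot_embed f hf
  let j : (powMonoidHom U.index : A →* A).range →* B := tr.range.subtype.comp g
  have hj : Function.Injective j := Subtype.val_injective.comp hg
  exact ⟨j.range, ⟨MonoidHom.ofInjective hj⟩⟩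

end Cfsg.Agent.H19.Hopf
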