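import Mathlib
import Cfsg.Prelude.Def_KGroupFacts
import Cfsg.Agent.Lib.H19.Deficiency

/-! Metacyclic groups: the upper bound for the multiplier (helper19). -/

set_option autoImplicit false

namespace Cfsg.Agent.H19.Meta

open Subgroup
open scoped commutatorElement

lemma pow_expand (d ρ : ℕ) (n : ℕ) :
    (1 + d * ρ) ^ n = 1 + (d * ρ) * ∑ i ∈ Finset.range n, (1 + d * ρ) ^ i := by
  induction n with
  | zero => simp
  | succ n ih =>
    rw [Finset.sum_range_succ, pow_succ]
    nlinarith [ih]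

/-- The arithmetic of the parameters. -/
lemma numerics (m n r : ℕ) (hm : 0 < m) (hr : 0 < r) (hrn : r ^ n ≡ 1 [MOD m]) :
    ∃ d μ ρ j : ℕ, 0 < d ∧ 0 < μ ∧ m = d * μ ∧ r = 1 + d * ρ ∧ Nat.Coprime μ ρ ∧
      (∑ i ∈ Finset.range n, r ^ i) = μ * j ∧ r ^ n = 1 + m * (ρ * j) ∧ Nat.gcd m (r - 1) = d ∧
      Nat.gcd m (∑ i ∈ Finset.range n, r ^ i) = μ * Nat.gcd d j := by
  set d := Nat.gcd m (r - 1) with hd
  have hd0 : 0 < d := Nat.gcd_pos_of_pos_left _ hm
  obtain ⟨μ, hμ⟩ : d ∣ m := Nat.gcd_dvd_left _ _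
  obtain ⟨ρ, hρ⟩ : d ∣ r - 1 := Nat.gcd_dvd_right _ _
  have hμ0 : 0 < μ := Nat.pos_of_ne_zero (by rintro rfl; simp at hμ; omega)
  have hr1 : r = 1 + d * ρ := by omega
  have hcop : Nat.Coprime μ ρ := by
    have h1 : Nat.gcd (d * μ) (d * ρ) = d * Nat.gcd μ ρ := Nat.gcd_mul_left _ _ _
    rw [← hμ, ← hρ, ← hd] at h1
    have h2 : d * 1 = d * Nat.gcd μ ρ := by rw [mul_one]; exact h1
    exact (Nat.eq_of_mul_eq_mul_left hd0 h2).symm
  set s := ∑ i ∈ Finset.range n, r ^ i with hs
  have hexp : r ^ n = 1 + (d * ρ) * s := by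
    rw [hs]
    conv_lhs => rw [hr1]
    conv_rhs => rw [hr1]
    exact pow_expand d ρ n
  have h1 : m ∣ (d * ρ) * s := by
    have h2 : 1 ≡ r ^ n [MOD m] := hrn.symm
    have h3 := (Nat.modEq_iff_dvd' (Nat.one_le_pow _ _ hr)).1 h2
    rw [hexp, Nat.add_sub_cancel_left] at h3
    exact h3
  rw [hμ] at h1
  have h2 : μ ∣ ρ * s := by
    rw [mul_assoc] at h1
    exact Nat.dvd_of_mul_dvd_mul_left hd0 h1
  have h3 : μ ∣ s := hcop.dvd_of_dvd_mul_left h2
  obtain ⟨j, hj⟩ := h3
  refine ⟨d, μ, ρ, j, hd0, hμ0, hμ, hr1, hcop, hj, ?_, rfl, ?_⟩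
  · rw [hexp, hj, hμ]; ring
  · rw [hj]
    conv_lhs => rw [hμ, mul_comm d μ]
    exact Nat.gcd_mul_left _ _ _

section rels

variable {Γ : Type*} [Group Γ]

/-- Relations in a central extension. -/
lemma central_rel (A B : Γ) {m n r t d μ ρ j l : ℕ} (hmd : m = d * μ) (hr : r = 1 + d * ρ)
    (hs : (∑ i ∈ Finset.range n, r ^ i) = μ * j) (hrn : r ^ n = 1 + m * (ρ * j))
    (htl : t = μ * l)
    (hx : ∀ g : Γ, A ^ m * g = g * A ^ m)
    (hy : ∀ g : Γ, (B ^ n * (A ^ t)⁻¹) * g = g * (B ^ n * (A ^ t)⁻¹))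
    (hz : ∀ g : Γ, (B * A * B⁻¹ * (A ^ r)⁻¹) * g = g * (B * A * B⁻¹ * (A ^ r)⁻¹)) :
    let w := (B * A * B⁻¹ * (A ^ r)⁻¹) ^ μ * (A ^ m) ^ ρ
    w ^ d = 1 ∧ w ^ j = 1 ∧ w ^ l = 1 := by
  intro w
  set x := A ^ m with hxdef
  set y := B ^ n * (A ^ t)⁻¹ with hydef
  set z := B * A * B⁻¹ * (A ^ r)⁻¹ with hzdef
  have hzx : Commute z x := hz x
  have hBA : B * A * B⁻¹ = z * A ^ r := by rw [hzdef]; group
  have hzc : ∀ (g : Γ) (e : ℕ), z ^ e * g = g * z ^ e := by
    intro g e
    exact (Commute.pow_left (show Commute z g from hz g) e)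
  have hxc : ∀ (g : Γ) (e : ℕ), x ^ e * g = g * x ^ e := by
    intro g e
    exact (Commute.pow_left (show Commute x g from hx g) e)
  have conj1 : ∀ i : ℕ, B * A ^ i * B⁻¹ = z ^ i * A ^ (r * i) := by
    intro i
    have h1 : B * A ^ i * B⁻¹ = (B * A * B⁻¹) ^ i := by
      rw [conj_pow]
    rw [h1, hBA, (show Commute z (A ^ r) from hz _).mul_pow, ← pow_mul]
  have hwpow : ∀ e : ℕ, w ^ e = z ^ (μ * e) * x ^ (ρ * e) := by
    intro e
    have : Commute (z ^ μ) (x ^ ρ) := (hzx.pow_left μ).pow_right ρ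
    change (z ^ μ * x ^ ρ) ^ e = _
    rw [this.mul_pow, ← pow_mul, ← pow_mul]
  refine ⟨?_, ?_, ?_⟩
  · -- `w ^ d = 1`
    have h1 : B * x * B⁻¹ = x := by
      rw [← hx B]; group
    have h2 : B * x * B⁻¹ = z ^ m * A ^ (r * m) := by
      rw [hxdef]; exact conj1 m
    have h3 : A ^ (r * m) = x * x ^ (d * ρ) := by
      rw [hxdef, ← pow_mul, ← pow_add, hr]
      congr 1
      ring
    have h4 : z ^ m * x ^ (d * ρ) = 1 := by
      have h5 : z ^ m * (x * x ^ (d * ρ)) = x := by rw [← h3, ← h2, h1]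
      have h6 : x * (z ^ m * x ^ (d * ρ)) = x * 1 := by
        rw [mul_one]
        calc x * (z ^ m * x ^ (d * ρ)) = (x * z ^ m) * x ^ (d * ρ) := by group
          _ = (z ^ m * x) * x ^ (d * ρ) := by rw [hzc x m]
          _ = z ^ m * (x * x ^ (d * ρ)) := by group
          _ = x := h5
      exact mul_left_cancel h6
    rw [hwpow, mul_comm μ d, mul_comm ρ d, ← hmd]
    exact h4
  · -- `w ^ j = 1`
    have hstep : ∀ i : ℕ, B ^ i * A =
        z ^ (∑ k ∈ Finset.range i, r ^ k) * A ^ (r ^ i) * B ^ i := by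
      intro i
      induction i with
      | zero => simp
      | succ i ih =>
        have e1 : B * A ^ (r ^ i) = z ^ (r ^ i) * A ^ (r ^ (i + 1)) * B := by
          have h1 := conj1 (r ^ i)
          have h2 : B * A ^ (r ^ i) = (B * A ^ (r ^ i) * B⁻¹) * B := by group
          rw [h2, h1]
          congr 3
          rw [pow_succ]; ring
        calc B ^ (i + 1) * A = B * (B ^ i * A) := by rw [pow_succ']; group
          _ = B * (z ^ (∑ k ∈ Finset.range i, r ^ k) * A ^ (r ^ i) * B ^ i) := by rw [ih]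
          _ = (B * z ^ (∑ k ∈ Finset.range i, r ^ k)) * A ^ (r ^ i) * B ^ i := by group
          _ = (z ^ (∑ k ∈ Finset.range i, r ^ k) * B) * A ^ (r ^ i) * B ^ i := by rw [hzc B]
          _ = z ^ (∑ k ∈ Finset.range i, r ^ k) * (B * A ^ (r ^ i)) * B ^ i := by group
          _ = z ^ (∑ k ∈ Finset.range i, r ^ k) * (z ^ (r ^ i) * A ^ (r ^ (i + 1)) * B) * B ^ i := by
              rw [e1]
          _ = z ^ (∑ k ∈ Finset.range (i + 1), r ^ k) * A ^ (r ^ (i + 1)) * B ^ (i + 1) := by
              rw [Finset.sum_range_succ, pow_add z, pow_succ' B]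
              group
    have hBnA : B ^ n * A = A * B ^ n := by
      have h1 : B ^ n = y * A ^ t := by rw [hydef]; group
      rw [h1]
      calc y * A ^ t * A = y * (A * A ^ t) := by rw [mul_assoc, ← pow_succ, ← pow_succ']
        _ = (y * A) * A ^ t := by group
        _ = (A * y) * A ^ t := by rw [hy A]
        _ = A * (y * A ^ t) := by group
    have h2 := hstep n
    rw [hBnA, hs, hrn] at h2
    have h3 : A = z ^ (μ * j) * A ^ (1 + m * (ρ * j)) := mul_right_cancel h2
    have h4 : A ^ (1 + m * (ρ * j)) = A * x ^ (ρ * j) := by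
      rw [pow_add, pow_one, hxdef, ← pow_mul]
    rw [h4, ← mul_assoc, hzc A, mul_assoc] at h3
    have h5 : A * 1 = A * (z ^ (μ * j) * x ^ (ρ * j)) := by rw [mul_one]; exact h3
    rw [hwpow]
    exact (mul_left_cancel h5).symm
  · -- `w ^ l = 1`
    have h1 : B ^ n = y * A ^ t := by rw [hydef]; group
    have hBn : B * B ^ n = B ^ n * B := by rw [← pow_succ, ← pow_succ']
    have h2 : B * A ^ t = A ^ t * B := by
      rw [h1] at hBn
      have h3 : B * (y * A ^ t) = y * (B * A ^ t) := by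
        calc B * (y * A ^ t) = (B * y) * A ^ t := by group
          _ = (y * B) * A ^ t := by rw [hy B]
          _ = y * (B * A ^ t) := by group
      have h4 : y * A ^ t * B = y * (A ^ t * B) := by group
      rw [h3, h4] at hBn
      exact mul_left_cancel hBn
    have h3 : A ^ t = z ^ t * A ^ (r * t) := by
      rw [← conj1 t, h2]; group
    have h4 : A ^ (r * t) = A ^ t * x ^ (ρ * l) := by
      rw [hxdef, ← pow_mul, ← pow_add, hr, htl, hmd]
      congr 1
      ring
    rw [h4, ← mul_assoc, hzc, mul_assoc] at h3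
    have h5 : A ^ t * 1 = A ^ t * (z ^ t * x ^ (ρ * l)) := by rw [mul_one]; exact h3
    rw [hwpow, ← htl]
    exact (mul_left_cancel h5).symm

end rels

/-- The centre as a commutative group. -/
@[reducible] def centerComm (Γ : Type*) [Group Γ] : CommGroup (center Γ) :=
  { (inferInstance : Group (center Γ)) with
    mul_comm := fun a b => Subtype.ext (mem_center_iff.1 b.2 (a : Γ)) }

attribute [local instance] centerComm

/-- The exponent-sum homomorphism. -/
noncomputable def expo (α : Type*) [DecidableEq α] : FreeGroup α →* Multiplicative (α → ℤ) :=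
  FreeGroup.lift (fun i => Multiplicative.ofAdd (Pi.single i 1))

/-- Elements of the kernel of a stem extension are products of relator values with exponents
in the kernel of the exponent-sum matrix. -/
theorem kernel_repr {α : Type} [DecidableEq α] {J : Type} [Fintype J] (rels : Set (FreeGroup α))
    (rel : J → FreeGroup α) (hrel : ∀ w, w ∈ rels ↔ ∃ j, rel j = w)
    {Γ : Type*} [Group Γ] (σ : Γ →* PresentedGroup rels)
    (hcen : σ.ker ≤ center Γ) (hcomm : σ.ker ≤ _root_.commutator Γ)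
    (φ : FreeGroup α →* Γ) (hφ : ∀ w, σ (φ w) = PresentedGroup.mk rels w)
    (hφs : Function.Surjective φ) (hrelc : ∀ j, φ (rel j) ∈ center Γ) (k : Γ) (hk : k ∈ σ.ker) :
    ∃ c : J → ℤ, (∑ j, c j • Multiplicative.toAdd (expo α (rel j)) = 0) ∧
      Additive.ofMul (⟨k, hcen hk⟩ : center Γ) =
        ∑ j, c j • Additive.ofMul (⟨φ (rel j), hrelc j⟩ : center Γ) := by
  classical
  let F := FreeGroup α
  have hπker : ∀ w : F, PresentedGroup.mk rels w = 1 ↔ w ∈ Subgroup.normalClosure rels := by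
    intro w
    exact QuotientGroup.eq_one_iff w
  have hcommmap : _root_.commutator Γ = (_root_.commutator F).map φ := by
    rw [_root_.commutator_def, _root_.commutator_def, Subgroup.map_commutator,
      Subgroup.map_top_of_surjective φ hφs]
  have he'comm : ∀ w ∈ _root_.commutator F, expo α w = 1 := by
    intro w hw
    exact (Abelianization.commutator_subset_ker (expo α)) hw
  let ψ : (J → ℤ) →ₗ[ℤ] Additive (center Γ) :=
    Fintype.linearCombination ℤ (fun j => Additive.ofMul (⟨φ (rel j), hrelc j⟩ : center Γ))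
  let E : (J → ℤ) →ₗ[ℤ] (α → ℤ) :=
    Fintype.linearCombination ℤ (fun j : J => Multiplicative.toAdd (expo α (rel j)))
  let T : Subgroup F :=
    { carrier := {w | ∃ c : J → ℤ, ∃ h : φ w ∈ center Γ,
        Additive.ofMul (⟨φ w, h⟩ : center Γ) = ψ c ∧ Multiplicative.toAdd (expo α w) = E c}
      mul_mem' := by
        rintro a b ⟨c, h, h1, h2⟩ ⟨d, k, k1, k2⟩
        have hab : φ (a * b) ∈ center Γ := by rw [map_mul]; exact mul_mem h k
        refine ⟨c + d, hab, ?_, ?_⟩
        · rw [map_add, ← h1, ← k1, ← ofMul_mul]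
          congr 1
          exact Subtype.ext (map_mul φ a b)
        · rw [map_add, ← h2, ← k2, map_mul, toAdd_mul]
      one_mem' := by
        refine ⟨0, ?_, ?_, ?_⟩
        · rw [map_one]; exact one_mem _
        · rw [map_zero]
          have : (⟨φ 1, by rw [map_one]; exact one_mem _⟩ : center Γ) = 1 := Subtype.ext (map_one φ)
          rw [this]
          rfl
        · rw [map_zero, map_one]; rfl
      inv_mem' := by
        rintro a ⟨c, h, h1, h2⟩
        have ha : φ a⁻¹ ∈ center Γ := by rw [map_inv]; exact inv_mem h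
        refine ⟨-c, ha, ?_, ?_⟩
        · rw [map_neg, ← h1, ← ofMul_inv]
          congr 1
          exact Subtype.ext (map_inv φ a)
        · rw [map_neg, ← h2, map_inv, toAdd_inv] }
  have hTnormal : T.Normal := by
    refine ⟨?_⟩
    rintro a ⟨c, h, h1, h2⟩ g
    have hφ2 : φ (g * a * g⁻¹) = φ a := by
      have h3 : φ a * φ g = φ g * φ a := (mem_center_iff.1 h (φ g)).symm
      rw [map_mul, map_mul, map_inv, ← h3]
      group
    have hmem : φ (g * a * g⁻¹) ∈ center Γ := by rw [hφ2]; exact h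
    refine ⟨c, hmem, ?_, ?_⟩
    · rw [← h1]
      congr 1
      exact Subtype.ext hφ2
    · have h3 : expo α (g * a * g⁻¹) = expo α a := by
        rw [map_mul, map_mul, map_inv, mul_comm (expo α g) (expo α a), mul_inv_cancel_right]
      rw [h3]
      exact h2
  have hrelT : rels ⊆ T := by
    intro w hw
    obtain ⟨j, rfl⟩ := (hrel w).1 hw
    refine ⟨Pi.single j 1, hrelc j, ?_, ?_⟩
    · simp only [ψ]
      rw [Fintype.linearCombination_apply_single, one_smul]
    · simp only [E]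
      rw [Fintype.linearCombination_apply_single, one_smul]
  have hRT : Subgroup.normalClosure rels ≤ T := Subgroup.normalClosure_le_normal hrelT
  have hk2 : k ∈ _root_.commutator Γ := hcomm hk
  rw [hcommmap] at hk2
  obtain ⟨w, hw, hwk⟩ := hk2
  have hwR : w ∈ Subgroup.normalClosure rels := by
    rw [← hπker, ← hφ, hwk]
    exact hk
  obtain ⟨c, h, h1, h2⟩ := hRT hwR
  refine ⟨c, ?_, ?_⟩
  · have h3 : E c = 0 := by rw [← h2, he'comm w hw]; rfl
    have h4 : E c = ∑ j, c j • Multiplicative.toAdd (expo α (rel j)) :=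
      Fintype.linearCombination_apply ℤ _ c
    rw [← h4, h3]
  · have h3 : ψ c = ∑ j, c j • Additive.ofMul (⟨φ (rel j), hrelc j⟩ : center Γ) :=
      Fintype.linearCombination_apply ℤ _ c
    rw [← h3, ← h1]
    congr 1
    exact Subtype.ext hwk.symm

end Cfsg.Agent.H19.Meta
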