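import Mathlib
import Cfsg.Agent.Lib.H19.Meta1

/-! Metacyclic groups: a concrete model and finiteness (helper19). -/

set_option autoImplicit false

namespace Cfsg.Agent.H19.Meta

open Subgroup
open scoped commutatorElement

section fin

variable {Γ : Type*} [Group Γ]

lemma comm_pow_step (a b : Γ) {R : ℕ} (h2 : b * a * b⁻¹ = a ^ R) (e : ℕ) :
    b * a ^ e = a ^ (R * e) * b := by
  have h1 : b * a ^ e * b⁻¹ = (b * a * b⁻¹) ^ e := by rw [conj_pow]
  have h3 : b * a ^ e = (b * a ^ e * b⁻¹) * b := by group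
  rw [h3, h1, h2, ← pow_mul]

lemma comm_pow (a b : Γ) {R : ℕ} (h2 : b * a * b⁻¹ = a ^ R) (j i : ℕ) :
    b ^ j * a ^ i = a ^ (R ^ j * i) * b ^ j := by
  induction j with
  | zero => simp
  | succ j ih =>
    calc b ^ (j + 1) * a ^ i = b * (b ^ j * a ^ i) := by rw [pow_succ']; group
      _ = b * (a ^ (R ^ j * i) * b ^ j) := by rw [ih]
      _ = (b * a ^ (R ^ j * i)) * b ^ j := by group
      _ = (a ^ (R * (R ^ j * i)) * b) * b ^ j := by rw [comm_pow_step a b h2]
      _ = a ^ (R ^ (j + 1) * i) * b ^ (j + 1) := by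
          rw [pow_succ' b j, pow_succ' R j, mul_assoc, mul_assoc R]

theorem normal_form (a b : Γ) (hgen : closure ({a, b} : Set Γ) = ⊤) {M n R t : ℕ} (hM : 0 < M)
    (hn : 0 < n) (h1 : a ^ M = 1) (h2 : b * a * b⁻¹ = a ^ R) (h3 : b ^ n = a ^ t) (x : Γ) :
    ∃ i j : ℕ, x = a ^ i * b ^ j := by
  have hb : b ^ (n * M) = 1 := by
    rw [pow_mul, h3, ← pow_mul, mul_comm, pow_mul, h1, one_pow]
  have hnM : 0 < n * M := Nat.mul_pos hn hM
  have hainv : a⁻¹ = a ^ (M - 1) := by
    apply inv_eq_of_mul_eq_one_right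
    rw [← pow_succ', show M - 1 + 1 = M by omega, h1]
  have hbinv : b⁻¹ = b ^ (n * M - 1) := by
    apply inv_eq_of_mul_eq_one_right
    rw [← pow_succ', show n * M - 1 + 1 = n * M by omega, hb]
  have hx : x ∈ closure ({a, b} : Set Γ) := by rw [hgen]; trivial
  induction hx using Subgroup.closure_induction with
  | mem y hy =>
    rcases hy with rfl | rfl
    · exact ⟨1, 0, by simp⟩
    · exact ⟨0, 1, by simp⟩
  | one => exact ⟨0, 0, by simp⟩
  | mul y z _ _ ihy ihz =>
    obtain ⟨i, j, rfl⟩ := ihy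
    obtain ⟨i', j', rfl⟩ := ihz
    refine ⟨i + R ^ j * i', j + j', ?_⟩
    calc a ^ i * b ^ j * (a ^ i' * b ^ j') = a ^ i * (b ^ j * a ^ i') * b ^ j' := by group
      _ = a ^ i * (a ^ (R ^ j * i') * b ^ j) * b ^ j' := by rw [comm_pow a b h2]
      _ = a ^ (i + R ^ j * i') * b ^ (j + j') := by
          rw [pow_add a, pow_add b]; group
  | inv y _ ih =>
    obtain ⟨i, j, rfl⟩ := ih
    refine ⟨R ^ ((n * M - 1) * j) * ((M - 1) * i), (n * M - 1) * j, ?_⟩
    rw [← comm_pow a b h2, mul_inv_rev, ← inv_pow, ← inv_pow, hainv, hbinv, ← pow_mul, ← pow_mul]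

theorem finite_of_rel (a b : Γ) (hgen : closure ({a, b} : Set Γ) = ⊤) {M n R t : ℕ} (hM : 0 < M)
    (hn : 0 < n) (h1 : a ^ M = 1) (h2 : b * a * b⁻¹ = a ^ R) (h3 : b ^ n = a ^ t) : Finite Γ := by
  have hb : b ^ (n * M) = 1 := by
    rw [pow_mul, h3, ← pow_mul, mul_comm, pow_mul, h1, one_pow]
  have hnM : 0 < n * M := Nat.mul_pos hn hM
  let f : Fin M × Fin (n * M) → Γ := fun p => a ^ (p.1 : ℕ) * b ^ (p.2 : ℕ)
  have hf : Function.Surjective f := by
    intro x
    obtain ⟨i, j, rfl⟩ := normal_form a b hgen hM hn h1 h2 h3 x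
    refine ⟨(⟨i % M, Nat.mod_lt _ hM⟩, ⟨j % (n * M), Nat.mod_lt _ hnM⟩), ?_⟩
    change a ^ (i % M) * b ^ (j % (n * M)) = _
    rw [← pow_eq_pow_mod i h1, ← pow_eq_pow_mod j hb]
  exact Finite.of_surjective f hf

end fin

section model

variable (M n : ℕ) (rr tt : ZMod M) (hn : 0 < n)

/-- The shift on `ZMod M × Fin n`. -/
def shift (p : ZMod M × Fin n) : ZMod M × Fin n :=
  if h : p.2.1 + 1 < n then (rr * p.1, ⟨p.2.1 + 1, h⟩) else (rr * p.1 + tt, ⟨0, hn⟩)

lemma shift_iter (hRt : rr * tt = tt) (k : ℕ) (x : ZMod M) (j : Fin n) :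
    (shift M n rr tt hn)^[k] (x, j) =
      (rr ^ k * x + tt * (((j.1 + k) / n : ℕ) : ZMod M), ⟨(j.1 + k) % n, Nat.mod_lt _ hn⟩) := by
  induction k with
  | zero =>
    simp only [Function.iterate_zero, id, add_zero, pow_zero, one_mul]
    rw [Nat.div_eq_of_lt j.2, Prod.mk.injEq]
    exact ⟨by simp, Fin.ext (Nat.mod_eq_of_lt j.2).symm⟩
  | succ k ih =>
    rw [Function.iterate_succ_apply', ih]
    have hdm := Nat.div_add_mod (j.1 + k) n
    unfold shift
    by_cases h : (j.1 + k) % n + 1 < n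
    · have e0 : j.1 + (k + 1) = n * ((j.1 + k) / n) + ((j.1 + k) % n + 1) := by omega
      have e1 : (j.1 + (k + 1)) % n = (j.1 + k) % n + 1 := by
        rw [e0, Nat.mul_add_mod, Nat.mod_eq_of_lt h]
      have e2 : (j.1 + (k + 1)) / n = (j.1 + k) / n := by
        rw [e0, Nat.mul_add_div hn, Nat.div_eq_of_lt h, add_zero]
      simp only [dif_pos h]
      rw [Prod.mk.injEq]
      refine ⟨?_, Fin.ext e1.symm⟩
      rw [e2, pow_succ]
      linear_combination (((j.1 + k) / n : ℕ) : ZMod M) * hRt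
    · have hv : (j.1 + k) % n + 1 = n := by
        have := Nat.mod_lt (j.1 + k) hn
        omega
      have e0 : j.1 + (k + 1) = n * ((j.1 + k) / n + 1) := by
        rw [mul_add, mul_one]; omega
      have e1 : (j.1 + (k + 1)) % n = 0 := by rw [e0, Nat.mul_mod_right]
      have e2 : (j.1 + (k + 1)) / n = (j.1 + k) / n + 1 := by
        rw [e0, Nat.mul_div_cancel_left _ hn]
      simp only [dif_neg h]
      rw [Prod.mk.injEq]
      refine ⟨?_, Fin.ext e1.symm⟩
      rw [e2, pow_succ]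
      push_cast
      linear_combination (((j.1 + k) / n : ℕ) : ZMod M) * hRt

lemma shift_iter_n (hRt : rr * tt = tt) (hRn : rr ^ n = 1) (x : ZMod M) (j : Fin n) :
    (shift M n rr tt hn)^[n] (x, j) = (x + tt, j) := by
  rw [shift_iter M n rr tt hn hRt, hRn, one_mul]
  have e1 : (j.1 + n) / n = 1 := by
    rw [Nat.add_div_right _ hn, Nat.div_eq_of_lt j.2]
  have e2 : (j.1 + n) % n = j.1 := by
    rw [Nat.add_mod_right, Nat.mod_eq_of_lt j.2]
  rw [e1, Prod.mk.injEq]
  refine ⟨by simp, Fin.ext e2⟩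

end model

theorem model (M n R t : ℕ) (hM : 0 < M) (hn : 0 < n) (hRn : R ^ n ≡ 1 [MOD M])
    (hRt : R * t ≡ t [MOD M]) :
    ∃ (X : Type) (A B : Equiv.Perm X), A ^ M = 1 ∧ B * A * B⁻¹ = A ^ R ∧ B ^ n = A ^ t ∧
      orderOf A = M := by
  let rr : ZMod M := R
  let tt : ZMod M := t
  have h1 : rr * tt = tt := by
    have := (ZMod.natCast_eq_natCast_iff _ _ M).2 hRt
    simpa [rr, tt] using this
  have h2 : rr ^ n = 1 := by
    have := (ZMod.natCast_eq_natCast_iff _ _ M).2 hRn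
    simpa [rr] using this
  let f := shift M n rr tt hn
  have hiter : ∀ p, f^[n] p = (p.1 + tt, p.2) := fun p => shift_iter_n M n rr tt hn h1 h2 p.1 p.2
  let g : ZMod M × Fin n ≃ ZMod M × Fin n := (Equiv.addRight tt).prodCongr (Equiv.refl _)
  have hg : ∀ p, f^[n] p = g p := fun p => by rw [hiter]; rfl
  obtain ⟨n', rfl⟩ : ∃ n', n = n' + 1 := ⟨n - 1, by omega⟩
  have hinj : Function.Injective f := by
    have h3 : Function.Injective (f^[n'] ∘ f) := by
      rw [← Function.iterate_succ]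
      intro p q hpq
      rw [hg, hg] at hpq
      exact g.injective hpq
    exact Function.Injective.of_comp h3
  have hsurj : Function.Surjective f := by
    have h3 : Function.Surjective (f ∘ f^[n']) := by
      rw [← Function.iterate_succ']
      intro q
      obtain ⟨p, hp⟩ := g.surjective q
      exact ⟨p, by rw [hg, hp]⟩
    exact Function.Surjective.of_comp h3
  let B : Equiv.Perm (ZMod M × Fin (n' + 1)) := Equiv.ofBijective f ⟨hinj, hsurj⟩
  let A : Equiv.Perm (ZMod M × Fin (n' + 1)) := (Equiv.addRight (1 : ZMod M)).prodCongr (Equiv.refl _)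
  have hApow : ∀ (i : ℕ) (p : ZMod M × Fin (n' + 1)), (A ^ i) p = (p.1 + i, p.2) := by
    intro i p
    induction i with
    | zero => simp
    | succ i ih =>
      rw [pow_succ', Equiv.Perm.mul_apply, ih]
      change (p.1 + i + 1, p.2) = _
      push_cast
      rw [add_assoc]
  have hBpow : ∀ p, (B ^ (n' + 1)) p = g p := by
    intro p
    rw [← Equiv.Perm.iterate_eq_pow]
    exact hg p
  refine ⟨ZMod M × Fin (n' + 1), A, B, ?_, ?_, ?_, ?_⟩
  · ext p
    · rw [hApow]; simp
    · rw [hApow]; simp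
  · rw [mul_inv_eq_iff_eq_mul]
    apply Equiv.ext
    rintro ⟨x, j⟩
    change f (x + 1, j) = (A ^ R) (f (x, j))
    rw [hApow]
    simp only [f, shift]
    by_cases h : j.1 + 1 < n' + 1
    · simp only [dif_pos h]
      rw [Prod.mk.injEq]
      refine ⟨by simp only [rr]; ring, rfl⟩
    · simp only [dif_neg h]
      rw [Prod.mk.injEq]
      refine ⟨by simp only [rr]; ring, rfl⟩
  · apply Equiv.ext
    intro p
    rw [hBpow, hApow]
    rfl
  · apply Nat.dvd_antisymm
    · apply orderOf_dvd_of_pow_eq_one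
      apply Equiv.ext
      intro p
      rw [hApow]
      simp
    · have h3 := pow_orderOf_eq_one A
      have h4 := congrArg (fun e : Equiv.Perm (ZMod M × Fin (n' + 1)) => e (0, ⟨0, hn⟩)) h3
      simp only [hApow] at h4
      have h5 : ((orderOf A : ℕ) : ZMod M) = 0 := by
        have := congrArg Prod.fst h4
        simpa using this
      exact (ZMod.natCast_eq_zero_iff _ _).1 h5

end Cfsg.Agent.H19.Meta
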