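import Mathlib
import Cfsg.Agent.Lib.H19.Meta2

/-! Metacyclic groups: the Schur multiplier (helper19). -/

set_option autoImplicit false

namespace Cfsg.Agent.H19.Meta

open Subgroup
open scoped commutatorElement

attribute [local instance] centerComm

/-- The defining relators. -/
abbrev rels0 (m n r t : ℕ) : Set (FreeGroup Bool) :=
  {FreeGroup.of true ^ m, (FreeGroup.of false) ^ n * (FreeGroup.of true ^ t)⁻¹,
    FreeGroup.of false * FreeGroup.of true * (FreeGroup.of false)⁻¹ * (FreeGroup.of true ^ r)⁻¹}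

section pres

variable {m n r t : ℕ}

lemma abar_pow : (PresentedGroup.of true : PresentedGroup (rels0 m n r t)) ^ m = 1 := by
  have h : FreeGroup.of true ^ m ∈ rels0 m n r t := Set.mem_insert _ _
  have := PresentedGroup.one_of_mem h
  simpa [map_pow, PresentedGroup.of] using this

lemma bbar_pow : (PresentedGroup.of false : PresentedGroup (rels0 m n r t)) ^ n =
    (PresentedGroup.of true) ^ t := by
  have h : (FreeGroup.of false) ^ n * (FreeGroup.of true ^ t)⁻¹ ∈ rels0 m n r t :=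
    Set.mem_insert_of_mem _ (Set.mem_insert _ _)
  have := PresentedGroup.one_of_mem h
  simp only [map_mul, map_pow, map_inv] at this
  exact mul_inv_eq_one.1 this

lemma conj_bar : (PresentedGroup.of false : PresentedGroup (rels0 m n r t)) * PresentedGroup.of true *
    (PresentedGroup.of false)⁻¹ = (PresentedGroup.of true) ^ r := by
  have h : FreeGroup.of false * FreeGroup.of true * (FreeGroup.of false)⁻¹ *
      (FreeGroup.of true ^ r)⁻¹ ∈ rels0 m n r t :=
    Set.mem_insert_of_mem _ (Set.mem_insert_of_mem _ rfl)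
  have := PresentedGroup.one_of_mem h
  simp only [map_mul, map_pow, map_inv] at this
  exact mul_inv_eq_one.1 this

end pres

/-- The upper bound: every stem extension has kernel generated by `w`, with `w ^ g = 1`. -/
theorem upper {m n r t d μ ρ j l g : ℕ} (hn : 0 < n) (hμ : 0 < μ) (hd : 0 < d)
    (hmd : m = d * μ) (hr : r = 1 + d * ρ) (hcop : Nat.Coprime μ ρ)
    (hs : (∑ i ∈ Finset.range n, r ^ i) = μ * j) (hrn : r ^ n = 1 + m * (ρ * j))
    (htl : t = μ * l) (hg : g = Nat.gcd l (Nat.gcd d j))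
    {Γ : Type} [Group Γ] (σ : Γ →* PresentedGroup (rels0 m n r t))
    (hσ : Cfsg.IsStemExtension σ) :
    ∃ π : Multiplicative (ZMod g) →* σ.ker, Function.Surjective π := by
  classical
  obtain ⟨hsurj, hcen, hcomm⟩ := hσ
  let G := PresentedGroup (rels0 m n r t)
  obtain ⟨A, hA⟩ := hsurj (PresentedGroup.of true)
  obtain ⟨B, hB⟩ := hsurj (PresentedGroup.of false)
  let γ : Bool → Γ := fun c => cond c A B
  let φ : FreeGroup Bool →* Γ := FreeGroup.lift γ
  have hφA : φ (FreeGroup.of true) = A := FreeGroup.lift_apply_of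
  have hφB : φ (FreeGroup.of false) = B := FreeGroup.lift_apply_of
  have hσφ : ∀ w, σ (φ w) = PresentedGroup.mk (rels0 m n r t) w := by
    intro w
    have h1 : σ.comp φ = PresentedGroup.mk (rels0 m n r t) := by
      apply FreeGroup.ext_hom
      intro c
      cases c
      · rw [MonoidHom.comp_apply, hφB, hB]; rfl
      · rw [MonoidHom.comp_apply, hφA, hA]; rfl
    exact DFunLike.congr_fun h1 w
  have hπsurj : Function.Surjective (PresentedGroup.mk (rels0 m n r t)) :=
    PresentedGroup.mk_surjective _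
  have hdec : ∀ g : Γ, ∃ w : FreeGroup Bool, ∃ k ∈ σ.ker, g = φ w * k := by
    intro g
    obtain ⟨w, hw⟩ := hπsurj (σ g)
    refine ⟨w, (φ w)⁻¹ * g, ?_, by group⟩
    rw [MonoidHom.mem_ker, map_mul, map_inv, hσφ, hw]
    group
  have hcentral : ∀ k ∈ σ.ker, ∀ g : Γ, k * g = g * k := by
    intro k hk g
    exact (mem_center_iff.1 (hcen hk) g).symm
  have hcommS : _root_.commutator Γ ≤ φ.range := by
    rw [_root_.commutator_def, Subgroup.commutator_le]
    intro a _ b _
    obtain ⟨u, k, hk, rfl⟩ := hdec a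
    obtain ⟨v, l, hl, rfl⟩ := hdec b
    rw [commutatorElement_def, Cfsg.Agent.H19.Def.comm_central _ _ _ _ (hcentral k hk) (hcentral l hl)]
    exact ⟨⁅u, v⁆, by simp [commutatorElement_def]⟩
  have hφsurj : Function.Surjective φ := by
    intro g
    obtain ⟨w, k, hk, rfl⟩ := hdec g
    obtain ⟨v, hv⟩ := hcommS (hcomm hk)
    exact ⟨w * v, by rw [map_mul, hv]⟩
  -- the three relators
  let rel : Fin 3 → FreeGroup Bool := ![FreeGroup.of true ^ m,
    (FreeGroup.of false) ^ n * (FreeGroup.of true ^ t)⁻¹,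
    FreeGroup.of false * FreeGroup.of true * (FreeGroup.of false)⁻¹ * (FreeGroup.of true ^ r)⁻¹]
  have hrel : ∀ w, w ∈ rels0 m n r t ↔ ∃ i, rel i = w := by
    intro w
    constructor
    · rintro (rfl | rfl | h)
      · exact ⟨0, rfl⟩
      · exact ⟨1, rfl⟩
      · exact ⟨2, h.symm⟩
    · rintro ⟨i, rfl⟩
      fin_cases i
      · exact Set.mem_insert _ _
      · exact Set.mem_insert_of_mem _ (Set.mem_insert _ _)
      · exact Set.mem_insert_of_mem _ (Set.mem_insert_of_mem _ rfl)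
  have hrelk : ∀ i, φ (rel i) ∈ σ.ker := by
    intro i
    rw [MonoidHom.mem_ker, hσφ]
    exact PresentedGroup.one_of_mem ((hrel _).2 ⟨i, rfl⟩)
  have hrelc : ∀ i, φ (rel i) ∈ center Γ := fun i => hcen (hrelk i)
  have e0 : φ (rel 0) = A ^ m := by
    change φ (FreeGroup.of true ^ m) = _
    rw [map_pow, hφA]
  have e1 : φ (rel 1) = B ^ n * (A ^ t)⁻¹ := by
    change φ ((FreeGroup.of false) ^ n * (FreeGroup.of true ^ t)⁻¹) = _
    rw [map_mul, map_pow, map_inv, map_pow, hφA, hφB]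
  have e2 : φ (rel 2) = B * A * B⁻¹ * (A ^ r)⁻¹ := by
    change φ (FreeGroup.of false * FreeGroup.of true * (FreeGroup.of false)⁻¹ *
      (FreeGroup.of true ^ r)⁻¹) = _
    rw [map_mul, map_mul, map_mul, map_inv, map_inv, map_pow, hφA, hφB]
  have hcx : ∀ g : Γ, A ^ m * g = g * A ^ m := fun g => e0 ▸ hcentral _ (hrelk 0) g
  have hcy : ∀ g : Γ, (B ^ n * (A ^ t)⁻¹) * g = g * (B ^ n * (A ^ t)⁻¹) :=
    fun g => e1 ▸ hcentral _ (hrelk 1) g
  have hcz : ∀ g : Γ, (B * A * B⁻¹ * (A ^ r)⁻¹) * g = g * (B * A * B⁻¹ * (A ^ r)⁻¹) :=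
    fun g => e2 ▸ hcentral _ (hrelk 2) g
  obtain ⟨hw1, hw2, hw3⟩ := central_rel A B hmd hr hs hrn htl hcx hcy hcz
  set w := (B * A * B⁻¹ * (A ^ r)⁻¹) ^ μ * (A ^ m) ^ ρ with hwdef
  have hwk : w ∈ σ.ker := by
    refine mul_mem (pow_mem ?_ μ) (pow_mem ?_ ρ)
    · rw [← e2]; exact hrelk 2
    · rw [← e0]; exact hrelk 0
  have hwg : w ^ g = 1 := by
    apply orderOf_dvd_iff_pow_eq_one.1
    rw [hg]
    exact Nat.dvd_gcd (orderOf_dvd_of_pow_eq_one hw3)
      (Nat.dvd_gcd (orderOf_dvd_of_pow_eq_one hw1) (orderOf_dvd_of_pow_eq_one hw2))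
  -- every kernel element is a power of `w`
  have hkw : ∀ k ∈ σ.ker, ∃ e : ℤ, k = w ^ e := by
    intro k hk
    obtain ⟨c, hc1, hc2⟩ := kernel_repr (rels0 m n r t) rel hrel σ hcen hcomm φ hσφ hφsurj hrelc k hk
    rw [Fin.sum_univ_three] at hc1 hc2
    have hexpT : expo Bool (FreeGroup.of true) = Multiplicative.ofAdd (Pi.single true 1) :=
      FreeGroup.lift_apply_of
    have hexpF : expo Bool (FreeGroup.of false) = Multiplicative.ofAdd (Pi.single false 1) :=
      FreeGroup.lift_apply_of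
    have r0 : Multiplicative.toAdd (expo Bool (rel 0)) = (m : ℤ) • (Pi.single true 1 : Bool → ℤ) := by
      change Multiplicative.toAdd (expo Bool (FreeGroup.of true ^ m)) = _
      rw [(expo Bool).map_pow, toAdd_pow, hexpT, toAdd_ofAdd, natCast_zsmul]
    have r1 : Multiplicative.toAdd (expo Bool (rel 1)) =
        (n : ℤ) • (Pi.single false 1 : Bool → ℤ) - (t : ℤ) • (Pi.single true 1 : Bool → ℤ) := by
      change Multiplicative.toAdd (expo Bool ((FreeGroup.of false) ^ n * (FreeGroup.of true ^ t)⁻¹)) = _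
      rw [(expo Bool).map_mul, (expo Bool).map_pow, (expo Bool).map_inv, (expo Bool).map_pow, toAdd_mul,
        toAdd_inv, toAdd_pow, toAdd_pow, hexpT, hexpF,
        toAdd_ofAdd, toAdd_ofAdd, sub_eq_add_neg, natCast_zsmul, natCast_zsmul]
    have r2 : Multiplicative.toAdd (expo Bool (rel 2)) =
        (Pi.single true 1 : Bool → ℤ) - (r : ℤ) • (Pi.single true 1 : Bool → ℤ) := by
      change Multiplicative.toAdd (expo Bool (FreeGroup.of false * FreeGroup.of true *
        (FreeGroup.of false)⁻¹ * (FreeGroup.of true ^ r)⁻¹)) = _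
      rw [(expo Bool).map_mul, (expo Bool).map_mul, (expo Bool).map_mul, (expo Bool).map_inv,
        (expo Bool).map_inv, (expo Bool).map_pow, toAdd_mul, toAdd_mul, toAdd_mul,
        toAdd_inv, toAdd_inv, toAdd_pow, hexpT, hexpF, toAdd_ofAdd, toAdd_ofAdd, natCast_zsmul]
      abel
    rw [r0, r1, r2] at hc1
    have hT := congrFun hc1 true
    have hF := congrFun hc1 false
    simp only [Pi.add_apply, Pi.smul_apply, Pi.sub_apply, Pi.zero_apply, Pi.single_eq_same,
      smul_eq_mul, mul_one, Pi.single_eq_of_ne (show false ≠ true by simp),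
      Pi.single_eq_of_ne (show true ≠ false by simp), mul_zero, sub_zero, zero_sub, add_zero,
      zero_add, sub_self] at hT hF
    have hc1z : c 1 = 0 := by
      have hn' : (n : ℤ) ≠ 0 := by exact_mod_cast hn.ne'
      exact (mul_eq_zero.1 hF).resolve_right hn'
    rw [hc1z] at hT
    have hμz : (μ : ℤ) ≠ 0 := by exact_mod_cast hμ.ne'
    have hdz : (d : ℤ) ≠ 0 := by exact_mod_cast hd.ne'
    have hT2 : c 0 * μ = c 2 * ρ := by
      apply mul_left_cancel₀ hdz
      have hmz : (m : ℤ) = d * μ := by exact_mod_cast hmd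
      have hrz : (r : ℤ) = 1 + d * ρ := by exact_mod_cast hr
      rw [hmz, hrz] at hT
      linear_combination hT
    have hcopz : IsCoprime (μ : ℤ) (ρ : ℤ) := Nat.isCoprime_iff_coprime.2 hcop
    have hdvd : (μ : ℤ) ∣ c 2 := by
      have h1 : (μ : ℤ) ∣ c 2 * ρ := ⟨c 0, by rw [← hT2]; ring⟩
      exact hcopz.dvd_of_dvd_mul_right h1
    obtain ⟨e, he⟩ := hdvd
    have hc0 : c 0 = ρ * e := by
      apply mul_right_cancel₀ hμz
      rw [hT2, he]; ring
    refine ⟨e, ?_⟩
    -- pass to the centre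
    let xh : center Γ := ⟨φ (rel 0), hrelc 0⟩
    let yh : center Γ := ⟨φ (rel 1), hrelc 1⟩
    let zh : center Γ := ⟨φ (rel 2), hrelc 2⟩
    have h3 : Additive.ofMul (⟨k, hcen hk⟩ : center Γ) =
        e • (μ • Additive.ofMul zh + ρ • Additive.ofMul xh) := by
      rw [hc2, hc1z, hc0, he]
      simp only [xh, yh, zh]
      rw [zero_smul, add_zero]
      module
    have h4 : (⟨k, hcen hk⟩ : center Γ) = (zh ^ μ * xh ^ ρ) ^ e := by
      apply Additive.ofMul.injective
      rw [h3, ofMul_zpow, ofMul_mul, ofMul_pow, ofMul_pow]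
    have h5 := congrArg (Subtype.val) h4
    simp only [Subgroup.coe_zpow, Subgroup.coe_mul, Subgroup.coe_pow] at h5
    have hx1 : (xh : Γ) = A ^ m := e0
    have hz1 : (zh : Γ) = B * A * B⁻¹ * (A ^ r)⁻¹ := e2
    rw [h5, hx1, hz1]
  -- the map
  let wh : σ.ker := ⟨w, hwk⟩
  have hf : (zmultiplesHom (Additive σ.ker) (Additive.ofMul wh)) (g : ℤ) = 0 := by
    rw [zmultiplesHom_apply, natCast_zsmul, ← ofMul_pow]
    have : wh ^ g = 1 := Subtype.ext (by simpa [wh] using hwg)
    rw [this]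
    rfl
  let π0 : ZMod g →+ Additive σ.ker := ZMod.lift g ⟨_, hf⟩
  refine ⟨AddMonoidHom.toMultiplicativeLeft π0, ?_⟩
  rintro ⟨k, hk⟩
  obtain ⟨e, he⟩ := hkw k hk
  refine ⟨Multiplicative.ofAdd ((e : ℤ) : ZMod g), ?_⟩
  apply Subtype.ext
  have h1 : π0 ((e : ℤ) : ZMod g) = e • Additive.ofMul wh := by
    simp only [π0]
    rw [ZMod.lift_coe]
    rfl
  change (((Additive.toMul (π0 ((e : ℤ) : ZMod g))) : σ.ker) : Γ) = k
  rw [h1, he]
  simp [wh]

end Cfsg.Agent.H19.Meta
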