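import Mathlib
import Cfsg.Agent.Lib.H19.Meta3

/-! Metacyclic groups: construction of the cover, and the Schur multiplier (helper19). -/

set_option autoImplicit false

namespace Cfsg.Agent.H19.Meta

open Subgroup
open scoped commutatorElement

lemma closure_ab (rels : Set (FreeGroup Bool)) :
    closure ({PresentedGroup.of true, PresentedGroup.of false} : Set (PresentedGroup rels)) = ⊤ := by
  have h := PresentedGroup.closure_range_of rels
  have h2 : Set.range (PresentedGroup.of : Bool → PresentedGroup rels) =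
      {PresentedGroup.of true, PresentedGroup.of false} := by
    ext x
    constructor
    · rintro ⟨c, rfl⟩
      cases c
      · exact Set.mem_insert_of_mem _ rfl
      · exact Set.mem_insert _ _
    · rintro (rfl | rfl)
      · exact ⟨true, rfl⟩
      · exact ⟨false, rfl⟩
  rw [← h2]
  exact h

lemma hom_rels0 {m n r t : ℕ} {X : Type*} [Group X] (A B : X) (h1 : A ^ m = 1) (h3 : B ^ n = A ^ t)
    (h2 : B * A * B⁻¹ = A ^ r) :
    ∃ f : PresentedGroup (rels0 m n r t) →* X, f (PresentedGroup.of true) = A ∧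
      f (PresentedGroup.of false) = B := by
  let c : Bool → X := fun x => cond x A B
  have hcA : FreeGroup.lift c (FreeGroup.of true) = A := FreeGroup.lift_apply_of
  have hcB : FreeGroup.lift c (FreeGroup.of false) = B := FreeGroup.lift_apply_of
  have hrel : ∀ w ∈ rels0 m n r t, FreeGroup.lift c w = 1 := by
    rintro w (rfl | rfl | rfl)
    · rw [map_pow, hcA, h1]
    · rw [map_mul, map_pow, map_inv, map_pow, hcA, hcB, h3, mul_inv_cancel]
    · rw [map_mul, map_mul, map_mul, map_inv, map_inv, map_pow, hcA, hcB, h2, mul_inv_cancel]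
  exact ⟨PresentedGroup.toGroup hrel, PresentedGroup.toGroup.of hrel, PresentedGroup.toGroup.of hrel⟩

lemma pow_congr_mod {X : Type*} [Group X] {x : X} {m a b : ℕ} (h : x ^ m = 1) (hab : a ≡ b [MOD m]) :
    x ^ a = x ^ b := by
  rw [pow_eq_pow_mod a h, pow_eq_pow_mod b h, hab]

lemma exists_rho {μ ρ g : ℕ} (hμ : 0 < μ) (hg : 0 < g) (hcop : Nat.Coprime μ ρ) :
    ∃ ρ' : ℕ, Nat.Coprime ρ' (μ * g) ∧ ρ' ≡ ρ [MOD μ] := by
  haveI : NeZero (μ * g) := ⟨(Nat.mul_pos hμ hg).ne'⟩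
  let u₀ : (ZMod μ)ˣ := ZMod.unitOfCoprime ρ hcop.symm
  obtain ⟨u, hu⟩ := ZMod.unitsMap_surjective (dvd_mul_right μ g) u₀
  refine ⟨(u : ZMod (μ * g)).val, ZMod.val_coe_unit_coprime u, ?_⟩
  apply (ZMod.natCast_eq_natCast_iff _ _ _).1
  rw [ZMod.natCast_val]
  have h1 := congrArg Units.val hu
  have h2 : ((ZMod.unitsMap (dvd_mul_right μ g) u : (ZMod μ)ˣ) : ZMod μ) = ((u : ZMod (μ * g))).cast := rfl
  rw [h2] at h1
  rw [h1]
  exact ZMod.coe_unitOfCoprime ρ hcop.symm

lemma sum_modEq {R r m : ℕ} (h : R ≡ r [MOD m]) (n : ℕ) :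
    (∑ i ∈ Finset.range n, R ^ i) ≡ (∑ i ∈ Finset.range n, r ^ i) [MOD m] := by
  induction n with
  | zero => rfl
  | succ n ih =>
    rw [Finset.sum_range_succ, Finset.sum_range_succ]
    exact ih.add (h.pow n)

lemma pow_mul_inv_of_eq {X : Type*} [Group X] (x : X) {R e : ℕ} (h : R = 1 + e) :
    x ^ R * x⁻¹ = x ^ e := by
  subst h
  rw [pow_add, pow_one, mul_inv_eq_iff_eq_mul, ← pow_succ', pow_succ]

theorem lower {m n r t d μ ρ j l g : ℕ} (hn : 0 < n) (hμ : 0 < μ) (hd : 0 < d)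
    (hmd : m = d * μ) (hr : r = 1 + d * ρ) (hcop : Nat.Coprime μ ρ)
    (hs : (∑ i ∈ Finset.range n, r ^ i) = μ * j)
    (htl : t = μ * l) (hg : g = Nat.gcd l (Nat.gcd d j)) :
    ∃ (Γ : Type) (_ : Group Γ) (_ : Finite Γ) (σ : Γ →* PresentedGroup (rels0 m n r t)),
      Cfsg.IsStemExtension σ ∧ Nonempty (σ.ker ≃* Multiplicative (ZMod g)) := by
  classical
  have hg0 : 0 < g := by
    rw [hg]
    exact Nat.gcd_pos_of_pos_right l (Nat.gcd_pos_of_pos_left j hd)
  have hgl : g ∣ l := hg ▸ Nat.gcd_dvd_left _ _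
  have hgd : g ∣ d := hg ▸ (Nat.gcd_dvd_right _ _).trans (Nat.gcd_dvd_left _ _)
  have hgj : g ∣ j := hg ▸ (Nat.gcd_dvd_right _ _).trans (Nat.gcd_dvd_right _ _)
  have hm0 : 0 < m := hmd ▸ Nat.mul_pos hd hμ
  obtain ⟨ρ', hρ'c, hρ'm⟩ := exists_rho (ρ := ρ) hμ hg0 hcop
  have hρ'g : Nat.Coprime ρ' g := Nat.Coprime.coprime_dvd_right (dvd_mul_left g μ) hρ'c
  obtain ⟨R, hRdef⟩ : ∃ R, R = 1 + d * ρ' := ⟨_, rfl⟩
  obtain ⟨M, hMdef⟩ : ∃ M, M = m * g := ⟨_, rfl⟩
  have hM : 0 < M := hMdef ▸ Nat.mul_pos hm0 hg0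
  have hRr : R ≡ r [MOD m] := by
    rw [hr, hmd, hRdef]
    exact Nat.ModEq.add_left 1 (Nat.ModEq.mul_left' d hρ'm)
  have hSs := sum_modEq hRr n
  have hdS : μ * g ∣ ∑ i ∈ Finset.range n, R ^ i := by
    have h1 : μ * g ∣ m := by
      rw [hmd, mul_comm d μ]
      exact mul_dvd_mul_left μ hgd
    have h2 : μ * g ∣ ∑ i ∈ Finset.range n, r ^ i := by
      rw [hs]
      exact mul_dvd_mul_left μ hgj
    exact (hSs.dvd_iff h1).2 h2
  obtain ⟨c, hc⟩ := hdS
  have hRn : R ^ n ≡ 1 [MOD M] := by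
    have h1 : R ^ n = 1 + (d * ρ') * ∑ i ∈ Finset.range n, R ^ i := hRdef ▸ pow_expand d ρ' n
    have h2 : R ^ n = 1 + M * (ρ' * c) := by
      rw [h1, hc, hMdef, hmd]; ring
    rw [h2]
    change (1 + M * (ρ' * c)) % M = 1 % M
    rw [Nat.add_mul_mod_self_left]
  obtain ⟨l', hl'⟩ := hgl
  have hRt : R * t ≡ t [MOD M] := by
    have h2 : R * t = t + M * (ρ' * l') := by
      rw [htl, hl', hMdef, hmd, hRdef]; ring
    rw [h2]
    change (t + M * (ρ' * l')) % M = t % M
    rw [Nat.add_mul_mod_self_left]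
  -- the cover
  let Γ := PresentedGroup (rels0 M n R t)
  let a : Γ := PresentedGroup.of true
  let b : Γ := PresentedGroup.of false
  have ha1 : a ^ M = 1 := abar_pow
  have ha2 : b * a * b⁻¹ = a ^ R := conj_bar
  have ha3 : b ^ n = a ^ t := bbar_pow
  have hgen : closure ({a, b} : Set Γ) = ⊤ := closure_ab _
  have hfin : Finite Γ := finite_of_rel a b hgen hM hn ha1 ha2 ha3
  obtain ⟨X, A, B, hA1, hA2, hA3, hAo⟩ := model M n R t hM hn hRn hRt
  obtain ⟨θ, hθa, -⟩ := hom_rels0 (m := M) (n := n) (r := R) (t := t) A B hA1 hA3 hA2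
  have hao : orderOf a = M := by
    have h := orderOf_map_dvd θ a
    change orderOf (θ (PresentedGroup.of true)) ∣ orderOf a at h
    rw [hθa, hAo] at h
    exact Nat.dvd_antisymm (orderOf_dvd_of_pow_eq_one ha1) h
  -- the target
  let abar : PresentedGroup (rels0 m n r t) := PresentedGroup.of true
  let bbar : PresentedGroup (rels0 m n r t) := PresentedGroup.of false
  have hb1 : abar ^ m = 1 := abar_pow
  have hb3 : bbar ^ n = abar ^ t := bbar_pow
  have hb2 : bbar * abar * bbar⁻¹ = abar ^ r := conj_bar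
  obtain ⟨σ, hσa, hσb⟩ := hom_rels0 (m := M) (n := n) (r := R) (t := t) abar bbar
    (by rw [hMdef, pow_mul, hb1, one_pow]) hb3 (by rw [hb2]; exact pow_congr_mod hb1 hRr.symm)
  -- `a ^ m` is central
  have hcent : ∀ g' : Γ, a ^ m * g' = g' * a ^ m := by
    have hba : b * a ^ m = a ^ m * b := by
      rw [comm_pow_step a b ha2]
      congr 1
      apply pow_congr_mod ha1
      obtain ⟨d', hd'⟩ := hgd
      have h2 : R * m = m + M * (d' * ρ') := by
        rw [hRdef, hMdef, hd']; ring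
      rw [h2]
      change (m + M * (d' * ρ')) % M = m % M
      rw [Nat.add_mul_mod_self_left]
    have hle : closure ({a, b} : Set Γ) ≤ centralizer ({a ^ m} : Set Γ) := by
      rw [closure_le]
      rintro y (rfl | rfl)
      · exact mem_centralizer_singleton_iff.2 (by rw [← pow_succ, ← pow_succ'])
      · exact mem_centralizer_singleton_iff.2 hba
    intro g'
    have h1 : g' ∈ centralizer ({a ^ m} : Set Γ) := hle (by rw [hgen]; trivial)
    exact (mem_centralizer_singleton_iff.1 h1).symm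
  let N : Subgroup Γ := zpowers (a ^ m)
  have hNc : N ≤ center Γ := by
    apply (zpowers_le (H := center Γ)).2
    rw [mem_center_iff]
    intro g'
    exact (hcent g').symm
  haveI hNn : N.Normal := by
    refine ⟨fun y hy g' => ?_⟩
    have h5 := mem_center_iff.1 (hNc hy) g'
    rw [h5]
    simpa using hy
  -- the inverse
  have hq1 : ((a : Γ) : Γ ⧸ N) ^ m = 1 := by
    rw [← QuotientGroup.mk_pow, QuotientGroup.eq_one_iff]
    exact mem_zpowers _
  obtain ⟨τ, hτa, hτb⟩ := hom_rels0 (m := m) (n := n) (r := r) (t := t) ((a : Γ) : Γ ⧸ N)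
    ((b : Γ) : Γ ⧸ N) hq1 (by rw [← QuotientGroup.mk_pow, ha3, QuotientGroup.mk_pow])
    (by
      have h1 : ((b : Γ) : Γ ⧸ N) * (a : Γ) * ((b : Γ) : Γ ⧸ N)⁻¹ = ((a : Γ) : Γ ⧸ N) ^ R := by
        rw [← QuotientGroup.mk_pow, ← ha2]
        rfl
      rw [h1]
      exact pow_congr_mod hq1 hRr)
  have hτσ : τ.comp σ = QuotientGroup.mk' N := by
    apply PresentedGroup.ext
    intro c
    cases c
    · rw [MonoidHom.comp_apply, hσb, hτb]; rfl
    · rw [MonoidHom.comp_apply, hσa, hτa]; rfl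
  have hker : σ.ker = N := by
    apply le_antisymm
    · intro y hy
      have h1 : τ (σ y) = QuotientGroup.mk' N y := DFunLike.congr_fun hτσ y
      rw [MonoidHom.mem_ker.1 hy, map_one] at h1
      exact (QuotientGroup.eq_one_iff y).1 h1.symm
    · apply (zpowers_le (H := σ.ker)).2
      rw [MonoidHom.mem_ker, map_pow]
      change σ (PresentedGroup.of true) ^ m = 1
      rw [hσa]
      exact hb1
  have hsurj : Function.Surjective σ := by
    rw [← MonoidHom.range_eq_top, eq_top_iff, ← closure_ab (rels0 m n r t), closure_le]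
    rintro y (rfl | rfl)
    · exact ⟨_, hσa⟩
    · exact ⟨_, hσb⟩
  have hoam : orderOf (a ^ m) = g := by
    rw [orderOf_pow_of_dvd hm0.ne' (by rw [hao, hMdef]; exact dvd_mul_right m g), hao, hMdef,
      Nat.mul_div_cancel_left _ hm0]
  have hcomm : σ.ker ≤ _root_.commutator Γ := by
    rw [hker]
    apply (zpowers_le (H := _root_.commutator Γ)).2
    have h1 : ⁅b, a⁆ ∈ _root_.commutator Γ := by
      rw [_root_.commutator_def]
      exact Subgroup.commutator_mem_commutator (mem_top _) (mem_top _)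
    have h2 : ⁅b, a⁆ = a ^ (d * ρ') := by
      rw [commutatorElement_def, ha2]
      exact pow_mul_inv_of_eq a hRdef
    have h3 : (a ^ (d * ρ')) ^ μ = (a ^ m) ^ ρ' := by
      rw [← pow_mul, ← pow_mul]
      congr 1
      rw [hmd]
      ring
    have h4 : (a ^ m) ^ ρ' ∈ _root_.commutator Γ := by
      rw [← h3, ← h2]
      exact pow_mem h1 _
    obtain ⟨e, he⟩ := exists_pow_eq_self_of_coprime (x := a ^ m) (n := ρ') (by rw [hoam]; exact hρ'g)
    rw [← he]
    exact pow_mem h4 _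
  refine ⟨Γ, inferInstance, hfin, σ, ⟨hsurj, hker ▸ hNc, hcomm⟩, ?_⟩
  have hcard : Nat.card N = g := by
    change Nat.card (zpowers (a ^ m)) = g
    rw [Nat.card_zpowers, hoam]
  have e' := zmodCyclicMulEquiv (inferInstance : IsCyclic N)
  rw [hcard] at e'
  exact ⟨(MulEquiv.subgroupCongr hker).trans e'.symm⟩

theorem main (m n r l : ℕ) (hm : 0 < m) (hn : 0 < n) (hr : 0 < r) (hrn : r ^ n ≡ 1 [MOD m]) :
    Cfsg.HasCyclicSchurMultiplier (PresentedGroup (rels0 m n r (m * l / Nat.gcd m (r - 1))))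
      (Nat.gcd l (Nat.gcd m (r - 1) * Nat.gcd m (∑ i ∈ Finset.range n, r ^ i) / m)) := by
  obtain ⟨d, μ, ρ, j, hd, hμ, hmd, hrd, hcop, hs, hrn', hg1, hg2⟩ := numerics m n r hm hr hrn
  have ht : m * l / Nat.gcd m (r - 1) = μ * l := by
    rw [hg1, hmd, mul_assoc, Nat.mul_div_cancel_left _ hd]
  have hh : Nat.gcd m (r - 1) * Nat.gcd m (∑ i ∈ Finset.range n, r ^ i) / m = Nat.gcd d j := by
    rw [hg1, hg2, hmd, ← mul_assoc, Nat.mul_div_cancel_left _ (Nat.mul_pos hd hμ)]
  rw [ht, hh]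
  refine ⟨lower hn hμ hd hmd hrd hcop hs rfl rfl, fun Γ _ _ σ hσ => ?_⟩
  exact upper hn hμ hd hmd hrd hcop hs hrn' rfl rfl σ hσ

end Cfsg.Agent.H19.Meta
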