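import Mathlib
import Cfsg.Agent.Lib.H20.FrobGen

set_option autoImplicit false

namespace Cfsg.Agent.H19.Nse

variable (G : Type*) [Group G]

/-- number of elements of order `m`. -/
noncomputable def cnt (m : ℕ) : ℕ := Nat.card {g : G // orderOf g = m}

variable {G}

lemma cnt_ne_zero_iff [Finite G] {m : ℕ} : cnt G m ≠ 0 ↔ ∃ g : G, orderOf g = m := by
  unfold cnt
  rw [Ne, Nat.card_eq_zero]
  constructor
  · intro h
    by_contra hne
    apply h
    left
    exact ⟨fun x => hne ⟨x.1, x.2⟩⟩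
  · rintro ⟨g, hg⟩ (h | h)
    · exact h.false ⟨g, hg⟩
    · exact h.false

lemma cnt_one [Finite G] : cnt G 1 = 1 := by
  unfold cnt
  rw [Nat.card_eq_one_iff_unique]
  refine ⟨⟨fun a b => ?_⟩, ⟨⟨1, orderOf_one⟩⟩⟩
  apply Subtype.ext
  rw [orderOf_eq_one_iff.1 a.2, orderOf_eq_one_iff.1 b.2]

lemma dvd_card_of_cnt [Finite G] {m : ℕ} (h : cnt G m ≠ 0) : m ∣ Nat.card G := by
  obtain ⟨g, rfl⟩ := cnt_ne_zero_iff.1 h
  exact orderOf_dvd_natCard g

lemma cnt_prime_ne_zero [Finite G] {p : ℕ} (hp : p.Prime) (h : p ∣ Nat.card G) : cnt G p ≠ 0 := by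
  haveI := Fact.mk hp
  obtain ⟨x, hx⟩ := exists_prime_orderOf_dvd_card' p h
  exact cnt_ne_zero_iff.2 ⟨x, hx⟩

lemma cnt_even [Finite G] {m : ℕ} (hm : 3 ≤ m) : Even (cnt G m) := by
  classical
  haveI := Fintype.ofFinite G
  let σ : Equiv.Perm {g : G // orderOf g = m} :=
    { toFun := fun x => ⟨x.1⁻¹, by rw [orderOf_inv]; exact x.2⟩
      invFun := fun x => ⟨x.1⁻¹, by rw [orderOf_inv]; exact x.2⟩
      left_inv := fun x => by simp
      right_inv := fun x => by simp }
  have hσ : σ ^ 2 = 1 := by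
    ext x
    simp [σ, sq]
  have h2 := Equiv.Perm.two_dvd_card_support hσ
  have hs : σ.support = Finset.univ := by
    ext x
    simp only [Equiv.Perm.mem_support, Finset.mem_univ, iff_true]
    intro hx
    have h1 : x.1⁻¹ = x.1 := congrArg Subtype.val hx
    have h3 : x.1 ^ 2 = 1 := by
      rw [sq]
      nth_rw 1 [← h1]
      simp
    have h4 := orderOf_dvd_of_pow_eq_one h3
    rw [x.2] at h4
    have := Nat.le_of_dvd (by norm_num) h4
    omega
  rw [hs, Finset.card_univ] at h2
  unfold cnt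
  rw [Nat.card_eq_fintype_card]
  exact even_iff_two_dvd.2 h2

lemma sum_divisors_eq [Finite G] {d : ℕ} (hd : d ≠ 0) :
    ∑ m ∈ d.divisors, cnt G m = Nat.card {x : G // x ^ d = 1} := by
  classical
  haveI := Fintype.ofFinite G
  unfold cnt
  simp only [Nat.card_eq_fintype_card, Fintype.card_subtype]
  rw [Finset.card_eq_sum_card_fiberwise (f := orderOf) (t := d.divisors)]
  · apply Finset.sum_congr rfl
    intro m hm
    congr 1
    ext x
    simp only [Finset.mem_filter, Finset.mem_univ, true_and]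
    constructor
    · intro h
      refine ⟨?_, h⟩
      exact orderOf_dvd_iff_pow_eq_one.1 (h ▸ Nat.dvd_of_mem_divisors hm)
    · exact fun h => h.2
  · intro x hx
    simp only [Finset.coe_filter, Finset.mem_univ, true_and, Set.mem_setOf_eq] at hx
    simp only [Finset.mem_coe, Nat.mem_divisors]
    exact ⟨orderOf_dvd_of_pow_eq_one hx, hd⟩

lemma frob [Finite G] {d : ℕ} (hd : d ∣ Nat.card G) (hd0 : d ≠ 0) :
    d ∣ ∑ m ∈ d.divisors, cnt G m := by
  rw [sum_divisors_eq hd0]
  have := Cfsg.Agent.H20.gcd_dvd_central (X := G) 1 (Subgroup.one_mem _) d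
  rwa [Nat.gcd_eq_left hd] at this

lemma sum_le_card [Finite G] (M : Finset ℕ) : ∑ m ∈ M, cnt G m ≤ Nat.card G := by
  classical
  haveI := Fintype.ofFinite G
  unfold cnt
  simp only [Nat.card_eq_fintype_card, Fintype.card_subtype]
  have h : ∑ m ∈ M, (Finset.univ.filter (fun x : G => orderOf x = m)).card
      = (Finset.univ.filter (fun x : G => orderOf x ∈ M)).card := by
    rw [Finset.card_eq_sum_card_fiberwise (f := orderOf) (t := M)]
    · apply Finset.sum_congr rfl
      intro m hm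
      congr 1
      ext x
      simp only [Finset.mem_filter, Finset.mem_univ, true_and]
      exact ⟨fun h => ⟨h ▸ hm, h⟩, fun h => h.2⟩
    · intro x hx
      simpa using hx
  rw [h]
  exact (Finset.card_le_univ _)

lemma sum_div_prime_mul {α : Type*} [AddCommMonoid α] (f : ℕ → α) {p d : ℕ} (hp : p.Prime)
    (h : ¬ p ∣ d) :
    ∑ m ∈ (p * d).divisors, f m = ∑ m ∈ d.divisors, f m + ∑ m ∈ d.divisors, f (p * m) := by
  classical
  have hd : d ≠ 0 := fun h0 => h (h0 ▸ dvd_zero p)
  have hp0 : p ≠ 0 := hp.ne_zero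
  have hu : (p * d).divisors = d.divisors ∪ d.divisors.image (fun m => p * m) := by
    ext m
    simp only [Nat.mem_divisors, Finset.mem_union, Finset.mem_image, ne_eq, mul_eq_zero, hp0, hd,
      or_self, not_false_eq_true, and_true]
    constructor
    · intro hm
      by_cases hpm : p ∣ m
      · obtain ⟨k, rfl⟩ := hpm
        right
        exact ⟨k, Nat.dvd_of_mul_dvd_mul_left hp.pos hm, rfl⟩
      · left
        exact ((Nat.Prime.coprime_iff_not_dvd hp).2 hpm).symm.dvd_of_dvd_mul_left hm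
    · rintro (hm | ⟨k, hk, rfl⟩)
      · exact Dvd.dvd.mul_left hm p
      · exact Nat.mul_dvd_mul_left p hk
  have hdisj : Disjoint d.divisors (d.divisors.image (fun m => p * m)) := by
    rw [Finset.disjoint_left]
    intro m hm hm2
    obtain ⟨k, _, rfl⟩ := Finset.mem_image.1 hm2
    exact h ((Dvd.intro _ rfl).trans (Nat.dvd_of_mem_divisors hm))
  rw [hu, Finset.sum_union hdisj, Finset.sum_image]
  intro a _ b _ hab
  exact Nat.eq_of_mul_eq_mul_left hp.pos hab

/-- conjugation action on elements of order `m`. -/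
def conjAct (P : Subgroup G) (m : ℕ) : MulAction P {g : G // orderOf g = m} where
  smul u x := ⟨(u : G) * x.1 * (u : G)⁻¹, by
    have := MulEquiv.orderOf_eq (MulAut.conj (u : G)) x.1
    rw [MulAut.conj_apply] at this
    rw [this]; exact x.2⟩
  one_smul x := by
    apply Subtype.ext
    change ((1 : P) : G) * x.1 * ((1 : P) : G)⁻¹ = x.1
    simp
  mul_smul u v x := by
    apply Subtype.ext
    change ((u * v : P) : G) * x.1 * ((u * v : P) : G)⁻¹ = (u : G) * ((v : G) * x.1 * (v : G)⁻¹) * (u : G)⁻¹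
    simp [mul_assoc]

lemma exists_fixed [Finite G] {p m : ℕ} (hp : p.Prime) (P : Sylow p G) (h : ¬ p ∣ cnt G m) :
    ∃ x : G, orderOf x = m ∧ ∀ u ∈ (P : Subgroup G), Commute u x := by
  haveI := Fact.mk hp
  letI := conjAct (P : Subgroup G) m
  have h1 := IsPGroup.card_modEq_card_fixedPoints P.isPGroup' (p := p) {g : G // orderOf g = m}
  by_contra hne
  have h2 : IsEmpty (MulAction.fixedPoints (↥(P : Subgroup G)) {g : G // orderOf g = m}) := by
    refine ⟨fun x => hne ⟨x.1.1, x.1.2, fun u hu => ?_⟩⟩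
    have h3 := x.2 ⟨u, hu⟩
    have h4 : u * x.1.1 * u⁻¹ = x.1.1 := congrArg Subtype.val h3
    exact mul_inv_eq_iff_eq_mul.1 h4
  have h3 : Nat.card (MulAction.fixedPoints (↥(P : Subgroup G)) {g : G // orderOf g = m}) = 0 :=
    Nat.card_of_isEmpty
  rw [h3] at h1
  apply h
  exact (Nat.modEq_zero_iff_dvd).1 h1

lemma conj_into_sylow [Finite G] {p : ℕ} (hp : p.Prime) (P : Sylow p G) {t : G}
    (ht : orderOf t = p) : ∃ g : G, g * t * g⁻¹ ∈ (P : Subgroup G) := by
  haveI := Fact.mk hp
  have h1 : IsPGroup p (Subgroup.zpowers t) := by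
    apply IsPGroup.of_card (n := 1)
    rw [Nat.card_zpowers, ht, pow_one]
  obtain ⟨Q, hQ⟩ := h1.exists_le_sylow
  obtain ⟨g, hg⟩ := MulAction.exists_smul_eq G Q P
  refine ⟨g, ?_⟩
  rw [← hg, Sylow.coe_subgroup_smul]
  rw [Subgroup.mem_pointwise_smul_iff_inv_smul_mem]
  have : (MulAut.conj g)⁻¹ • (g * t * g⁻¹) = t := by
    simp [MulAut.smul_def]
    group
  rw [this]
  exact hQ (Subgroup.mem_zpowers t)

/-- if some element of order `m` commutes with a Sylow `p`-subgroup, every element of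
order `p` commutes with an element of order `m`. -/
lemma commute_of_fixed [Finite G] {p m : ℕ} (hp : p.Prime) (P : Sylow p G) {x : G}
    (hx : orderOf x = m) (hc : ∀ u ∈ (P : Subgroup G), Commute u x) {t : G} (ht : orderOf t = p) :
    ∃ y : G, orderOf y = m ∧ Commute t y := by
  obtain ⟨g, hg⟩ := conj_into_sylow hp P ht
  refine ⟨g⁻¹ * x * g, ?_, ?_⟩
  · have := MulEquiv.orderOf_eq (MulAut.conj g⁻¹) x
    rw [MulAut.conj_apply, inv_inv] at this
    rw [this, hx]
  · have h1 := (hc _ hg).eq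
    change t * (g⁻¹ * x * g) = g⁻¹ * x * g * t
    calc t * (g⁻¹ * x * g) = g⁻¹ * ((g * t * g⁻¹) * x) * g := by group
      _ = g⁻¹ * (x * (g * t * g⁻¹)) * g := by rw [h1]
      _ = g⁻¹ * x * g * t := by group

/-- key lower bound. -/
lemma two_mul_le [Finite G] {p m : ℕ} (hp : p.Prime) (hm : 3 ≤ m) (hco : Nat.Coprime p m)
    (hfix : ∀ t : G, orderOf t = p → ∃ y : G, orderOf y = m ∧ Commute t y) :
    2 * cnt G p ≤ cnt G (p * m) := by
  classical
  choose y hy1 hy2 using hfix
  let F : {t : G // orderOf t = p} × Bool → {g : G // orderOf g = p * m} := fun z =>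
    ⟨z.1.1 * (if z.2 then y z.1.1 z.1.2 else (y z.1.1 z.1.2)⁻¹), by
      have h0 : Commute z.1.1 (if z.2 then y z.1.1 z.1.2 else (y z.1.1 z.1.2)⁻¹) := by
        split_ifs
        · exact hy2 _ _
        · exact (hy2 _ _).inv_right
      have h1 : orderOf (if z.2 then y z.1.1 z.1.2 else (y z.1.1 z.1.2)⁻¹) = m := by
        split_ifs
        · exact hy1 _ _
        · rw [orderOf_inv]; exact hy1 _ _
      rw [h0.orderOf_mul_eq_mul_orderOf_of_coprime (by rw [z.1.2, h1]; exact hco), z.1.2, h1]⟩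
  have hinj : Function.Injective F := by
    rintro ⟨⟨t, ht⟩, e⟩ ⟨⟨t', ht'⟩, e'⟩ hF
    have hF' : t * (if e then y t ht else (y t ht)⁻¹) = t' * (if e' then y t' ht' else (y t' ht')⁻¹) :=
      congrArg Subtype.val hF
    obtain ⟨k, hk1, hk2⟩ := Nat.chineseRemainder hco 1 0
    have key : ∀ (s w : G), orderOf s = p → orderOf w = m → Commute s w → (s * w) ^ k = s := by
      intro s w hs hw hc
      rw [hc.mul_pow]
      have h1 : s ^ k = s ^ 1 := pow_eq_pow_iff_modEq.2 (hs ▸ hk1)
      have h2 : w ^ k = w ^ 0 := pow_eq_pow_iff_modEq.2 (hw ▸ hk2)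
      rw [h1, h2]; simp
    have hord : ∀ (t : G) (ht : orderOf t = p) (e : Bool),
        orderOf (if e then y t ht else (y t ht)⁻¹) = m := by
      intro t ht e
      split_ifs
      · exact hy1 _ _
      · rw [orderOf_inv]; exact hy1 _ _
    have hcom : ∀ (t : G) (ht : orderOf t = p) (e : Bool),
        Commute t (if e then y t ht else (y t ht)⁻¹) := by
      intro t ht e
      split_ifs
      · exact hy2 _ _
      · exact (hy2 _ _).inv_right
    have h1 := key t _ ht (hord t ht e) (hcom t ht e)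
    have h2 := key t' _ ht' (hord t' ht' e') (hcom t' ht' e')
    rw [hF'] at h1
    have htt : t = t' := h1.symm.trans h2
    subst htt
    have h3 := mul_left_cancel hF'
    have hne : y t ht ≠ (y t ht)⁻¹ := by
      intro h
      have h4 : (y t ht) ^ 2 = 1 := by
        rw [sq]; nth_rw 1 [h]; simp
      have h5 := orderOf_dvd_of_pow_eq_one h4
      rw [hy1] at h5
      have := Nat.le_of_dvd (by norm_num) h5
      omega
    have hee : e = e' := by
      cases e <;> cases e' <;> simp_all
    subst hee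
    rfl
  have := Nat.card_le_card_of_injective F hinj
  rw [Nat.card_prod, Nat.card_eq_fintype_card (α := Bool), Fintype.card_bool] at this
  unfold cnt
  linarith

/-- unique involution: doubling odd orders. -/
lemma cnt_two_mul [Finite G] {z : G} (hz : orderOf z = 2) (huniq : ∀ g : G, orderOf g = 2 → g = z)
    {m : ℕ} (hm : Odd m) : cnt G (m * 2) = cnt G m := by
  have hcent : ∀ g : G, Commute z g := by
    intro g
    have h1 : orderOf (g * z * g⁻¹) = 2 := by
      have := MulEquiv.orderOf_eq (MulAut.conj g) z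
      rw [MulAut.conj_apply] at this
      rw [this, hz]
    have h2 := huniq _ h1
    exact (mul_inv_eq_iff_eq_mul.1 h2).symm
  have hz2 : z * z = 1 := by
    have := pow_orderOf_eq_one z
    rw [hz, sq] at this
    exact this
  have hco : Nat.Coprime m 2 := Nat.coprime_two_right.2 hm
  unfold cnt
  apply Nat.card_congr
  refine ⟨fun x => ⟨z * x.1, ?_⟩, fun x => ⟨z * x.1, ?_⟩, ?_, ?_⟩
  · -- order m
    have hx := x.2
    have h1 : x.1 ^ m = z := by
      apply huniq
      have h2 : orderOf (x.1 ^ m) = (m * 2) / Nat.gcd (m * 2) m := by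
        rw [orderOf_pow, hx]
      rw [h2, Nat.gcd_eq_right (Dvd.intro _ rfl), Nat.mul_div_cancel_left _ hm.pos]
    have h3 : (z * x.1) ^ m = 1 := by
      rw [(hcent x.1).mul_pow, h1]
      obtain ⟨k, hk⟩ := hm
      rw [hk, pow_succ, pow_mul, sq, hz2, one_pow, one_mul, hz2]
    have h4 := orderOf_dvd_of_pow_eq_one h3
    have h5 : Nat.Coprime (orderOf (z * x.1)) 2 := Nat.Coprime.coprime_dvd_left h4 hco
    have h6 : orderOf (z * (z * x.1)) = 2 * orderOf (z * x.1) := by
      rw [(hcent _).orderOf_mul_eq_mul_orderOf_of_coprime (by rw [hz]; exact h5.symm), hz]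
    rw [← mul_assoc, hz2, one_mul, hx] at h6
    omega
  · -- order 2 m
    have hx := x.2
    rw [(hcent x.1).orderOf_mul_eq_mul_orderOf_of_coprime (by rw [hz, hx]; exact hco.symm), hz, hx,
      mul_comm]
  · intro x
    apply Subtype.ext
    change z * (z * x.1) = x.1
    rw [← mul_assoc, hz2, one_mul]
  · intro x
    apply Subtype.ext
    change z * (z * x.1) = x.1
    rw [← mul_assoc, hz2, one_mul]

end Cfsg.Agent.H19.Nse
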