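import Cfsg.Agent.Lib.H19.Nse1

set_option autoImplicit false

namespace Cfsg.Agent.H19.Nse

section sums

lemma sum_two (f : ℕ → ℕ) {p q : ℕ} (hp : p.Prime) (hq : q.Prime) (hne : p ≠ q) :
    ∑ m ∈ (p * q).divisors, f m = f 1 + f p + f q + f (p * q) := by
  have hpq : ¬ p ∣ q := fun h => hne ((Nat.prime_dvd_prime_iff_eq hp hq).1 h)
  rw [sum_div_prime_mul f hp hpq, Nat.Prime.sum_divisors hq, Nat.Prime.sum_divisors hq, mul_one]
  ring

lemma sum_three (f : ℕ → ℕ) {p q r : ℕ} (hp : p.Prime) (hq : q.Prime) (hr : r.Prime) (hpq : p ≠ q)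
    (hpr : p ≠ r) (hqr : q ≠ r) :
    ∑ m ∈ (p * (q * r)).divisors, f m =
      f 1 + f p + f q + f r + f (p * q) + f (p * r) + f (q * r) + f (p * (q * r)) := by
  have h : ¬ p ∣ q * r := by
    intro h
    rcases (Nat.Prime.dvd_mul hp).1 h with h | h
    · exact hpq ((Nat.prime_dvd_prime_iff_eq hp hq).1 h)
    · exact hpr ((Nat.prime_dvd_prime_iff_eq hp hr).1 h)
  rw [sum_div_prime_mul f hp h, sum_two f hq hr hqr, sum_two (fun m => f (p * m)) hq hr hqr, mul_one]
  ring

lemma sum_four (f : ℕ → ℕ) : ∑ m ∈ (4 : ℕ).divisors, f m = f 1 + f 2 + f 4 := by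
  have : (4 : ℕ).divisors = {1, 2, 4} := by decide
  rw [this]
  simp [Finset.sum_insert]
  ring

lemma sum_eight (f : ℕ → ℕ) : ∑ m ∈ (8 : ℕ).divisors, f m = f 1 + f 2 + f 4 + f 8 := by
  have : (8 : ℕ).divisors = {1, 2, 4, 8} := by decide
  rw [this]
  simp [Finset.sum_insert]
  ring

lemma sum_four_mul (f : ℕ → ℕ) {p : ℕ} (hp : p.Prime) (h2 : p ≠ 2) :
    ∑ m ∈ (p * 4).divisors, f m = f 1 + f 2 + f 4 + f p + f (p * 2) + f (p * 4) := by
  have h : ¬ p ∣ 4 := by
    intro h
    have : p ∣ 2 ^ 2 := by simpa using h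
    exact h2 ((Nat.prime_dvd_prime_iff_eq hp Nat.prime_two).1 (hp.dvd_of_dvd_pow this))
  rw [sum_div_prime_mul f hp h, sum_four f, sum_four (fun m => f (p * m)), mul_one]
  ring

lemma sum_eight_mul (f : ℕ → ℕ) {p : ℕ} (hp : p.Prime) (h2 : p ≠ 2) :
    ∑ m ∈ (p * 8).divisors, f m =
      f 1 + f 2 + f 4 + f 8 + f p + f (p * 2) + f (p * 4) + f (p * 8) := by
  have h : ¬ p ∣ 8 := by
    intro h
    have : p ∣ 2 ^ 3 := by simpa using h
    exact h2 ((Nat.prime_dvd_prime_iff_eq hp Nat.prime_two).1 (hp.dvd_of_dvd_pow this))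
  rw [sum_div_prime_mul f hp h, sum_eight f, sum_eight (fun m => f (p * m)), mul_one]
  ring

end sums

variable {G : Type*} [Group G] [Finite G]

lemma frob_z {d r : ℕ} (hd : d ∣ Nat.card G) (hd0 : d ≠ 0) (hr : r ∣ d) :
    ((∑ m ∈ d.divisors, cnt G m : ℕ) : ZMod r) = 0 :=
  (ZMod.natCast_eq_zero_iff _ _).2 (hr.trans (frob hd hd0))

lemma z_prime {p : ℕ} (hp : p.Prime) (h : p ∣ Nat.card G) : ((cnt G p : ℕ) : ZMod p) = -1 := by
  have h1 := frob_z (G := G) h hp.ne_zero (dvd_refl p)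
  rw [Nat.Prime.sum_divisors hp, cnt_one] at h1
  push_cast at h1
  linear_combination h1

lemma one_ne_neg_one' {p : ℕ} (hp : p.Prime) (hp3 : 3 ≤ p) : (1 : ZMod p) ≠ -1 := by
  haveI : Fact (2 < p) := ⟨by omega⟩
  exact (ZMod.neg_one_ne_one).symm

lemma fix_count {p m : ℕ} (hp : p.Prime) (hm : 3 ≤ m) (hco : Nat.Coprime p m)
    (hn : ¬ p ∣ cnt G m) : 2 * cnt G p ≤ cnt G (p * m) := by
  obtain ⟨P⟩ : Nonempty (Sylow p G) := inferInstance
  obtain ⟨x, hx, hc⟩ := exists_fixed hp P hn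
  exact two_mul_le hp hm hco (fun t ht => commute_of_fixed hp P hx hc ht)

lemma mul_dvd_card {p q : ℕ} (hp : p.Prime) (hq : q.Prime) (hne : p ≠ q) (hpG : p ∣ Nat.card G)
    (hqG : q ∣ Nat.card G) : p * q ∣ Nat.card G :=
  Nat.Coprime.mul_dvd_of_dvd_of_dvd ((Nat.coprime_primes hp hq).2 hne) hpG hqG

section core

variable {a b : ℕ}

lemma share_pq (hv : ∀ m, 3 ≤ m → cnt G m ≠ 0 → cnt G m = a ∨ cnt G m = b)
    {p q : ℕ} (hp : p.Prime) (hq : q.Prime) (hp3 : 3 ≤ p) (hq3 : 3 ≤ q) (hne : p ≠ q)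
    (hpG : p ∣ Nat.card G) (hqG : q ∣ Nat.card G) (hpa : cnt G p = a) (hqa : cnt G q = a) :
    cnt G (p * q) = b ∧ ((b : ℕ) : ZMod p) = 1 := by
  haveI := Fact.mk hp
  have h1 := frob_z (G := G) (mul_dvd_card hp hq hne hpG hqG) (mul_ne_zero hp.ne_zero hq.ne_zero)
    (Dvd.intro _ rfl : p ∣ p * q)
  rw [sum_two _ hp hq hne, cnt_one, hpa, hqa] at h1
  push_cast at h1
  have h2 : ((a : ℕ) : ZMod p) = -1 := hpa ▸ z_prime hp hpG
  have h3 : ((cnt G (p * q) : ℕ) : ZMod p) = 1 := by
    rw [h2] at h1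
    linear_combination h1
  have h4 : cnt G (p * q) ≠ 0 := by
    intro h0
    rw [h0] at h3
    simp at h3
  have hpq3 : 3 ≤ p * q := by nlinarith
  rcases hv _ hpq3 h4 with h5 | h5
  · exfalso
    rw [h5, h2] at h3
    exact one_ne_neg_one' hp hp3 h3.symm
  · refine ⟨h5, ?_⟩
    rw [← h5]; exact h3

lemma no_sq (hv : ∀ m, 3 ≤ m → cnt G m ≠ 0 → cnt G m = a ∨ cnt G m = b)
    {p : ℕ} (hp : p.Prime) (hp3 : 3 ≤ p) (hpG : p ∣ Nat.card G) (hpa : cnt G p = a)
    (hb : ((b : ℕ) : ZMod p) = 1) : cnt G (p ^ 2) = 0 := by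
  haveI := Fact.mk hp
  by_contra h0
  have h1 := frob_z (G := G) (dvd_card_of_cnt h0) (pow_ne_zero 2 hp.ne_zero)
    (Dvd.intro_left (p ^ 1) (by ring) : p ∣ p ^ 2)
  rw [Nat.sum_divisors_prime_pow hp] at h1
  simp only [Finset.sum_range_succ, Finset.sum_range_zero, pow_zero, pow_one, zero_add, cnt_one,
    hpa] at h1
  push_cast at h1
  have h2 : ((a : ℕ) : ZMod p) = -1 := hpa ▸ z_prime hp hpG
  rw [h2] at h1
  have h3 : ((cnt G (p ^ 2) : ℕ) : ZMod p) = 0 := by linear_combination h1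
  have hp23 : 3 ≤ p ^ 2 := by nlinarith
  rcases hv _ hp23 h0 with h5 | h5
  · rw [h5, h2] at h3
    simp at h3
  · rw [h5, hb] at h3
    simp at h3

lemma third_false (hv : ∀ m, 3 ≤ m → cnt G m ≠ 0 → cnt G m = a ∨ cnt G m = b)
    {p q r : ℕ} (hp : p.Prime) (hq : q.Prime) (hr : r.Prime)
    (hp3 : 3 ≤ p) (hq3 : 3 ≤ q) (hr3 : 3 ≤ r) (hpq : p ≠ q) (hpr : p ≠ r) (hqr : q ≠ r)
    (hpG : p ∣ Nat.card G) (hqG : q ∣ Nat.card G) (hrG : r ∣ Nat.card G)
    (hpa : cnt G p = a) (hqa : cnt G q = a) (hrb : cnt G r = b) : False := by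
  haveI := Fact.mk hp
  haveI := Fact.mk hq
  haveI := Fact.mk hr
  obtain ⟨hpqb, hbp⟩ := share_pq hv hp hq hp3 hq3 hpq hpG hqG hpa hqa
  obtain ⟨_, hbq⟩ := share_pq hv hq hp hq3 hp3 hpq.symm hqG hpG hqa hpa
  have hap : ((a : ℕ) : ZMod p) = -1 := hpa ▸ z_prime hp hpG
  have haq : ((a : ℕ) : ZMod q) = -1 := hqa ▸ z_prime hq hqG
  have hbr : ((b : ℕ) : ZMod r) = -1 := hrb ▸ z_prime hr hrG
  -- the pair (p, r)
  have pair : ∀ {s : ℕ} (hs : s.Prime) (hs3 : 3 ≤ s) (hsr : s ≠ r) (hsG : s ∣ Nat.card G)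
      (hsa : cnt G s = a) (has : ((a : ℕ) : ZMod s) = -1) (hbs : ((b : ℕ) : ZMod s) = 1),
      cnt G (s * r) = a ∧ ((a : ℕ) : ZMod r) = 0 := by
    intro s hs hs3 hsr hsG hsa has hbs
    haveI := Fact.mk hs
    have h1 := frob_z (G := G) (mul_dvd_card hs hr hsr hsG hrG) (mul_ne_zero hs.ne_zero hr.ne_zero)
      (Dvd.intro _ rfl : s ∣ s * r)
    rw [sum_two _ hs hr hsr, cnt_one, hsa, hrb] at h1
    push_cast at h1
    rw [has, hbs] at h1
    have h3 : ((cnt G (s * r) : ℕ) : ZMod s) = -1 := by linear_combination h1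
    have h4 : cnt G (s * r) ≠ 0 := by
      intro h0
      rw [h0] at h3
      simp at h3
    have hsr3 : 3 ≤ s * r := by nlinarith
    have h5 : cnt G (s * r) = a := by
      rcases hv _ hsr3 h4 with h5 | h5
      · exact h5
      · exfalso
        rw [h5, hbs] at h3
        exact one_ne_neg_one' hs hs3 h3
    refine ⟨h5, ?_⟩
    have h6 := frob_z (G := G) (mul_dvd_card hs hr hsr hsG hrG) (mul_ne_zero hs.ne_zero hr.ne_zero)
      (Dvd.intro_left _ rfl : r ∣ s * r)
    rw [sum_two _ hs hr hsr, cnt_one, hsa, hrb, h5] at h6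
    push_cast at h6
    rw [hbr] at h6
    have h7 : (2 : ZMod r) * ((a : ℕ) : ZMod r) = 0 := by linear_combination h6
    have h8 : (2 : ZMod r) ≠ 0 := by
      intro h
      have h9 : ((2 : ℕ) : ZMod r) = 0 := by exact_mod_cast h
      rw [ZMod.natCast_eq_zero_iff] at h9
      have := Nat.le_of_dvd (by norm_num) h9
      omega
    exact (mul_eq_zero.1 h7).resolve_left h8
  obtain ⟨hpr', har⟩ := pair hp hp3 hpr hpG hpa hap hbp
  obtain ⟨hqr', _⟩ := pair hq hq3 hqr hqG hqa haq hbq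
  have hdvd : p * (q * r) ∣ Nat.card G := by
    apply Nat.Coprime.mul_dvd_of_dvd_of_dvd _ hpG (mul_dvd_card hq hr hqr hqG hrG)
    apply Nat.Coprime.mul_right
    · exact (Nat.coprime_primes hp hq).2 hpq
    · exact (Nat.coprime_primes hp hr).2 hpr
  have h1 := frob_z (G := G) hdvd
    (mul_ne_zero hp.ne_zero (mul_ne_zero hq.ne_zero hr.ne_zero))
    (Dvd.intro_left (p * q) (by ring) : r ∣ p * (q * r))
  rw [sum_three _ hp hq hr hpq hpr hqr, cnt_one, hpa, hqa, hrb, hpqb, hpr', hqr'] at h1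
  push_cast at h1
  rw [har, hbr] at h1
  have h3 : ((cnt G (p * (q * r)) : ℕ) : ZMod r) = 1 := by linear_combination h1
  have h4 : cnt G (p * (q * r)) ≠ 0 := by
    intro h0
    rw [h0] at h3
    simp at h3
  have h33 : 3 ≤ p * (q * r) := by
    have : 1 ≤ q * r := Nat.mul_pos hq.pos hr.pos
    nlinarith
  rcases hv _ h33 h4 with h5 | h5
  · rw [h5, har] at h3
    simp at h3
  · rw [h5, hbr] at h3
    exact one_ne_neg_one' hr hr3 h3.symm

lemma cnt_pow_zero {r : ℕ} (hr : r.Prime) (h : cnt G (r ^ 2) = 0) {x : ℕ} (hx : 2 ≤ x) :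
    cnt G (r ^ x) = 0 := by
  by_contra h0
  obtain ⟨g, hg⟩ := cnt_ne_zero_iff.1 h0
  apply cnt_ne_zero_iff.2 _ h
  refine ⟨g ^ (r ^ (x - 2)), ?_⟩
  have h1 : r ^ (x - 2) ∣ orderOf g := by
    rw [hg]
    exact pow_dvd_pow r (by omega)
  rw [orderOf_pow_of_dvd (pow_ne_zero _ hr.ne_zero) h1, hg]
  have h2 : r ^ x = r ^ (x - 2) * r ^ 2 := by
    rw [← pow_add]; congr 1; omega
  rw [h2, Nat.mul_div_cancel_left _ (pow_pos hr.pos _)]

/-- Frobenius for a Sylow with exponent `r`. -/
lemma sylow_dvd {r : ℕ} (hr : r.Prime) (h : cnt G (r ^ 2) = 0) :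
    r ^ (Nat.card G).factorization r ∣ 1 + cnt G r := by
  set v := (Nat.card G).factorization r with hv
  have hd : r ^ v ∣ Nat.card G := Nat.ordProj_dvd _ _
  have h1 := frob (G := G) hd (pow_ne_zero _ hr.ne_zero)
  rw [Nat.sum_divisors_prime_pow hr] at h1
  rcases Nat.eq_zero_or_pos v with h0 | h0
  · rw [h0]; simp
  have h2 : ∑ x ∈ Finset.range (v + 1), cnt G (r ^ x) = 1 + cnt G r := by
    have hsub : ({0, 1} : Finset ℕ) ⊆ Finset.range (v + 1) := by
      intro x hx
      simp only [Finset.mem_insert, Finset.mem_singleton] at hx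
      simp only [Finset.mem_range]
      omega
    rw [← Finset.sum_subset hsub]
    · simp [cnt_one]
    · intro x _ hx
      simp only [Finset.mem_insert, Finset.mem_singleton, not_or] at hx
      exact cnt_pow_zero hr h (by omega)
  rwa [h2] at h1

/-- if all elements of a finite group square into `{1, z}`... at most 8 elements. -/
lemma card_le_eight {S : Type*} [Group S] [Finite S] (z : S)
    (hsq : ∀ x : S, x * x = 1 ∨ x * x = z) (hz2 : z * z = 1) (hcent : ∀ x : S, Commute z x)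
    (hinv : ∀ x : S, x * x = 1 → x = 1 ∨ x = z) : Nat.card S ≤ 8 := by
  classical
  haveI := Fintype.ofFinite S
  rw [Nat.card_eq_fintype_card]
  by_cases hall : ∀ x : S, x * x = 1
  · have : (Finset.univ : Finset S) ⊆ {1, z} := by
      intro x _
      simp only [Finset.mem_insert, Finset.mem_singleton]
      exact hinv x (hall x)
    have h2 := Finset.card_le_card this
    have h3 : ({1, z} : Finset S).card ≤ 2 := Finset.card_le_two
    rw [Finset.card_univ] at h2
    omega
  push_neg at hall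
  obtain ⟨x0, hx0⟩ := hall
  have hx0z : x0 * x0 = z := (hsq x0).resolve_left hx0
  -- commutators lie in {1, z}
  have hcomm : ∀ a b : S, b * a = a * b ∨ b * a = z * (a * b) := by
    intro a b
    -- a⁻¹ = ε a
    have hin : ∀ y : S, y⁻¹ = y ∨ y⁻¹ = z * y := by
      intro y
      rcases hsq y with h | h
      · left
        exact inv_eq_of_mul_eq_one_left h
      · right
        apply inv_eq_of_mul_eq_one_left
        calc z * y * y = z * (y * y) := by group
          _ = 1 := by rw [h, hz2]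
    have hab : (a * b) * (a * b) = 1 ∨ (a * b) * (a * b) = z := hsq _
    -- b * a = a⁻¹ * ε * b⁻¹
    have key : ∀ e : S, (a * b) * (a * b) = e → Commute z e → b * a = e * (a⁻¹ * b⁻¹) := by
      intro e he _
      have h1 : a * (b * a) * b = e := by rw [← he]; group
      have h2 : b * a = a⁻¹ * e * b⁻¹ := by rw [← h1]; group
      rw [h2]
      rcases hab with h3 | h3
      · rw [he] at h3
        rw [h3]; simp
      · rw [he] at h3
        rw [h3]
        have := (hcent a⁻¹).eq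
        rw [← this]
        group
    rcases hab with h1 | h1
    · have h2 := key 1 h1 (Commute.one_right _)
      rw [one_mul] at h2
      rcases hin a with h3 | h3 <;> rcases hin b with h4 | h4
      · left; rw [h2, h3, h4]
      · right; rw [h2, h3, h4]
        have := (hcent a).eq
        calc a * (z * b) = (a * z) * b := by group
          _ = (z * a) * b := by rw [this]
          _ = z * (a * b) := by group
      · right; rw [h2, h3, h4]; group
      · left; rw [h2, h3, h4]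
        have := (hcent a).eq
        calc z * a * (z * b) = z * (a * z) * b := by group
          _ = z * (z * a) * b := by rw [this]
          _ = (z * z) * (a * b) := by group
          _ = a * b := by rw [hz2, one_mul]
    · have h2 := key z h1 (Commute.refl _)
      rcases hin a with h3 | h3 <;> rcases hin b with h4 | h4
      · right; rw [h2, h3, h4]
      · left; rw [h2, h3, h4]
        have := (hcent a).eq
        calc z * (a * (z * b)) = z * ((a * z) * b) := by group
          _ = z * ((z * a) * b) := by rw [this]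
          _ = (z * z) * (a * b) := by group
          _ = a * b := by rw [hz2, one_mul]
      · left; rw [h2, h3, h4]
        calc z * (z * a * b) = (z * z) * (a * b) := by group
          _ = a * b := by rw [hz2, one_mul]
      · right; rw [h2, h3, h4]
        have := (hcent a).eq
        calc z * (z * a * (z * b)) = z * z * ((a * z) * b) := by group
          _ = z * z * ((z * a) * b) := by rw [this]
          _ = (z * z) * z * (a * b) := by group
          _ = z * (a * b) := by rw [hz2, one_mul]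
  -- the centraliser of x0 lies in A
  have hT : ∀ y : S, y * x0 = x0 * y → y ∈ ({1, z, x0, z * x0} : Finset S) := by
    intro y hy
    simp only [Finset.mem_insert, Finset.mem_singleton]
    rcases hsq y with h | h
    · rcases hinv y h with h1 | h1
      · exact Or.inl h1
      · exact Or.inr (Or.inl h1)
    · have h1 : (x0 * y⁻¹) * (x0 * y⁻¹) = 1 := by
        have hc : Commute x0 y⁻¹ := (Commute.inv_right (show Commute x0 y from hy.symm))
        have h2 : (x0 * y⁻¹) * (x0 * y⁻¹) = (x0 * x0) * (y⁻¹ * y⁻¹) := by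
          rw [mul_assoc, ← mul_assoc y⁻¹, ← hc.eq, mul_assoc x0, mul_assoc]
        rw [h2, hx0z]
        have h3 : y⁻¹ * y⁻¹ = z⁻¹ := by rw [← h]; group
        rw [h3]; group
      rcases hinv _ h1 with h2 | h2
      · right; right; left
        exact (mul_inv_eq_one.1 h2).symm
      · right; right; right
        have h3 : x0 = z * y := mul_inv_eq_iff_eq_mul.1 h2
        rw [h3, ← mul_assoc, hz2, one_mul]
  by_cases hh : ∀ g : S, g * x0 = x0 * g
  · have : (Finset.univ : Finset S) ⊆ {1, z, x0, z * x0} := fun g _ => hT g (hh g)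
    have h2 := Finset.card_le_card this
    have h3 : ({1, z, x0, z * x0} : Finset S).card ≤ 4 := Finset.card_le_four
    rw [Finset.card_univ] at h2
    omega
  push_neg at hh
  obtain ⟨h0, hh0⟩ := hh
  set A : Finset S := {1, z, x0, z * x0} with hA
  have hsub : (Finset.univ : Finset S) ⊆ A ∪ A.image (fun u => h0 * u) := by
    intro g _
    rw [Finset.mem_union]
    by_cases hg : g * x0 = x0 * g
    · exact Or.inl (hT g hg)
    · right
      rw [Finset.mem_image]
      refine ⟨h0⁻¹ * g, hT _ ?_, by group⟩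
      have h1 : g * x0 = z * (x0 * g) := (hcomm x0 g).resolve_left hg
      have h2 : h0 * x0 = z * (x0 * h0) := (hcomm x0 h0).resolve_left hh0
      have h3 : h0⁻¹ * x0 = z * (x0 * h0⁻¹) := by
        have h4 : x0 = h0⁻¹ * (z * (x0 * h0)) := by rw [← h2]; group
        have h5 := (hcent h0⁻¹).eq
        calc h0⁻¹ * x0 = h0⁻¹ * x0 * (h0 * h0⁻¹) := by group
          _ = (h0⁻¹ * (x0 * h0)) * h0⁻¹ := by group
          _ = h0⁻¹ * (z * z * (x0 * h0)) * h0⁻¹ := by rw [hz2, one_mul]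
          _ = z * (h0⁻¹ * (z * (x0 * h0))) * h0⁻¹ := by
              calc h0⁻¹ * (z * z * (x0 * h0)) * h0⁻¹ = (h0⁻¹ * z) * (z * (x0 * h0)) * h0⁻¹ := by group
                _ = (z * h0⁻¹) * (z * (x0 * h0)) * h0⁻¹ := by rw [h5]
                _ = z * (h0⁻¹ * (z * (x0 * h0))) * h0⁻¹ := by group
          _ = z * x0 * h0⁻¹ := by rw [← h4]
          _ = z * (x0 * h0⁻¹) := by group
      calc h0⁻¹ * g * x0 = h0⁻¹ * (g * x0) := by group
        _ = h0⁻¹ * (z * (x0 * g)) := by rw [h1]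
        _ = (h0⁻¹ * z) * (x0 * g) := by group
        _ = (z * h0⁻¹) * (x0 * g) := by rw [(hcent h0⁻¹).eq]
        _ = z * (h0⁻¹ * x0) * g := by group
        _ = z * (z * (x0 * h0⁻¹)) * g := by rw [h3]
        _ = (z * z) * (x0 * (h0⁻¹ * g)) := by group
        _ = x0 * (h0⁻¹ * g) := by rw [hz2, one_mul]
  have h2 := Finset.card_le_card hsub
  have h3 : A.card ≤ 4 := Finset.card_le_four
  have h4 := Finset.card_union_le A (A.image (fun u => h0 * u))
  have h5 : (A.image (fun u => h0 * u)).card ≤ A.card := Finset.card_image_le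
  rw [Finset.card_univ] at h2
  omega

end core

end Cfsg.Agent.H19.Nse
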