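import Cfsg.Agent.Lib.H19.Nse2

set_option autoImplicit false

namespace Cfsg.Agent.H19.Nse

variable {G : Type*} [Group G] [Finite G]

lemma exists_involution_of_one (h : cnt G 2 = 1) :
    ∃ z : G, orderOf z = 2 ∧ ∀ g : G, orderOf g = 2 → g = z := by
  unfold cnt at h
  rw [Nat.card_eq_one_iff_unique] at h
  obtain ⟨⟨hu⟩, ⟨⟨z, hz⟩⟩⟩ := h
  refine ⟨z, hz, fun g hg => ?_⟩
  have := hu ⟨g, hg⟩ ⟨z, hz⟩
  exact congrArg Subtype.val this

lemma elt_order_le {P : Sylow 2 G} (x : (P : Subgroup G)) {j : ℕ} (h : cnt G (2 ^ j) = 0) :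
    ∃ k, k < j ∧ orderOf (x : G) = 2 ^ k := by
  haveI : Fact (Nat.Prime 2) := ⟨Nat.prime_two⟩
  obtain ⟨k, hk⟩ := (IsPGroup.iff_orderOf.1 P.isPGroup') x
  rw [← Subgroup.orderOf_coe] at hk
  refine ⟨k, ?_, hk⟩
  by_contra hlt
  push_neg at hlt
  apply cnt_ne_zero_iff.2 _ h
  refine ⟨(x : G) ^ (2 ^ (k - j)), ?_⟩
  have h1 : 2 ^ (k - j) ∣ orderOf (x : G) := by
    rw [hk]
    exact pow_dvd_pow 2 (by omega)
  rw [orderOf_pow_of_dvd (pow_ne_zero _ (by norm_num)) h1, hk]
  have h2 : 2 ^ k = 2 ^ (k - j) * 2 ^ j := by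
    rw [← pow_add]; congr 1; omega
  rw [h2, Nat.mul_div_cancel_left _ (pow_pos (by norm_num) _)]

lemma two_part_le_one {z : G} (hz : orderOf z = 2) (huniq : ∀ g : G, orderOf g = 2 → g = z)
    (h4 : cnt G 4 = 0) : (Nat.card G).factorization 2 ≤ 1 := by
  classical
  haveI : Fact (Nat.Prime 2) := ⟨Nat.prime_two⟩
  obtain ⟨P⟩ : Nonempty (Sylow 2 G) := inferInstance
  have hc := Sylow.card_eq_multiplicity P
  haveI := Fintype.ofFinite (P : Subgroup G)
  have hsub : (Finset.univ : Finset (P : Subgroup G)) ⊆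
      (Finset.univ.filter (fun x : (P : Subgroup G) => (x : G) = 1 ∨ (x : G) = z)) := by
    intro x _
    simp only [Finset.mem_filter, Finset.mem_univ, true_and]
    obtain ⟨k, hk, hk2⟩ := elt_order_le (P := P) x (j := 2) (by simpa using h4)
    interval_cases k
    · left; simpa using hk2
    · right; exact huniq _ (by simpa using hk2)
  have h2 : (Finset.univ.filter (fun x : (P : Subgroup G) => (x : G) = 1 ∨ (x : G) = z)).card ≤ 2 := by
    have hfil : (Finset.univ.filter (fun x : (P : Subgroup G) => (x : G) = 1 ∨ (x : G) = z)) ⊆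
        (Finset.univ.filter (fun x : (P : Subgroup G) => (x : G) = 1)) ∪
        (Finset.univ.filter (fun x : (P : Subgroup G) => (x : G) = z)) := by
      intro x hx
      simpa [Finset.mem_filter] using hx
    refine (Finset.card_le_card hfil).trans ((Finset.card_union_le _ _).trans ?_)
    have hone : ∀ w : G, (Finset.univ.filter (fun x : (P : Subgroup G) => (x : G) = w)).card ≤ 1 := by
      intro w
      rw [Finset.card_le_one]
      intro a ha b hb
      simp only [Finset.mem_filter, Finset.mem_univ, true_and] at ha hb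
      exact Subtype.ext (ha.trans hb.symm)
    have := hone 1
    have := hone z
    omega
  have h3 := (Finset.card_le_card hsub).trans h2
  rw [Finset.card_univ, ← Nat.card_eq_fintype_card, hc] at h3
  by_contra hlt
  push_neg at hlt
  have : 2 ^ 2 ≤ 2 ^ (Nat.card G).factorization 2 := Nat.pow_le_pow_right (by norm_num) hlt
  omega

lemma two_part_le_three {z : G} (hz : orderOf z = 2) (huniq : ∀ g : G, orderOf g = 2 → g = z)
    (h8 : cnt G 8 = 0) : (Nat.card G).factorization 2 ≤ 3 := by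
  classical
  haveI : Fact (Nat.Prime 2) := ⟨Nat.prime_two⟩
  obtain ⟨P⟩ : Nonempty (Sylow 2 G) := inferInstance
  have hc := Sylow.card_eq_multiplicity P
  rcases Nat.eq_zero_or_pos ((Nat.card G).factorization 2) with h0 | hpos
  · omega
  have hzc : ∀ g : G, Commute z g := by
    intro g
    have h1 : orderOf (g * z * g⁻¹) = 2 := by
      have := MulEquiv.orderOf_eq (MulAut.conj g) z
      rw [MulAut.conj_apply] at this
      rw [this, hz]
    have h2 := huniq _ h1
    exact (mul_inv_eq_iff_eq_mul.1 h2).symm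
  have hz2 : z * z = 1 := by
    have := pow_orderOf_eq_one z
    rw [hz, sq] at this
    exact this
  have hzP : z ∈ (P : Subgroup G) := by
    have h2 : 2 ∣ Nat.card (P : Subgroup G) := by
      rw [hc]
      exact dvd_pow_self 2 (by omega)
    obtain ⟨x, hx⟩ := exists_prime_orderOf_dvd_card' 2 h2
    have h3 : (x : G) = z := huniq _ (by rw [Subgroup.orderOf_coe]; exact hx)
    rw [← h3]
    exact x.2
  have hinv : ∀ x : (P : Subgroup G), x * x = 1 → x = 1 ∨ x = ⟨z, hzP⟩ := by
    intro x hx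
    by_cases hx1 : x = 1
    · exact Or.inl hx1
    · right
      have h2 : x ^ 2 = 1 := by rw [sq]; exact hx
      have h3 : orderOf x = 2 := orderOf_eq_prime h2 hx1
      apply Subtype.ext
      exact huniq _ (by rw [Subgroup.orderOf_coe]; exact h3)
  have hsq : ∀ x : (P : Subgroup G), x * x = 1 ∨ x * x = ⟨z, hzP⟩ := by
    intro x
    obtain ⟨k, hk, hk2⟩ := elt_order_le (P := P) x (j := 3) (by simpa using h8)
    by_cases h1 : x * x = 1
    · exact Or.inl h1
    · right
      apply Subtype.ext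
      have hx4 : (x : G) ^ 4 = 1 := by
        have : orderOf (x : G) ∣ 4 := by
          rw [hk2]
          have : (4 : ℕ) = 2 ^ 2 := by norm_num
          rw [this]
          exact pow_dvd_pow 2 (by omega)
        exact orderOf_dvd_iff_pow_eq_one.1 this
      have h2 : ((x * x : (P : Subgroup G)) : G) ^ 2 = 1 := by
        push_cast
        have h22 : ((x : G) * x) ^ 2 = (x : G) ^ 4 := by rw [← sq, ← pow_mul]
        rw [h22, hx4]
      have h3 : ((x * x : (P : Subgroup G)) : G) ≠ 1 := by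
        intro h
        exact h1 (Subtype.ext h)
      exact huniq _ (orderOf_eq_prime h2 h3)
  have h8' := card_le_eight (S := (P : Subgroup G)) ⟨z, hzP⟩ hsq (Subtype.ext hz2)
    (fun x => Subtype.ext (hzc x)) hinv
  rw [hc] at h8'
  by_contra hlt
  push_neg at hlt
  have : 2 ^ 4 ≤ 2 ^ (Nat.card G).factorization 2 := Nat.pow_le_pow_right (by norm_num) hlt
  omega

lemma odd_part_dvd {a : ℕ} (hall : ∀ r : ℕ, r.Prime → 3 ≤ r → r ∣ Nat.card G →
    cnt G r = a ∧ cnt G (r ^ 2) = 0) : ordCompl[2] (Nat.card G) ∣ 1 + a := by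
  have hG : Nat.card G ≠ 0 := Nat.card_pos.ne'
  have hn : ordCompl[2] (Nat.card G) ≠ 0 := (Nat.ordCompl_pos 2 hG).ne'
  rw [← Nat.factorization_prime_le_iff_dvd hn (by omega)]
  intro r hr
  rw [Nat.factorization_ordCompl]
  by_cases hr2 : r = 2
  · subst hr2
    simp
  · rw [Finsupp.erase_ne hr2]
    by_cases hrG : r ∣ Nat.card G
    · have hr3 : 3 ≤ r := by
        have := hr.two_le
        omega
      obtain ⟨h1, h2⟩ := hall r hr hr3 hrG
      have h3 := sylow_dvd (G := G) hr h2
      rw [h1] at h3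
      exact (hr.pow_dvd_iff_le_factorization (by omega)).1 h3
    · rw [Nat.factorization_eq_zero_of_not_dvd hrG]
      exact Nat.zero_le _

section core
variable {a b : ℕ}

theorem share_false (hv : ∀ m, 3 ≤ m → cnt G m ≠ 0 → cnt G m = a ∨ cnt G m = b)
    (hc2 : cnt G 2 ≤ 1)
    {p q : ℕ} (hp : p.Prime) (hq : q.Prime) (hp3 : 3 ≤ p) (hq3 : 3 ≤ q) (hpq : p ≠ q)
    (hpG : p ∣ Nat.card G) (hqG : q ∣ Nat.card G) (hpa : cnt G p = a) (hqa : cnt G q = a) :
    False := by
  have h0a : a ≠ 0 := hpa ▸ cnt_prime_ne_zero hp hpG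
  obtain ⟨hpqb, hbp⟩ := share_pq hv hp hq hp3 hq3 hpq hpG hqG hpa hqa
  obtain ⟨_, hbq⟩ := share_pq hv hq hp hq3 hp3 hpq.symm hqG hpG hqa hpa
  have hall : ∀ r : ℕ, r.Prime → 3 ≤ r → r ∣ Nat.card G →
      cnt G r = a ∧ ((a : ℕ) : ZMod r) = -1 ∧ ((b : ℕ) : ZMod r) = 1 ∧ cnt G (r ^ 2) = 0 := by
    intro r hr hr3 hrG
    have hra : cnt G r = a := by
      by_contra hne
      have h1 := hv r hr3 (cnt_prime_ne_zero hr hrG)
      have hrb : cnt G r = b := h1.resolve_left hne
      have hpr : p ≠ r := by rintro rfl; exact hne hpa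
      have hqr : q ≠ r := by rintro rfl; exact hne hqa
      exact third_false hv hp hq hr hp3 hq3 hr3 hpq hpr hqr hpG hqG hrG hpa hqa hrb
    have hz : ((a : ℕ) : ZMod r) = -1 := hra ▸ z_prime hr hrG
    have hb : ((b : ℕ) : ZMod r) = 1 := by
      by_cases hrp : r = p
      · subst hrp; exact hbp
      · exact (share_pq hv hr hp hr3 hp3 hrp hrG hpG hra hpa).2
    exact ⟨hra, hz, hb, no_sq hv hr hr3 hrG hra hb⟩
  have hn : ordCompl[2] (Nat.card G) ∣ 1 + a :=
    odd_part_dvd (fun r hr hr3 hrG => ⟨(hall r hr hr3 hrG).1, (hall r hr hr3 hrG).2.2.2⟩)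
  have hnle : ordCompl[2] (Nat.card G) ≤ 1 + a := Nat.le_of_dvd (by omega) hn
  have hdec := Nat.ordProj_mul_ordCompl_eq_self (Nat.card G) 2
  have hpa1 : p ∣ a + 1 := by
    rw [← ZMod.natCast_eq_zero_iff]
    push_cast
    rw [(hall p hp hp3 hpG).2.1]
    ring
  have hqa1 : q ∣ a + 1 := by
    rw [← ZMod.natCast_eq_zero_iff]
    push_cast
    rw [(hall q hq hq3 hqG).2.1]
    ring
  have hpq1 : p * q ≤ a + 1 :=
    Nat.le_of_dvd (by omega) (Nat.Coprime.mul_dvd_of_dvd_of_dvd
      ((Nat.coprime_primes hp hq).2 hpq) hpa1 hqa1)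
  have h12 : 12 ≤ p * q := by
    by_cases hp4 : 4 ≤ p
    · nlinarith
    · have : p = 3 := by omega
      subst this
      have : 4 ≤ q := by omega
      nlinarith
  have hpodd : Odd p := hp.odd_of_ne_two (by omega)
  have hqodd : Odd q := hq.odd_of_ne_two (by omega)
  have hpmod : p % 2 = 1 := Nat.odd_iff.1 hpodd
  have hqmod : q % 2 = 1 := Nat.odd_iff.1 hqodd
  rcases Nat.le_one_iff_eq_zero_or_eq_one.1 hc2 with h20 | h21
  · -- odd order
    have h2 : ¬ 2 ∣ Nat.card G := fun h => cnt_prime_ne_zero Nat.prime_two h h20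
    rw [Nat.factorization_eq_zero_of_not_dvd h2] at hdec hnle
    simp only [pow_zero, one_mul, Nat.div_one] at hdec hnle
    have hs := sum_le_card (G := G) {1, p, q}
    rw [Finset.sum_insert (by simp only [Finset.mem_insert, Finset.mem_singleton]; omega),
      Finset.sum_insert (by simp only [Finset.mem_singleton]; omega), Finset.sum_singleton,
      cnt_one, hpa, hqa] at hs
    omega
  · -- unique involution
    obtain ⟨z, hz, huniq⟩ := exists_involution_of_one h21
    have hp2 : cnt G (p * 2) = a := by rw [cnt_two_mul hz huniq hpodd, hpa]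
    have hq2 : cnt G (q * 2) = a := by rw [cnt_two_mul hz huniq hqodd, hqa]
    by_cases h40 : cnt G 4 = 0
    · have h1 := two_part_le_one hz huniq h40
      have h3 : 2 ^ (Nat.card G).factorization 2 ≤ 2 ^ 1 := Nat.pow_le_pow_right (by norm_num) h1
      have hle : Nat.card G ≤ 2 * (1 + a) := by
        calc Nat.card G = _ := hdec.symm
          _ ≤ 2 * (1 + a) := Nat.mul_le_mul (by simpa using h3) hnle
      have hs := sum_le_card (G := G) {p, p * 2, q, q * 2}
      rw [Finset.sum_insert (by simp only [Finset.mem_insert, Finset.mem_singleton]; omega),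
        Finset.sum_insert (by simp only [Finset.mem_insert, Finset.mem_singleton]; omega),
        Finset.sum_insert (by simp only [Finset.mem_singleton]; omega), Finset.sum_singleton,
        hp2, hq2, hpa, hqa] at hs
      omega
    -- order 4 exists
    have h4dvd : 4 ∣ Nat.card G := dvd_card_of_cnt h40
    have aux : ∀ {s : ℕ} {m : ℕ}, s.Prime → 3 ≤ s → s ∣ Nat.card G → 3 ≤ m → Nat.Coprime s m →
        cnt G m ≠ 0 → cnt G (s * m) = b ∧ 2 * a ≤ b := by
      intro s m hs hs3 hsG hm hco hm0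
      obtain ⟨hsa, hz1, hz2, _⟩ := hall s hs hs3 hsG
      haveI := Fact.mk hs
      have hnd : ¬ s ∣ cnt G m := by
        rw [← ZMod.natCast_eq_zero_iff]
        rcases hv m hm hm0 with h | h
        · rw [h, hz1]; simp
        · rw [h, hz2]; simp
      have h1 := fix_count (G := G) hs hm hco hnd
      rw [hsa] at h1
      have h2 : cnt G (s * m) ≠ 0 := by omega
      have h33 : 3 ≤ s * m := by nlinarith
      rcases hv _ h33 h2 with h3 | h3
      · omega
      · rw [h3] at h1
        exact ⟨h3, h1⟩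
    have hcop4 : ∀ {s : ℕ}, s.Prime → 3 ≤ s → Nat.Coprime s 4 := by
      intro s hs hs3
      have : Nat.Coprime s (2 ^ 2) :=
        Nat.Coprime.pow_right 2 ((Nat.coprime_primes hs Nat.prime_two).2 (by omega))
      simpa using this
    have hcop8 : ∀ {s : ℕ}, s.Prime → 3 ≤ s → Nat.Coprime s 8 := by
      intro s hs hs3
      have : Nat.Coprime s (2 ^ 3) :=
        Nat.Coprime.pow_right 3 ((Nat.coprime_primes hs Nat.prime_two).2 (by omega))
      simpa using this
    obtain ⟨hp4, hba⟩ := aux hp hp3 hpG (by norm_num) (hcop4 hp hp3) h40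
    obtain ⟨hq4, _⟩ := aux hq hq3 hqG (by norm_num) (hcop4 hq hq3) h40
    haveI := Fact.mk hp
    obtain ⟨_, hzap, hzbp, _⟩ := hall p hp hp3 hpG
    -- c(4) = a
    have he : cnt G 4 = a := by
      have hd : p * 4 ∣ Nat.card G := Nat.Coprime.mul_dvd_of_dvd_of_dvd (hcop4 hp hp3) hpG h4dvd
      have h1 := frob_z (G := G) hd (by omega) (Dvd.intro _ rfl : p ∣ p * 4)
      rw [sum_four_mul _ hp (by omega), cnt_one, h21, hp2, hpa, hp4] at h1
      push_cast at h1
      rw [hzap, hzbp] at h1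
      have h3 : ((cnt G 4 : ℕ) : ZMod p) = -1 := by linear_combination h1
      rcases hv 4 (by norm_num) h40 with h5 | h5
      · exact h5
      · exfalso
        rw [h5, hzbp] at h3
        exact one_ne_neg_one' hp hp3 h3
    -- no elements of order 8
    have h80 : cnt G 8 = 0 := by
      by_contra h80
      have h8dvd : 8 ∣ Nat.card G := dvd_card_of_cnt h80
      obtain ⟨hp8, _⟩ := aux hp hp3 hpG (by norm_num) (hcop8 hp hp3) h80
      have hd : p * 8 ∣ Nat.card G := Nat.Coprime.mul_dvd_of_dvd_of_dvd (hcop8 hp hp3) hpG h8dvd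
      have h1 := frob_z (G := G) hd (by omega) (Dvd.intro _ rfl : p ∣ p * 8)
      rw [sum_eight_mul _ hp (by omega), cnt_one, h21, hp2, hpa, hp4, he, hp8] at h1
      push_cast at h1
      rw [hzap, hzbp] at h1
      have h3 : ((cnt G 8 : ℕ) : ZMod p) = -1 := by linear_combination h1
      have h8a : cnt G 8 = a := by
        rcases hv 8 (by norm_num) h80 with h5 | h5
        · exact h5
        · exfalso
          rw [h5, hzbp] at h3
          exact one_ne_neg_one' hp hp3 h3
      have f4 := frob (G := G) h4dvd (by norm_num)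
      rw [sum_four, cnt_one, h21, he] at f4
      have f8 := frob (G := G) h8dvd (by norm_num)
      rw [sum_eight, cnt_one, h21, he, h8a] at f8
      omega
    have h1 := two_part_le_three hz huniq h80
    have h3 : 2 ^ (Nat.card G).factorization 2 ≤ 2 ^ 3 := Nat.pow_le_pow_right (by norm_num) h1
    have hle : Nat.card G ≤ 8 * (1 + a) := by
      calc Nat.card G = _ := hdec.symm
        _ ≤ 8 * (1 + a) := Nat.mul_le_mul (by simpa using h3) hnle
    have hs := sum_le_card (G := G) {p, p * 2, 4, p * 4, q, q * 2, q * 4}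
    rw [Finset.sum_insert (by simp only [Finset.mem_insert, Finset.mem_singleton]; omega),
      Finset.sum_insert (by simp only [Finset.mem_insert, Finset.mem_singleton]; omega),
      Finset.sum_insert (by simp only [Finset.mem_insert, Finset.mem_singleton]; omega),
      Finset.sum_insert (by simp only [Finset.mem_insert, Finset.mem_singleton]; omega),
      Finset.sum_insert (by simp only [Finset.mem_insert, Finset.mem_singleton]; omega),
      Finset.sum_insert (by simp only [Finset.mem_singleton]; omega), Finset.sum_singleton,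
      hp2, hq2, hpa, hqa, hp4, hq4, he] at hs
    omega

/-- `c(pq) ≠ c(p)`. -/
lemma cnt_mul_ne {p q : ℕ} (hp : p.Prime) (hq : q.Prime) (hp3 : 3 ≤ p) (hq3 : 3 ≤ q) (hpq : p ≠ q)
    (hpG : p ∣ Nat.card G) (hqG : q ∣ Nat.card G) : cnt G (p * q) ≠ cnt G p := by
  intro h
  haveI := Fact.mk hp
  have h0 : cnt G p ≠ 0 := cnt_prime_ne_zero hp hpG
  have h1 := frob_z (G := G) (mul_dvd_card hp hq hpq hpG hqG) (mul_ne_zero hp.ne_zero hq.ne_zero)
    (Dvd.intro _ rfl : p ∣ p * q)
  rw [sum_two _ hp hq hpq, cnt_one, h] at h1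
  push_cast at h1
  have h2 := z_prime (G := G) hp hpG
  rw [h2] at h1
  have h3 : ((cnt G q : ℕ) : ZMod p) = 1 := by linear_combination h1
  have h4 : ¬ p ∣ cnt G q := by
    rw [← ZMod.natCast_eq_zero_iff, h3]
    simp
  have h5 := fix_count (G := G) hp hq3 ((Nat.coprime_primes hp hq).2 hpq) h4
  omega

/-- Two primes with different counts. -/
theorem dist_facts (hv : ∀ m, 3 ≤ m → cnt G m ≠ 0 → cnt G m = a ∨ cnt G m = b)
    {p q : ℕ} (hp : p.Prime) (hq : q.Prime) (hp3 : 3 ≤ p) (hq3 : 3 ≤ q) (hpq : p ≠ q)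
    (hpG : p ∣ Nat.card G) (hqG : q ∣ Nat.card G) (hpa : cnt G p = a) (hqb : cnt G q = b) :
    cnt G (p * q) = 0 ∧ ((a : ℕ) : ZMod q) = 0 ∧ ((b : ℕ) : ZMod p) = 0 ∧ cnt G (p ^ 2) = 0 ∧
      cnt G (q ^ 2) = 0 := by
  haveI := Fact.mk hp
  haveI := Fact.mk hq
  have hpq0 : cnt G (p * q) = 0 := by
    by_contra h0
    have h3 : 3 ≤ p * q := by nlinarith
    rcases hv _ h3 h0 with h | h
    · exact cnt_mul_ne hp hq hp3 hq3 hpq hpG hqG (h.trans hpa.symm)
    · rw [mul_comm] at h
      exact cnt_mul_ne hq hp hq3 hp3 hpq.symm hqG hpG (h.trans hqb.symm)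
  -- free action
  have free : ∀ {s t u : ℕ}, s.Prime → t.Prime → s ≠ t → 3 ≤ s → 3 ≤ t → s ∣ Nat.card G →
      cnt G (t * s) = 0 → cnt G (s * t) = 0 → ∀ i, 1 ≤ i → cnt G (t ^ i) = u →  t ∣ Nat.card G → ((u : ℕ) : ZMod s) = 0 := by
    intro s t u hs ht hst hs3 ht3 hsG h1 h2 i hi hu htG
    rw [ZMod.natCast_eq_zero_iff]
    by_contra hnd
    obtain ⟨P⟩ : Nonempty (Sylow s G) := inferInstance
    rw [← hu] at hnd
    obtain ⟨x, hx, hc⟩ := exists_fixed hs P hnd
    -- an element of order s in P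
    haveI := Fact.mk hs
    have hsP : s ∣ Nat.card (P : Subgroup G) := by
      rw [Sylow.card_eq_multiplicity]
      apply dvd_pow_self
      exact ((hs.dvd_iff_one_le_factorization Nat.card_pos.ne').1 hsG |> fun h => by omega)
    obtain ⟨y, hy⟩ := exists_prime_orderOf_dvd_card' s hsP
    have hy' : orderOf (y : G) = s := by rw [Subgroup.orderOf_coe]; exact hy
    have hcom := hc y y.2
    -- x ^ (t ^ (i - 1)) has order t
    have h3 : orderOf (x ^ (t ^ (i - 1))) = t := by
      have h4 : t ^ (i - 1) ∣ orderOf x := by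
        rw [hx]
        exact pow_dvd_pow t (by omega)
      rw [orderOf_pow_of_dvd (pow_ne_zero _ ht.ne_zero) h4, hx]
      have h5 : t ^ i = t ^ (i - 1) * t := by
        rw [← pow_succ]; congr 1; omega
      rw [h5, Nat.mul_div_cancel_left _ (pow_pos ht.pos _)]
    have hcom2 : Commute (y : G) (x ^ (t ^ (i - 1))) := hcom.pow_right _
    have h6 : orderOf ((y : G) * x ^ (t ^ (i - 1))) = s * t := by
      rw [hcom2.orderOf_mul_eq_mul_orderOf_of_coprime (by rw [hy', h3]; exact (Nat.coprime_primes hs ht).2 hst), hy', h3]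
    exact cnt_ne_zero_iff.2 ⟨_, h6⟩ h2
  have hqp0 : cnt G (q * p) = 0 := by rw [mul_comm]; exact hpq0
  have haq : ((a : ℕ) : ZMod q) = 0 :=
    free hq hp hpq.symm hq3 hp3 hqG hpq0 hqp0 1 le_rfl (by simpa using hpa) hpG
  have hbp : ((b : ℕ) : ZMod p) = 0 :=
    free hp hq hpq hp3 hq3 hpG hqp0 hpq0 1 le_rfl (by simpa using hqb) hqG
  have hap : ((a : ℕ) : ZMod p) = -1 := hpa ▸ z_prime hp hpG
  have hbq : ((b : ℕ) : ZMod q) = -1 := hqb ▸ z_prime hq hqG
  refine ⟨hpq0, haq, hbp, ?_, ?_⟩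
  · by_contra h0
    have h1 := frob_z (G := G) (dvd_card_of_cnt h0) (pow_ne_zero 2 hp.ne_zero)
      (Dvd.intro_left (p ^ 1) (by ring) : p ∣ p ^ 2)
    rw [Nat.sum_divisors_prime_pow hp] at h1
    simp only [Finset.sum_range_succ, Finset.sum_range_zero, pow_zero, pow_one, zero_add, cnt_one,
      hpa] at h1
    push_cast at h1
    rw [hap] at h1
    have h3 : ((cnt G (p ^ 2) : ℕ) : ZMod p) = 0 := by linear_combination h1
    have hp23 : 3 ≤ p ^ 2 := by nlinarith
    rcases hv _ hp23 h0 with h5 | h5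
    · rw [h5, hap] at h3
      simp at h3
    · have h6 := free hq hp hpq.symm hq3 hp3 hqG hpq0 hqp0 2 (by norm_num) h5 hpG
      rw [hbq] at h6
      simp at h6
  · by_contra h0
    have h1 := frob_z (G := G) (dvd_card_of_cnt h0) (pow_ne_zero 2 hq.ne_zero)
      (Dvd.intro_left (q ^ 1) (by ring) : q ∣ q ^ 2)
    rw [Nat.sum_divisors_prime_pow hq] at h1
    simp only [Finset.sum_range_succ, Finset.sum_range_zero, pow_zero, pow_one, zero_add, cnt_one,
      hqb] at h1
    push_cast at h1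
    rw [hbq] at h1
    have h3 : ((cnt G (q ^ 2) : ℕ) : ZMod q) = 0 := by linear_combination h1
    have hq23 : 3 ≤ q ^ 2 := by nlinarith
    rcases hv _ hq23 h0 with h5 | h5
    · have h6 := free hp hq hpq hp3 hq3 hpG hqp0 hpq0 2 (by norm_num) h5 hqG
      rw [hap] at h6
      simp at h6
    · rw [h5, hbq] at h3
      simp at h3

/-- with unique involution, no element of order 4. -/
theorem dist_four (hv : ∀ m, 3 ≤ m → cnt G m ≠ 0 → cnt G m = a ∨ cnt G m = b)
    (hc2 : cnt G 2 = 1)
    {p q : ℕ} (hp : p.Prime) (hq : q.Prime) (hp3 : 3 ≤ p) (hq3 : 3 ≤ q) (hpq : p ≠ q)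
    (hpG : p ∣ Nat.card G) (hqG : q ∣ Nat.card G) (hpa : cnt G p = a) (hqb : cnt G q = b) :
    cnt G 4 = 0 := by
  haveI := Fact.mk hp
  haveI := Fact.mk hq
  obtain ⟨_, haq, hbp, _, _⟩ := dist_facts hv hp hq hp3 hq3 hpq hpG hqG hpa hqb
  have hap : ((a : ℕ) : ZMod p) = -1 := hpa ▸ z_prime hp hpG
  have hbq : ((b : ℕ) : ZMod q) = -1 := hqb ▸ z_prime hq hqG
  obtain ⟨z, hz, huniq⟩ := exists_involution_of_one hc2
  have hpodd : Odd p := hp.odd_of_ne_two (by omega)
  have hqodd : Odd q := hq.odd_of_ne_two (by omega)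
  have hp2 : cnt G (p * 2) = a := by rw [cnt_two_mul hz huniq hpodd, hpa]
  have hq2 : cnt G (q * 2) = b := by rw [cnt_two_mul hz huniq hqodd, hqb]
  by_contra h40
  have h4dvd : 4 ∣ Nat.card G := dvd_card_of_cnt h40
  have hcop4 : ∀ {s : ℕ}, s.Prime → 3 ≤ s → Nat.Coprime s 4 := by
    intro s hs hs3
    have : Nat.Coprime s (2 ^ 2) :=
      Nat.Coprime.pow_right 2 ((Nat.coprime_primes hs Nat.prime_two).2 (by omega))
    simpa using this
  rcases hv 4 (by norm_num) h40 with he | he
  · -- c(4) = a: mod p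
    have hd : p * 4 ∣ Nat.card G := Nat.Coprime.mul_dvd_of_dvd_of_dvd (hcop4 hp hp3) hpG h4dvd
    have h1 := frob_z (G := G) hd (by omega) (Dvd.intro _ rfl : p ∣ p * 4)
    rw [sum_four_mul _ hp (by omega), cnt_one, hc2, hp2, hpa, he] at h1
    push_cast at h1
    rw [hap] at h1
    have h3 : ((cnt G (p * 4) : ℕ) : ZMod p) = 1 := by linear_combination h1
    have h0 : cnt G (p * 4) ≠ 0 := by
      intro h
      rw [h] at h3
      simp at h3
    rcases hv _ (by omega) h0 with h5 | h5
    · rw [h5, hap] at h3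
      exact one_ne_neg_one' hp hp3 h3.symm
    · rw [h5, hbp] at h3
      simp at h3
  · -- c(4) = b: mod q
    have hd : q * 4 ∣ Nat.card G := Nat.Coprime.mul_dvd_of_dvd_of_dvd (hcop4 hq hq3) hqG h4dvd
    have h1 := frob_z (G := G) hd (by omega) (Dvd.intro _ rfl : q ∣ q * 4)
    rw [sum_four_mul _ hq (by omega), cnt_one, hc2, hq2, hqb, he] at h1
    push_cast at h1
    rw [hbq] at h1
    have h3 : ((cnt G (q * 4) : ℕ) : ZMod q) = 1 := by linear_combination h1
    have h0 : cnt G (q * 4) ≠ 0 := by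
      intro h
      rw [h] at h3
      simp at h3
    rcases hv _ (by omega) h0 with h5 | h5
    · rw [h5, haq] at h3
      simp at h3
    · rw [h5, hbq] at h3
      exact one_ne_neg_one' hq hq3 h3.symm

end core

end Cfsg.Agent.H19.Nse
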