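import Cfsg.Agent.Lib.H19.Nse3
import Cfsg.Agent.Lib.Lead.Burnside

set_option autoImplicit false

namespace Cfsg.Agent.H19.Nse

variable {G : Type*} [Group G] [Finite G]

lemma vals_of_ncard
    (h : (((fun m : ℕ => Nat.card {g : G // orderOf g = m}) '' Set.range (orderOf : G → ℕ))).ncard = 3) :
    ∃ a b : ℕ, a ≠ b ∧ a ≠ 1 ∧ b ≠ 1 ∧
      ∀ m, cnt G m ≠ 0 → cnt G m = 1 ∨ cnt G m = a ∨ cnt G m = b := by
  obtain ⟨x, y, z, hxy, hxz, hyz, hs⟩ := Set.ncard_eq_three.1 h
  have h1 : (1 : ℕ) ∈ ((fun m : ℕ => Nat.card {g : G // orderOf g = m}) '' Set.range (orderOf : G → ℕ)) := by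
    refine ⟨1, ⟨1, orderOf_one⟩, ?_⟩
    exact cnt_one
  have hmem : ∀ m, cnt G m ≠ 0 → cnt G m ∈
      ((fun m : ℕ => Nat.card {g : G // orderOf g = m}) '' Set.range (orderOf : G → ℕ)) := by
    intro m hm
    obtain ⟨g, hg⟩ := cnt_ne_zero_iff.1 hm
    exact ⟨m, ⟨g, hg⟩, rfl⟩
  rw [hs] at h1 hmem
  simp only [Set.mem_insert_iff, Set.mem_singleton_iff] at h1 hmem
  rcases h1 with h1 | h1 | h1
  · refine ⟨y, z, hyz, ?_, ?_, fun m hm => ?_⟩
    · omega
    · omega
    · have := hmem m hm; omega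
  · refine ⟨x, z, hxz, ?_, ?_, fun m hm => ?_⟩
    · omega
    · omega
    · have := hmem m hm; omega
  · refine ⟨x, y, hxy, ?_, ?_, fun m hm => ?_⟩
    · omega
    · omega
    · have := hmem m hm; omega

lemma cnt_ne_one {m : ℕ} (hm : 3 ≤ m) : cnt G m ≠ 1 := by
  obtain ⟨r, hr⟩ := cnt_even (G := G) hm
  omega

/-- renaming of the two values. -/
lemma rename_vals {a b A B : ℕ}
    (hvals : ∀ m, cnt G m ≠ 0 → cnt G m = 1 ∨ cnt G m = a ∨ cnt G m = b)
    (hAB : A ≠ B) (hA1 : A ≠ 1) (hB1 : B ≠ 1)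
    (hA : A = 1 ∨ A = a ∨ A = b) (hB : B = 1 ∨ B = a ∨ B = b)
    (hAe : Even A) (hBe : Even B) :
    (∀ m, 3 ≤ m → cnt G m ≠ 0 → cnt G m = A ∨ cnt G m = B) ∧ cnt G 2 ≤ 1 := by
  constructor
  · intro m hm h0
    have h1 := hvals m h0
    have h2 := cnt_ne_one (G := G) hm
    omega
  · by_contra hc2
    have h0 : cnt G 2 ≠ 0 := by omega
    have h1 := hvals 2 h0
    have h3 := frob (G := G) (dvd_card_of_cnt h0) (by norm_num)
    rw [Nat.Prime.sum_divisors Nat.prime_two, cnt_one] at h3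
    obtain ⟨r, hr⟩ := hAe
    obtain ⟨s, hs⟩ := hBe
    omega

lemma exists_two_prime_pow {n u v : ℕ} (hn : n ≠ 0) (hu : u.Prime) (hv : v.Prime) (huv : u ≠ v)
    (h : ∀ r : ℕ, r.Prime → r ∣ n → r = u ∨ r = v) : ∃ i j, n = u ^ i * v ^ j := by
  set m := ordCompl[u] n with hm
  have h1 : u ^ n.factorization u * m = n := Nat.ordProj_mul_ordCompl_eq_self n u
  have hm0 : m ≠ 0 := (Nat.ordCompl_pos u hn).ne'
  set m' := ordCompl[v] m with hm'
  have h2 : v ^ m.factorization v * m' = m := Nat.ordProj_mul_ordCompl_eq_self m v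
  have h3 : m' = 1 := by
    rw [Nat.eq_one_iff_not_exists_prime_dvd]
    intro r hr hd
    have hdm : r ∣ m := hd.trans (Dvd.intro_left _ h2)
    have hdn : r ∣ n := hdm.trans (Dvd.intro_left _ h1)
    rcases h r hr hdn with rfl | rfl
    · exact Nat.not_dvd_ordCompl hr hn hdm
    · exact Nat.not_dvd_ordCompl hr hm0 hd
  refine ⟨n.factorization u, m.factorization v, ?_⟩
  rw [h3, mul_one] at h2
  rw [← h2] at h1
  exact h1.symm

/-- Main facts: at most two odd primes and so on. -/
theorem two_odd_facts {a b : ℕ}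
    (hvals : ∀ m, cnt G m ≠ 0 → cnt G m = 1 ∨ cnt G m = a ∨ cnt G m = b)
    {p q : ℕ} (hp : p.Prime) (hq : q.Prime) (hp3 : 3 ≤ p) (hq3 : 3 ≤ q) (hpq : p ≠ q)
    (hpG : p ∣ Nat.card G) (hqG : q ∣ Nat.card G) :
    cnt G p ≠ cnt G q ∧ (∀ m, 3 ≤ m → cnt G m ≠ 0 → cnt G m = cnt G p ∨ cnt G m = cnt G q) ∧
      cnt G 2 ≤ 1 ∧ (∀ r : ℕ, r.Prime → 3 ≤ r → r ∣ Nat.card G → r = p ∨ r = q) := by
  have hp0 := cnt_prime_ne_zero (G := G) hp hpG
  have hq0 := cnt_prime_ne_zero (G := G) hq hqG
  have hne : cnt G p ≠ cnt G q := by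
    intro heq
    haveI := Fact.mk hp
    -- c(pq) is another even value
    have h1 := frob_z (G := G) (mul_dvd_card hp hq hpq hpG hqG) (mul_ne_zero hp.ne_zero hq.ne_zero)
      (Dvd.intro _ rfl : p ∣ p * q)
    rw [sum_two _ hp hq hpq, cnt_one, ← heq] at h1
    push_cast at h1
    have h2 := z_prime (G := G) hp hpG
    rw [h2] at h1
    have h3 : ((cnt G (p * q) : ℕ) : ZMod p) = 1 := by linear_combination h1
    have h4 : cnt G (p * q) ≠ 0 := by
      intro h0
      rw [h0] at h3
      simp at h3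
    have hpq3 : 3 ≤ p * q := by nlinarith
    have h5 := cnt_mul_ne (G := G) hp hq hp3 hq3 hpq hpG hqG
    obtain ⟨hv, hc2⟩ := rename_vals hvals h5.symm (cnt_ne_one hp3) (cnt_ne_one hpq3)
      (hvals _ hp0) (hvals _ h4) (cnt_even hp3) (cnt_even hpq3)
    exact share_false hv hc2 hp hq hp3 hq3 hpq hpG hqG rfl heq.symm
  obtain ⟨hv, hc2⟩ := rename_vals hvals hne (cnt_ne_one hp3) (cnt_ne_one hq3)
      (hvals _ hp0) (hvals _ hq0) (cnt_even hp3) (cnt_even hq3)
  refine ⟨hne, hv, hc2, ?_⟩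
  intro r hr hr3 hrG
  by_contra hcon
  push_neg at hcon
  rcases hv r hr3 (cnt_prime_ne_zero hr hrG) with h | h
  · exact share_false (a := cnt G p) (b := cnt G q) hv hc2 hr hp hr3 hp3 hcon.1 hrG hpG h rfl
  · exact share_false (a := cnt G q) (b := cnt G p) (fun m hm h0 => (hv m hm h0).symm) hc2 hr hq hr3 hq3 hcon.2 hrG hqG h rfl

theorem solvable_main {a b : ℕ}
    (hvals : ∀ m, cnt G m ≠ 0 → cnt G m = 1 ∨ cnt G m = a ∨ cnt G m = b) :
    Group.IsSolvable G := by
  have hG : Nat.card G ≠ 0 := Nat.card_pos.ne'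
  have hprime2 := Nat.prime_two
  have h3 := Nat.prime_three
  by_cases hex : ∃ p q : ℕ, p.Prime ∧ q.Prime ∧ 3 ≤ p ∧ 3 ≤ q ∧ p ≠ q ∧ p ∣ Nat.card G ∧ q ∣ Nat.card G
  · obtain ⟨p, q, hp, hq, hp3, hq3, hpq, hpG, hqG⟩ := hex
    obtain ⟨hne, hv, hc2, hall⟩ := two_odd_facts hvals hp hq hp3 hq3 hpq hpG hqG
    rcases Nat.le_one_iff_eq_zero_or_eq_one.1 hc2 with h20 | h21
    · -- odd order
      have h2 : ¬ 2 ∣ Nat.card G := fun h => cnt_prime_ne_zero Nat.prime_two h h20
      obtain ⟨i, j, hij⟩ := exists_two_prime_pow hG hp hq hpq (fun r hr hd => by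
        refine hall r hr ?_ hd
        have := hr.two_le
        by_contra hlt
        have : r = 2 := by omega
        subst this
        exact h2 hd)
      exact Cfsg.Agent.Lead.burnside_two_prime p q i j hp hq hij
    · -- involution
      have h40 := dist_four hv h21 hp hq hp3 hq3 hpq hpG hqG rfl rfl
      obtain ⟨z, hz, huniq⟩ := exists_involution_of_one h21
      have hv2 := two_part_le_one hz huniq h40
      have hzc : ∀ g : G, Commute z g := by
        intro g
        have h1 : orderOf (g * z * g⁻¹) = 2 := by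
          have := MulEquiv.orderOf_eq (MulAut.conj g) z
          rw [MulAut.conj_apply] at this
          rw [this, hz]
        have h2 := huniq _ h1
        exact (mul_inv_eq_iff_eq_mul.1 h2).symm
      let N : Subgroup G := Subgroup.zpowers z
      have hNc : N ≤ Subgroup.center G := by
        rw [Subgroup.zpowers_le]
        exact Subgroup.mem_center_iff.2 (fun g => (hzc g).symm.eq)
      haveI hNn : N.Normal := ⟨fun n hn g => by
        have h1 := hNc hn
        have h2 := Subgroup.mem_center_iff.1 h1 g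
        rw [h2, mul_inv_cancel_right]
        exact hn⟩
      have hNcard : Nat.card N = 2 := by
        change Nat.card (Subgroup.zpowers z) = 2
        rw [Nat.card_zpowers, hz]
      have hcard : Nat.card G = Nat.card (G ⧸ N) * 2 := by
        rw [← hNcard]
        exact N.card_eq_card_quotient_mul_card_subgroup
      have hQ0 : Nat.card (G ⧸ N) ≠ 0 := Nat.card_pos.ne'
      obtain ⟨i, j, hij⟩ := exists_two_prime_pow hQ0 hp hq hpq (fun r hr hd => by
        have hdG : r ∣ Nat.card G := by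
          rw [hcard]; exact Dvd.dvd.mul_right hd 2
        refine hall r hr ?_ hdG
        have := hr.two_le
        by_contra hlt
        have : r = 2 := by omega
        subst this
        have h4 : 2 ^ 2 ∣ Nat.card G := by
          rw [hcard, sq]
          exact Nat.mul_dvd_mul hd (dvd_refl 2)
        have h5 := (Nat.prime_two.pow_dvd_iff_le_factorization hG).1 h4
        omega)
      haveI hQs : Group.IsSolvable (G ⧸ N) :=
        Cfsg.Agent.Lead.burnside_two_prime p q i j hp hq hij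
      haveI hNs : Group.IsSolvable N := by
        apply Group.isSolvable_of_comm
        intro x y
        apply Subtype.ext
        have := Subgroup.mem_center_iff.1 (hNc x.2) (y : G)
        exact this.symm
      exact Group.isSolvable_of_ker_le_range N.subtype (QuotientGroup.mk' N) (by simp)
  · push_neg at hex
    by_cases hex2 : ∃ p : ℕ, p.Prime ∧ 3 ≤ p ∧ p ∣ Nat.card G
    · obtain ⟨p, hp, hp3, hpG⟩ := hex2
      obtain ⟨i, j, hij⟩ := exists_two_prime_pow hG hprime2 hp (by omega) (fun r hr hd => by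
        by_cases hr2 : r = 2
        · exact Or.inl hr2
        · right
          have := hr.two_le
          by_contra hne
          exact hex r p hr hp (by omega) hp3 hne hd hpG)
      exact Cfsg.Agent.Lead.burnside_two_prime 2 p i j hprime2 hp hij
    · push_neg at hex2
      obtain ⟨i, j, hij⟩ := exists_two_prime_pow hG hprime2 h3 (by norm_num) (fun r hr hd => by
        left
        have := hr.two_le
        by_contra hne
        exact hex2 r hr (by omega) hd)
      exact Cfsg.Agent.Lead.burnside_two_prime 2 3 i j hprime2 h3 hij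

end Cfsg.Agent.H19.Nse
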