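import Cfsg.Agent.Lib.H19.Nse4
import Cfsg.Prelude.Def_Solvable

set_option autoImplicit false

open scoped Pointwise

namespace Cfsg.Agent.H19.Nse

section abstract

variable {G A : Type*} [Group G] [Group A] (φ : G →* MulAut A)

/-- the twisted trace, by recursion. -/
def Tr (t : G) (v : A) : ℕ → A
  | 0 => 1
  | n + 1 => Tr t v n * φ (t ^ n) v

def Fpf (t : G) : Prop := ∀ w : A, φ t w = w → w = 1

end abstract

section abstract2

variable {G A : Type*} [Group G] [CommGroup A] (φ : G →* MulAut A)

lemma Tr_eq_prod (t : G) (v : A) (n : ℕ) :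
    Tr φ t v n = ∏ i ∈ Finset.range n, φ (t ^ i) v := by
  induction n with
  | zero => simp [Tr]
  | succ n ih => rw [Finset.prod_range_succ, ← ih]; rfl

lemma Tr_fixed {t : G} {n : ℕ} (ht : t ^ n = 1) (v : A) : φ t (Tr φ t v n) = Tr φ t v n := by
  rw [Tr_eq_prod, map_prod]
  have h1 : ∀ i, φ t (φ (t ^ i) v) = φ (t ^ (i + 1)) v := by
    intro i
    rw [pow_succ', map_mul]
    rfl
  simp only [h1]
  have h2 := Finset.prod_range_succ (fun i => φ (t ^ i) v) n
  have h3 := Finset.prod_range_succ' (fun i => φ (t ^ i) v) n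
  simp only [ht, pow_zero, map_one, MulAut.one_apply] at h2 h3
  exact mul_right_cancel (h3.symm.trans h2)

lemma Tr_eq_one {t : G} {n : ℕ} (ht : t ^ n = 1) (hf : Fpf φ t) (v : A) : Tr φ t v n = 1 :=
  hf _ (Tr_fixed φ ht v)

lemma trick_comm {y z : G} (hc : Commute y z) {s : ℕ} (hy : y ^ s = 1) (hz : z ^ s = 1) (hs : 0 < s)
    (h1 : ∀ k, Fpf φ (y * z ^ k)) (h2 : ∀ i, 0 < i → i < s → Fpf φ (z ^ i)) (v : A) : v ^ s = 1 := by
  have e0 : ∀ k, (y * z ^ k) ^ s = 1 := by
    intro k
    rw [(hc.pow_right k).mul_pow, hy, one_mul, ← pow_mul, mul_comm, pow_mul, hz, one_pow]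
  have e1 : ∀ k, Tr φ (y * z ^ k) v s = 1 := fun k => Tr_eq_one φ (e0 k) (h1 k) v
  have e2 : ∏ k ∈ Finset.range s, Tr φ (y * z ^ k) v s = 1 :=
    Finset.prod_eq_one (fun k _ => e1 k)
  simp only [Tr_eq_prod] at e2
  rw [Finset.prod_comm] at e2
  have e3 : ∀ i, ∏ k ∈ Finset.range s, φ ((y * z ^ k) ^ i) v = φ (y ^ i) (Tr φ (z ^ i) v s) := by
    intro i
    rw [Tr_eq_prod, map_prod]
    apply Finset.prod_congr rfl
    intro k _
    rw [(hc.pow_right k).mul_pow, map_mul, MulAut.mul_apply, ← pow_mul, ← pow_mul, mul_comm k i]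
  simp only [e3] at e2
  rw [Finset.prod_eq_single 0] at e2
  · rw [Tr_eq_prod] at e2
    simpa using e2
  · intro i hi hi0
    have his : i < s := Finset.mem_range.1 hi
    rw [Tr_eq_one φ (by rw [← pow_mul, mul_comm, pow_mul, hz, one_pow]) (h2 i (by omega) his) v, map_one]
  · intro h0
    exact absurd (Finset.mem_range.2 hs) h0

/-- geometric sum `1 + e + ... + e^(i-1)`. -/
def geo (e : ℕ) : ℕ → ℕ
  | 0 => 0
  | i + 1 => 1 + e * geo e i

lemma pow_formula {y x : G} {e : ℕ} (hconj : x * y * x⁻¹ = y ^ e) (j i : ℕ) :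
    (y ^ j * x) ^ i = (y ^ geo e i) ^ j * x ^ i := by
  induction i with
  | zero => simp [geo]
  | succ i ih =>
    rw [pow_succ', ih]
    have h1 : x * (y ^ geo e i) ^ j = y ^ (e * (geo e i * j)) * x := by
      have h2 : x * y ^ (geo e i * j) * x⁻¹ = (y ^ e) ^ (geo e i * j) := by
        rw [← hconj, conj_pow]
      rw [← pow_mul] at h2
      rw [← pow_mul, ← h2, inv_mul_cancel_right]
    have h3 : geo e (i + 1) * j = j + e * (geo e i * j) := by
      simp only [geo]; ring
    calc y ^ j * x * ((y ^ geo e i) ^ j * x ^ i) = y ^ j * (x * (y ^ geo e i) ^ j) * x ^ i := by group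
      _ = y ^ j * (y ^ (e * (geo e i * j)) * x) * x ^ i := by rw [h1]
      _ = y ^ (j + e * (geo e i * j)) * x * x ^ i := by rw [pow_add]; group
      _ = (y ^ geo e (i + 1)) ^ j * x ^ (i + 1) := by
          rw [← pow_mul, h3, pow_succ' x i, mul_assoc]

lemma trick_frob {y x : G} {e s r : ℕ} (hconj : x * y * x⁻¹ = y ^ e) (hy : y ^ s = 1) (hs : 0 < s)
    (hr : 0 < r) (hg : ∀ i, 0 < i → i < r → Fpf φ (y ^ geo e i)) (v : A)
    (hN : ∀ j, Tr φ (y ^ j * x) v r = 1) : v ^ s = 1 := by
  have e2 : ∏ j ∈ Finset.range s, Tr φ (y ^ j * x) v r = 1 :=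
    Finset.prod_eq_one (fun j _ => hN j)
  simp only [Tr_eq_prod] at e2
  rw [Finset.prod_comm] at e2
  have e3 : ∀ i, ∏ j ∈ Finset.range s, φ ((y ^ j * x) ^ i) v = Tr φ (y ^ geo e i) (φ (x ^ i) v) s := by
    intro i
    rw [Tr_eq_prod]
    apply Finset.prod_congr rfl
    intro j _
    rw [pow_formula hconj, map_mul, MulAut.mul_apply]
  simp only [e3] at e2
  rw [Finset.prod_eq_single 0] at e2
  · rw [Tr_eq_prod] at e2
    simpa [geo] using e2
  · intro i hi hi0
    have hir : i < r := Finset.mem_range.1 hi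
    exact Tr_eq_one φ (by rw [← pow_mul, mul_comm, pow_mul, hy, one_pow]) (hg i (by omega) hir) _
  · intro h0
    exact absurd (Finset.mem_range.2 hr) h0

end abstract2

variable {G : Type*} [Group G] [Finite G]

lemma Tr_pow_formula {V : Subgroup G} [V.Normal] (h : G) (v : V) (n : ℕ) :
    ((v : G) * h) ^ n = ((Tr (MulAut.conjNormal (H := V)) h v n : V) : G) * h ^ n := by
  induction n with
  | zero => simp [Tr]
  | succ n ih =>
    rw [pow_succ, ih]
    simp only [Tr]
    push_cast
    rw [MulAut.conjNormal_apply]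
    group

theorem frob_aux {r s : ℕ} (hr : r.Prime) (hs : s.Prime) (hrs : r ≠ s)
    (V : Subgroup G) [hVn : V.Normal] (hVc : ∀ u ∈ V, ∀ v ∈ V, u * v = v * u) (hVne : V ≠ ⊥)
    (hord : ∀ g : G, g ≠ 1 → orderOf g = r ∨ orderOf g = s) (hVr : ∀ v ∈ V, v ^ r = 1)
    (hsG : s ∣ Nat.card G) (hrG : r ∣ Nat.card G) :
    ∃ C : Subgroup G, Cfsg.IsFrobeniusComplement C ∧ (Nat.card C).Prime := by
  classical
  haveI := Fact.mk hr
  haveI := Fact.mk hs
  have hrs1 : Nat.Coprime r s := (Nat.coprime_primes hr hs).2 hrs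
  have hnomix : ∀ a b : G, Commute a b → a ^ r = 1 → b ^ s = 1 → a = 1 ∨ b = 1 := by
    intro a b hc ha hb
    by_contra hne
    push_neg at hne
    have h1 := orderOf_eq_prime ha hne.1
    have h2 := orderOf_eq_prime hb hne.2
    have h3 := hc.orderOf_mul_eq_mul_orderOf_of_coprime (by rw [h1, h2]; exact hrs1)
    rw [h1, h2] at h3
    have h4 : a * b ≠ 1 := by
      intro h
      rw [h, orderOf_one] at h3
      exact hr.one_lt.ne (Nat.eq_one_of_mul_eq_one_right h3.symm).symm
    have := hr.two_le
    have := hs.two_le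
    rcases hord _ h4 with h5 | h5 <;> rw [h3] at h5
    · have : s = 1 := by
        have h6 : r * s = r * 1 := by rw [h5, mul_one]
        exact Nat.eq_of_mul_eq_mul_left hr.pos h6
      omega
    · have : r = 1 := by
        have h6 : r * s = 1 * s := by rw [h5, one_mul]
        exact Nat.eq_of_mul_eq_mul_right hs.pos h6
      omega
  letI instC : CommGroup V :=
    { (inferInstance : Group V) with
      mul_comm := fun a b => Subtype.ext (hVc a a.2 b b.2) }
  let φ : G →* MulAut V := MulAut.conjNormal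
  have hfpf : ∀ t : G, t ^ s = 1 → t ≠ 1 → Fpf φ t := by
    intro t ht ht1 w hw
    have h1 : t * (w : G) * t⁻¹ = w := by
      have := congrArg Subtype.val hw
      rwa [MulAut.conjNormal_apply] at this
    have hc : Commute (w : G) t := (mul_inv_eq_iff_eq_mul.1 h1).symm
    rcases hnomix _ _ hc (hVr w w.2) ht with h | h
    · exact Subtype.ext h
    · exact absurd h ht1
  have hcontra : (∀ v : V, v ^ s = 1) → False := by
    intro h
    apply hVne
    rw [Subgroup.eq_bot_iff_forall]
    intro v hv
    have h1 := congrArg Subtype.val (h ⟨v, hv⟩)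
    have h2 : v ^ s = 1 := by simpa using h1
    have h3 := hVr v hv
    have h4 := Nat.dvd_gcd (orderOf_dvd_of_pow_eq_one h3) (orderOf_dvd_of_pow_eq_one h2)
    rw [hrs1] at h4
    exact orderOf_eq_one_iff.1 (Nat.dvd_one.1 h4)
  obtain ⟨S⟩ : Nonempty (Sylow s G) := inferInstance
  have hSord : ∀ u ∈ (S : Subgroup G), u ≠ 1 → orderOf u = s := by
    intro u hu hu1
    obtain ⟨k, hk⟩ := (IsPGroup.iff_orderOf.1 S.isPGroup') ⟨u, hu⟩
    have hk' : orderOf u = s ^ k := by
      rw [← Subgroup.orderOf_coe] at hk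
      exact hk
    rcases hord u hu1 with h | h
    · exfalso
      rw [h] at hk'
      have hk0 : k ≠ 0 := by
        rintro rfl
        rw [pow_zero] at hk'
        exact hr.one_lt.ne' hk'
      have h2 : s ∣ r := hk' ▸ dvd_pow_self s hk0
      exact hrs ((Nat.prime_dvd_prime_iff_eq hs hr).1 h2).symm
    · exact h
  have hGne : Nat.card G ≠ 0 := Nat.card_pos.ne'
  have hScard : Nat.card (S : Subgroup G) = s := by
    have hc := Sylow.card_eq_multiplicity S
    have hk0 : 1 ≤ (Nat.card G).factorization s := (hs.dvd_iff_one_le_factorization hGne).1 hsG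
    by_contra hne
    have hk2 : 2 ≤ (Nat.card G).factorization s := by
      by_contra hlt
      have h1 : (Nat.card G).factorization s = 1 := by omega
      rw [h1, pow_one] at hc
      exact hne hc
    have hcard2 : s ^ 2 ≤ Nat.card (S : Subgroup G) := by
      rw [hc]
      exact Nat.pow_le_pow_right hs.pos hk2
    haveI : Nontrivial (S : Subgroup G) := by
      rw [← Finite.one_lt_card_iff_nontrivial]
      have := hs.two_le
      nlinarith
    have hcn := S.isPGroup'.center_nontrivial
    have hcp : IsPGroup s (Subgroup.center (S : Subgroup G)) :=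
      S.isPGroup'.to_subgroup _
    obtain ⟨m, hm⟩ := IsPGroup.iff_card.1 hcp
    have hsc : s ∣ Nat.card (Subgroup.center (S : Subgroup G)) := by
      rw [hm]
      apply dvd_pow_self
      rintro rfl
      rw [pow_zero] at hm
      have := Finite.one_lt_card (α := Subgroup.center (S : Subgroup G))
      omega
    obtain ⟨z0, hz0⟩ := exists_prime_orderOf_dvd_card' s hsc
    set z : G := (((z0 : Subgroup.center (S : Subgroup G)) : (S : Subgroup G)) : G) with hz
    have hzS : z ∈ (S : Subgroup G) := ((z0 : Subgroup.center (S : Subgroup G)) : (S : Subgroup G)).2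
    have hzord : orderOf z = s := by
      rw [hz, Subgroup.orderOf_coe, Subgroup.orderOf_coe]
      exact hz0
    have hex : ∃ y ∈ (S : Subgroup G), y ∉ Subgroup.zpowers z := by
      by_contra hall
      push_neg at hall
      have h2 := Subgroup.card_le_of_le (show (S : Subgroup G) ≤ Subgroup.zpowers z from hall)
      rw [Nat.card_zpowers, hzord] at h2
      have := hs.two_le
      nlinarith
    obtain ⟨y, hyS, hyz⟩ := hex
    have hc1 : Commute y z := by
      have h1 := Subgroup.mem_center_iff.1 z0.2 ⟨y, hyS⟩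
      have h2 := congrArg Subtype.val h1
      exact h2
    have hy1 : y ≠ 1 := by
      rintro rfl
      exact hyz (Subgroup.one_mem _)
    have hpow : ∀ u ∈ (S : Subgroup G), u ^ s = 1 := by
      intro u hu
      by_cases h : u = 1
      · rw [h, one_pow]
      · rw [← hSord u hu h]; exact pow_orderOf_eq_one u
    apply hcontra
    intro v
    refine trick_comm φ hc1 (hpow y hyS) (hpow z hzS) hs.pos (fun k => hfpf _ ?_ ?_)
      (fun i hi his => hfpf _ ?_ ?_) v
    · exact hpow _ (Subgroup.mul_mem _ hyS (Subgroup.pow_mem _ hzS k))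
    · intro h
      apply hyz
      have h1 : y = (z ^ k)⁻¹ := eq_inv_of_mul_eq_one_left h
      rw [h1]
      exact Subgroup.inv_mem _ (Subgroup.pow_mem _ (Subgroup.mem_zpowers z) k)
    · exact hpow _ (Subgroup.pow_mem _ hzS i)
    · intro h
      have := orderOf_dvd_of_pow_eq_one h
      rw [hzord] at this
      have := Nat.le_of_dvd hi this
      omega
  -- a generator of S
  haveI : Nontrivial (S : Subgroup G) := by
    rw [← Finite.one_lt_card_iff_nontrivial, hScard]
    exact hs.one_lt
  obtain ⟨y0, hy0⟩ := exists_ne (1 : (S : Subgroup G))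
  set y : G := (y0 : G) with hy
  have hyS : y ∈ (S : Subgroup G) := y0.2
  have hy1 : y ≠ 1 := fun h => hy0 (Subtype.ext h)
  have hyord : orderOf y = s := hSord y hyS hy1
  have hzp : Subgroup.zpowers y = (S : Subgroup G) := by
    apply Subgroup.eq_of_le_of_card_ge
    · rw [Subgroup.zpowers_le]; exact hyS
    · rw [Nat.card_zpowers, hyord, hScard]
  have hys : y ^ s = 1 := by rw [← hyord]; exact pow_orderOf_eq_one y
  -- self-normalising
  have hN : ∀ g : G, g ∈ Subgroup.normalizer ((S : Subgroup G) : Set G) → g ∈ (S : Subgroup G) := by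
    intro g hg
    by_contra hgS
    have hg1 : g ≠ 1 := by
      rintro rfl
      exact hgS (Subgroup.one_mem _)
    rcases hord g hg1 with hgr | hgs
    swap
    · -- order s
      have h1 : IsPGroup s (Subgroup.zpowers g) := by
        apply IsPGroup.of_card (n := 1)
        rw [Nat.card_zpowers, hgs, pow_one]
      have h2 := IsPGroup.to_sup_of_normal_right' h1 S.isPGroup'
        (by rw [Subgroup.zpowers_le]; exact hg)
      have h3 := S.is_maximal' h2 le_sup_right
      apply hgS
      rw [← h3]
      exact (le_sup_left : Subgroup.zpowers g ≤ _) (Subgroup.mem_zpowers g)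
    -- order r
    have hxr : g ^ r = 1 := by rw [← hgr]; exact pow_orderOf_eq_one g
    have hconjmem : g * y * g⁻¹ ∈ Subgroup.zpowers y := by
      rw [hzp]
      exact (Subgroup.mem_normalizer_iff.1 hg y).1 hyS
    obtain ⟨e, he⟩ := (mem_powers_iff_mem_zpowers).2 hconjmem
    have hconj : g * y * g⁻¹ = y ^ e := he.symm
    have hnc : ¬ Commute g y := by
      intro hc
      rcases hnomix _ _ hc hxr hys with h | h
      · exact hg1 h
      · exact hy1 h
    have hpow := pow_formula (y := y) (x := g) (e := e) hconj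
    -- inverse of a coprime exponent
    have hinvexp : ∀ {u : G} {i n : ℕ}, u ^ n = 1 → orderOf u = n → Nat.Coprime n i → ∃ i', (u ^ i) ^ i' = u := by
      intro u i n _ hun hco
      obtain ⟨k, hk1, hk2⟩ := Nat.chineseRemainder hco 1 0
      obtain ⟨i', hi'⟩ := (Nat.modEq_zero_iff_dvd).1 hk2
      refine ⟨i', ?_⟩
      rw [← pow_mul, ← hi']
      have h1 : u ^ k = u ^ 1 := pow_eq_pow_iff_modEq.2 (hun ▸ hk1)
      rw [h1, pow_one]
    have hgne : ∀ i, 0 < i → i < r → y ^ geo e i ≠ 1 := by
      intro i hi hir h1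
      have h2 := hpow 1 i
      rw [pow_one, h1, one_pow, one_mul] at h2
      have hco : Nat.Coprime r i := ((Nat.Prime.coprime_iff_not_dvd hr).2 (fun hd => by
        have := Nat.le_of_dvd hi hd
        omega))
      obtain ⟨i', hi'⟩ := hinvexp hxr hgr hco
      have h3 : Commute (y * g) (g ^ i) := by
        rw [← h2]
        exact Commute.pow_right (Commute.refl _) i
      have h4 : Commute (y * g) g := by
        have := h3.pow_right i'
        rwa [hi'] at this
      apply hnc
      have h5 : y * g * g = g * (y * g) := h4.eq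
      have h6 : y * g = g * y := by
        apply mul_right_cancel (b := g)
        rw [h5, mul_assoc]
      exact h6.symm
    have hgf : ∀ i, 0 < i → i < r → Fpf φ (y ^ geo e i) := by
      intro i hi hir
      apply hfpf _ _ (hgne i hi hir)
      rw [← pow_mul, mul_comm, pow_mul, hys, one_pow]
    have hh : ∀ j, (y ^ j * g) ^ r = 1 := by
      intro j
      set h := y ^ j * g with hh
      have hh1 : h ≠ 1 := by
        intro h1
        apply hgS
        have h2 : g = (y ^ j)⁻¹ := eq_inv_of_mul_eq_one_right h1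
        rw [h2]
        exact Subgroup.inv_mem _ (Subgroup.pow_mem _ hyS j)
      rcases hord h hh1 with h2 | h2
      · rw [← h2]; exact pow_orderOf_eq_one h
      · exfalso
        have h3 : h ^ s = 1 := by rw [← h2]; exact pow_orderOf_eq_one h
        rw [hh, hpow j s] at h3
        have h4 : g ^ s ∈ (S : Subgroup G) := by
          have h5 : g ^ s = ((y ^ geo e s) ^ j)⁻¹ := eq_inv_of_mul_eq_one_right h3
          rw [h5]
          exact Subgroup.inv_mem _ (Subgroup.pow_mem _ (Subgroup.pow_mem _ hyS _) _)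
        obtain ⟨i', hi'⟩ := hinvexp hxr hgr hrs1
        apply hgS
        rw [← hi']
        exact Subgroup.pow_mem _ h4 _
    have hNj : ∀ (v : V) (j : ℕ), Tr φ (y ^ j * g) v r = 1 := by
      intro v j
      set h := y ^ j * g with hhh
      have hhr : h ^ r = 1 := hh j
      have hu : ((v : G) * h) ^ r = 1 := by
        by_cases hu1 : (v : G) * h = 1
        · rw [hu1, one_pow]
        rcases hord _ hu1 with h2 | h2
        · rw [← h2]; exact pow_orderOf_eq_one _
        · have h3 : ((v : G) * h) ^ s = 1 := by rw [← h2]; exact pow_orderOf_eq_one _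
          rw [Tr_pow_formula (V := V) h v s] at h3
          have h4 : h ^ s ∈ V := by
            have h5 : h ^ s = ((Tr (MulAut.conjNormal (H := V)) h v s : V) : G)⁻¹ :=
              eq_inv_of_mul_eq_one_right h3
            rw [h5]
            exact Subgroup.inv_mem _ (Subtype.property _)
          by_cases hh1 : h = 1
          · rw [hh1, mul_one]; exact hVr v v.2
          have hhord : orderOf h = r := orderOf_eq_prime hhr hh1
          obtain ⟨i', hi'⟩ := hinvexp hhr hhord hrs1
          have h5 : h ∈ V := by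
            rw [← hi']
            exact Subgroup.pow_mem _ h4 _
          exact hVr _ (Subgroup.mul_mem _ v.2 h5)
      rw [Tr_pow_formula (V := V) h v r, hhr, mul_one] at hu
      exact Subtype.ext hu
    apply hcontra
    intro v
    exact trick_frob φ hconj hys hs.pos hr.pos hgf v (hNj v)
  refine ⟨S, ⟨?_, ?_, ?_⟩, by rw [hScard]; exact hs⟩
  · intro h
    rw [h] at hyS
    exact hy1 (Subgroup.mem_bot.1 hyS)
  · intro h
    have h1 : Nat.card G = s := by
      rw [← hScard, h, Subgroup.card_top]
    rw [h1] at hrG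
    exact hrs ((Nat.prime_dvd_prime_iff_eq hr hs).1 hrG)
  · intro g hg
    by_contra hne
    obtain ⟨w, hw, hw1⟩ : ∃ w ∈ (S : Subgroup G) ⊓ (MulAut.conj g • (S : Subgroup G)), w ≠ 1 := by
      by_contra hcon
      push_neg at hcon
      exact hne ((Subgroup.eq_bot_iff_forall _).2 hcon)
    have hwS := (Subgroup.mem_inf.1 hw).1
    have hwQ := (Subgroup.mem_inf.1 hw).2
    have hwo := hSord w hwS hw1
    have h1 : Subgroup.zpowers w = (S : Subgroup G) := by
      apply Subgroup.eq_of_le_of_card_ge
      · rw [Subgroup.zpowers_le]; exact hwS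
      · rw [Nat.card_zpowers, hwo, hScard]
    have h2 : ((S : Subgroup G)) ≤ ((g • S : Sylow s G) : Subgroup G) := by
      rw [← h1, Subgroup.zpowers_le, Sylow.coe_subgroup_smul]
      exact hwQ
    have h3 := S.is_maximal' (g • S : Sylow s G).isPGroup' h2
    have h4 : g • S = S := Sylow.ext h3
    exact hg (hN g (Sylow.smul_eq_iff_mem_normalizer.1 h4))

end Cfsg.Agent.H19.Nse
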