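import Cfsg.Agent.Lib.H19.Nse5

set_option autoImplicit false

namespace Cfsg.Agent.H19.Nse

variable {G : Type*} [Group G] [Finite G]

lemma exists_abelian_normal [Group.IsSolvable G] [Nontrivial G] :
    ∃ V : Subgroup G, V.Normal ∧ V ≠ ⊥ ∧ ∀ u ∈ V, ∀ v ∈ V, u * v = v * u := by
  classical
  obtain ⟨n, hn⟩ := (Group.IsSolvable.solvable : ∃ n, derivedSeries G n = ⊥)
  have hex : ∃ n, derivedSeries G n = ⊥ := ⟨n, hn⟩
  set n0 := Nat.find hex with hn0
  have h0 : derivedSeries G n0 = ⊥ := Nat.find_spec hex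
  have hne0 : n0 ≠ 0 := by
    intro h
    rw [h, derivedSeries_zero] at h0
    exact top_ne_bot h0
  obtain ⟨m, hm⟩ := Nat.exists_eq_succ_of_ne_zero hne0
  have hV : derivedSeries G m ≠ ⊥ := by
    have := Nat.find_min hex (m := m) (by omega)
    exact this
  refine ⟨derivedSeries G m, derivedSeries_normal G m, hV, ?_⟩
  intro u hu v hv
  have h1 := Subgroup.commutator_mem_commutator hu hv
  have h2 : derivedSeries G (m + 1) = ⊥ := by
    rw [← h0, hm]
  rw [← derivedSeries_succ, h2, Subgroup.mem_bot] at h1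
  exact commutatorElement_eq_one_iff_mul_comm.1 h1

theorem frob_step {r s : ℕ} (hr : r.Prime) (hs : s.Prime) (hrs : r ≠ s)
    (V : Subgroup G) (hVn : V.Normal) (hVc : ∀ u ∈ V, ∀ v ∈ V, u * v = v * u) (hVne : V ≠ ⊥)
    (hord : ∀ g : G, g ≠ 1 → orderOf g = r ∨ orderOf g = s) {v0 : G} (hv0 : v0 ∈ V)
    (hv0o : orderOf v0 = r) (hsG : s ∣ Nat.card G) (hrG : r ∣ Nat.card G) :
    ∃ C : Subgroup G, Cfsg.IsFrobeniusComplement C ∧ (Nat.card C).Prime := by
  have hVr : ∀ v ∈ V, v ^ r = 1 := by
    intro v hv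
    by_cases hv1 : v = 1
    · rw [hv1, one_pow]
    rcases hord v hv1 with h | h
    · rw [← h]; exact pow_orderOf_eq_one v
    · exfalso
      have hco : Nat.Coprime r s := (Nat.coprime_primes hr hs).2 hrs
      have hc : Commute v0 v := hVc v0 hv0 v hv
      have h3 := hc.orderOf_mul_eq_mul_orderOf_of_coprime (by rw [hv0o, h]; exact hco)
      rw [hv0o, h] at h3
      have := hr.two_le
      have := hs.two_le
      have h4 : v0 * v ≠ 1 := by
        intro h5
        rw [h5, orderOf_one] at h3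
        nlinarith
      rcases hord _ h4 with h5 | h5 <;> rw [h3] at h5
      · have h6 : r * s = r * 1 := by rw [h5, mul_one]
        have := Nat.eq_of_mul_eq_mul_left hr.pos h6
        omega
      · have h6 : r * s = 1 * s := by rw [h5, one_mul]
        have := Nat.eq_of_mul_eq_mul_right hs.pos h6
        omega
  haveI := hVn
  exact frob_aux hr hs hrs V hVc hVne hord hVr hsG hrG

theorem main4004
    (hodd : Odd (Nat.card G))
    (h : (((fun m : ℕ => Nat.card {g : G // orderOf g = m}) '' Set.range (orderOf : G → ℕ))).ncard = 3) :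
    (Nat.card G).primeFactors.card ≤ 2 ∧
      ((Nat.card G).primeFactors.card = 2 →
        (∀ (p : ℕ) [Fact p.Prime] (P : Sylow p G), p ∣ Nat.card G → Monoid.exponent ↥(P : Subgroup G) = p) ∧
        ∃ C : Subgroup G, Cfsg.IsFrobeniusComplement C ∧ (Nat.card ↥C).Prime) := by
  classical
  obtain ⟨a, b, _, _, _, hvals⟩ := vals_of_ncard h
  have hG : Nat.card G ≠ 0 := Nat.card_pos.ne'
  have hodd3 : ∀ r : ℕ, r.Prime → r ∣ Nat.card G → 3 ≤ r := by
    intro r hr hd
    have h2 := hr.two_le
    by_contra hlt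
    have : r = 2 := by omega
    subst this
    exact (Nat.not_even_iff_odd.2 hodd) (even_iff_two_dvd.2 hd)
  have hmem : ∀ r, r ∈ (Nat.card G).primeFactors ↔ r.Prime ∧ r ∣ Nat.card G := by
    intro r
    simp [Nat.mem_primeFactors, hG]
  constructor
  · by_contra hcon
    push_neg at hcon
    obtain ⟨x, hx, y, hy, z, hz, hxy, hxz, hyz⟩ := Finset.two_lt_card.1 hcon
    obtain ⟨hxp, hxd⟩ := (hmem x).1 hx
    obtain ⟨hyp, hyd⟩ := (hmem y).1 hy
    obtain ⟨hzp, hzd⟩ := (hmem z).1 hz
    obtain ⟨_, _, _, hall⟩ := two_odd_facts hvals hxp hyp (hodd3 x hxp hxd) (hodd3 y hyp hyd) hxy hxd hyd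
    rcases hall z hzp (hodd3 z hzp hzd) hzd with h1 | h1
    · exact hxz h1.symm
    · exact hyz h1.symm
  · intro hcard
    obtain ⟨p, q, hpq, hset⟩ := Finset.card_eq_two.1 hcard
    have hpm : p ∈ (Nat.card G).primeFactors := by rw [hset]; simp
    have hqm : q ∈ (Nat.card G).primeFactors := by rw [hset]; simp
    obtain ⟨hp, hpG⟩ := (hmem p).1 hpm
    obtain ⟨hq, hqG⟩ := (hmem q).1 hqm
    have hp3 := hodd3 p hp hpG
    have hq3 := hodd3 q hq hqG
    have hprimes : ∀ r : ℕ, r.Prime → r ∣ Nat.card G → r = p ∨ r = q := by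
      intro r hr hd
      have := (hmem r).2 ⟨hr, hd⟩
      rw [hset] at this
      simpa using this
    obtain ⟨hne, hv, hc2, _⟩ := two_odd_facts hvals hp hq hp3 hq3 hpq hpG hqG
    obtain ⟨hpq0, _, _, hp20, hq20⟩ := dist_facts hv hp hq hp3 hq3 hpq hpG hqG rfl rfl
    have hord : ∀ g : G, g ≠ 1 → orderOf g = p ∨ orderOf g = q := by
      intro g hg1
      set n := orderOf g with hn
      have hn1 : n ≠ 1 := fun h => hg1 (orderOf_eq_one_iff.1 h)
      have hn0 : n ≠ 0 := (orderOf_pos g).ne'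
      have hnG : n ∣ Nat.card G := orderOf_dvd_natCard g
      have hdiv : ∀ d, d ∣ n → cnt G d ≠ 0 := by
        intro d hd
        refine cnt_ne_zero_iff.2 ⟨g ^ (n / d), ?_⟩
        have h1 : n / d ∣ orderOf g := Nat.div_dvd_of_dvd hd
        have hd0 : d ≠ 0 := fun h0 => hn0 (by rw [h0] at hd; exact Nat.eq_zero_of_zero_dvd hd)
        rw [orderOf_pow_of_dvd (Nat.div_pos (Nat.le_of_dvd (by omega) hd) (Nat.pos_of_ne_zero hd0)).ne' h1]
        rw [← hn, Nat.div_div_self hd hn0]
      obtain ⟨r, hr, hrn⟩ := Nat.exists_prime_and_dvd hn1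
      obtain ⟨m, hm⟩ := hrn
      by_cases hm1 : m = 1
      · rw [hm1, mul_one] at hm
        rcases hprimes r hr (hm ▸ hnG) with h1 | h1
        · left; rw [hm, h1]
        · right; rw [hm, h1]
      · exfalso
        obtain ⟨t, ht, htm⟩ := Nat.exists_prime_and_dvd hm1
        have hrt : r * t ∣ n := by
          rw [hm]
          exact Nat.mul_dvd_mul_left r htm
        have hrG : r ∣ Nat.card G := (Dvd.intro _ hm.symm).trans hnG
        have htG : t ∣ Nat.card G := ((Dvd.intro_left _ rfl : t ∣ r * t).trans hrt).trans hnG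
        have h2 := hdiv _ hrt
        rcases hprimes r hr hrG with rfl | rfl <;> rcases hprimes t ht htG with rfl | rfl
        · rw [← sq] at h2; exact h2 hp20
        · exact h2 hpq0
        · rw [mul_comm] at h2; exact h2 hpq0
        · rw [← sq] at h2; exact h2 hq20
    constructor
    · intro p0 hp0 P hd
      have hp0p : p0.Prime := hp0.out
      haveI : Nontrivial (P : Subgroup G) := by
        rw [← Finite.one_lt_card_iff_nontrivial, Sylow.card_eq_multiplicity]
        have h1 : 1 ≤ (Nat.card G).factorization p0 := (hp0p.dvd_iff_one_le_factorization hG).1 hd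
        exact Nat.one_lt_pow (by omega) hp0p.one_lt
      rw [Monoid.exponent_eq_prime_iff hp0p]
      intro g hg
      have hg1 : (g : G) ≠ 1 := fun h => hg (Subtype.ext h)
      obtain ⟨k, hk⟩ := (IsPGroup.iff_orderOf.1 P.isPGroup') g
      have hk0 : k ≠ 0 := by
        rintro rfl
        rw [pow_zero, orderOf_eq_one_iff] at hk
        exact hg hk
      have hdvd : p0 ∣ orderOf g := hk ▸ dvd_pow_self p0 hk0
      rw [← Subgroup.orderOf_coe] at hdvd ⊢
      rcases hord _ hg1 with h1 | h1 <;> rw [h1] at hdvd ⊢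
      · exact ((Nat.prime_dvd_prime_iff_eq hp0p hp).1 hdvd).symm
      · exact ((Nat.prime_dvd_prime_iff_eq hp0p hq).1 hdvd).symm
    · obtain ⟨i, j, hij⟩ := exists_two_prime_pow hG hp hq hpq hprimes
      haveI : Group.IsSolvable G := Cfsg.Agent.Lead.burnside_two_prime p q i j hp hq hij
      haveI : Nontrivial G := by
        rw [← Finite.one_lt_card_iff_nontrivial]
        have := Nat.le_of_dvd (Nat.pos_of_ne_zero hG) hpG
        omega
      obtain ⟨V, hVn, hVne, hVc⟩ := exists_abelian_normal (G := G)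
      obtain ⟨v0, hv0, hv01⟩ : ∃ w ∈ V, w ≠ 1 := by
        by_contra hcon
        push_neg at hcon
        exact hVne ((Subgroup.eq_bot_iff_forall _).2 hcon)
      rcases hord v0 hv01 with h1 | h1
      · exact frob_step hp hq hpq V hVn hVc hVne hord hv0 h1 hqG hpG
      · exact frob_step hq hp hpq.symm V hVn hVc hVne (fun g hg => (hord g hg).symm) hv0 h1 hpG hqG

end Cfsg.Agent.H19.Nse
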