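import Mathlib

/-!
Schur rings for a permutation group on `ZMod n` containing the translations.
-/

set_option autoImplicit false

namespace Cfsg.Agent.H19.SchurPP

open scoped BigOperators

variable {n : ℕ} [NeZero n] (Γ : Subgroup (Equiv.Perm (ZMod n)))

/-- `W` is a union of basic sets. -/
def IsS (W : Set (ZMod n)) : Prop := ∀ γ ∈ Γ, ∀ i j, γ j - γ i ∈ W ↔ j - i ∈ W

theorem IsS.compl {W : Set (ZMod n)} (h : IsS Γ W) : IsS Γ Wᶜ := by
  intro γ hγ i j
  exact not_congr (h γ hγ i j)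

theorem isS_zero : IsS Γ ({0} : Set (ZMod n)) := by
  intro γ _ i j
  simp only [Set.mem_singleton_iff, sub_eq_zero]
  exact γ.injective.eq_iff

/-- invariant elements of the group algebra -/
def Inv {R : Type*} [CommRing R] (a : AddMonoidAlgebra R (ZMod n)) : Prop :=
  ∀ γ ∈ Γ, ∀ i j, a.coeff (γ j - γ i) = a.coeff (j - i)

theorem coeff_mul_sum {R : Type*} [CommRing R] (a b : AddMonoidAlgebra R (ZMod n)) (z : ZMod n) :
    (a * b).coeff z = ∑ y : ZMod n, a.coeff y * b.coeff (z - y) := by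
  rw [AddMonoidAlgebra.coeff_mul_apply_left, Finsupp.sum_fintype _ _ (by simp)]
  apply Finset.sum_congr rfl
  intro y _
  rw [neg_add_eq_sub]

theorem Inv.mul {R : Type*} [CommRing R] {a b : AddMonoidAlgebra R (ZMod n)} (ha : Inv Γ a)
    (hb : Inv Γ b) : Inv Γ (a * b) := by
  intro γ hγ i j
  rw [coeff_mul_sum, coeff_mul_sum]
  -- substitute `y = γ k - γ i`
  let e : ZMod n ≃ ZMod n := γ.trans (Equiv.subRight (γ i))
  let e' : ZMod n ≃ ZMod n := Equiv.subRight i
  rw [← Equiv.sum_comp e (fun y => a.coeff y * b.coeff (γ j - γ i - y)),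
    ← Equiv.sum_comp e' (fun y => a.coeff y * b.coeff (j - i - y))]
  apply Finset.sum_congr rfl
  intro k _
  change a.coeff (γ k - γ i) * b.coeff (γ j - γ i - (γ k - γ i)) =
    a.coeff (k - i) * b.coeff (j - i - (k - i))
  rw [ha γ hγ i k, sub_sub_sub_cancel_right, sub_sub_sub_cancel_right, hb γ hγ k j]

theorem Inv.one {R : Type*} [CommRing R] : Inv Γ (1 : AddMonoidAlgebra R (ZMod n)) := by
  classical
  intro γ _ i j
  rw [AddMonoidAlgebra.one_def, AddMonoidAlgebra.coeff_single,
    Finsupp.single_apply, Finsupp.single_apply]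
  have : (0 = γ j - γ i) ↔ (0 = j - i) := by
    rw [eq_comm, sub_eq_zero, eq_comm (a := (0 : ZMod n)), sub_eq_zero]
    exact γ.injective.eq_iff
  simp only [this]

theorem Inv.pow {R : Type*} [CommRing R] {a : AddMonoidAlgebra R (ZMod n)} (ha : Inv Γ a) (k : ℕ) :
    Inv Γ (a ^ k) := by
  induction k with
  | zero => rw [pow_zero]; exact Inv.one Γ
  | succ k ih => rw [pow_succ]; exact ih.mul Γ ha

/-- the element of the group algebra given by a set -/
noncomputable def chi (R : Type*) [CommRing R] (W : Set (ZMod n)) : AddMonoidAlgebra R (ZMod n) :=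
  open Classical in ∑ t ∈ Finset.univ.filter (· ∈ W), AddMonoidAlgebra.single t 1

theorem coeff_chi (R : Type*) [CommRing R] (W : Set (ZMod n)) (z : ZMod n) [Decidable (z ∈ W)] :
    (chi R W).coeff z = if z ∈ W then 1 else 0 := by
  classical
  unfold chi
  rw [AddMonoidAlgebra.coeff_sum, Finsupp.finset_sum_apply]
  simp only [AddMonoidAlgebra.coeff_single, Finsupp.single_apply]
  rw [Finset.sum_ite_eq']
  simp only [Finset.mem_filter, Finset.mem_univ, true_and]

theorem inv_chi (R : Type*) [CommRing R] {W : Set (ZMod n)} (h : IsS Γ W) : Inv Γ (chi R W) := by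
  classical
  intro γ hγ i j
  rw [coeff_chi, coeff_chi]
  simp only [h γ hγ i j]

/-- the Frobenius computation -/
theorem frob_pow (q : ℕ) [hq : Fact q.Prime] (W : Set (ZMod n)) :
    (chi (ZMod q) W) ^ q =
      open Classical in ∑ t ∈ Finset.univ.filter (· ∈ W), AddMonoidAlgebra.single (q • t) (1 : ZMod q) := by
  classical
  haveI : CharP (AddMonoidAlgebra (ZMod q) (ZMod n)) q :=
    charP_of_injective_algebraMap (algebraMap (ZMod q) _).injective q
  haveI : ExpChar (AddMonoidAlgebra (ZMod q) (ZMod n)) q := ExpChar.prime hq.out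
  unfold chi
  rw [sum_pow_char]
  apply Finset.sum_congr rfl
  intro t _
  rw [AddMonoidAlgebra.single_pow, one_pow]

open Classical in
/-- the set given by Frobenius -/
def frobSet (q : ℕ) (W : Set (ZMod n)) : Set (ZMod n) :=
  {z | (((Finset.univ.filter (fun t => t ∈ W ∧ q • t = z)).card : ℕ) : ZMod q) ≠ 0}

theorem isS_frobSet (q : ℕ) [hq : Fact q.Prime] {W : Set (ZMod n)} (h : IsS Γ W) :
    IsS Γ (frobSet q W) := by
  classical
  have key : ∀ z, (chi (ZMod q) W ^ q).coeff z =
      (((Finset.univ.filter (fun t => t ∈ W ∧ q • t = z)).card : ℕ) : ZMod q) := by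
    intro z
    rw [frob_pow, AddMonoidAlgebra.coeff_sum, Finsupp.finset_sum_apply]
    simp only [AddMonoidAlgebra.coeff_single, Finsupp.single_apply]
    rw [Finset.sum_boole, Finset.filter_filter]
  have hinv := (inv_chi Γ (ZMod q) h).pow Γ q
  intro γ hγ i j
  have h1 := hinv γ hγ i j
  rw [key, key] at h1
  unfold frobSet
  simp only [Set.mem_setOf_eq]
  rw [h1]

/-- The block condition. -/
def IsBl (H : AddSubgroup (ZMod n)) : Prop := ∀ γ ∈ Γ, ∀ i j, j - i ∈ H → γ j - γ i ∈ H

theorem isBl_closure {W : Set (ZMod n)} (h : IsS Γ W) : IsBl Γ (AddSubgroup.closure W) := by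
  intro γ hγ i j hij
  have key : ∀ z ∈ AddSubgroup.closure W, ∀ i, γ (i + z) - γ i ∈ AddSubgroup.closure W := by
    intro z hz
    induction hz using AddSubgroup.closure_induction with
    | mem z hz =>
      intro i
      apply AddSubgroup.subset_closure
      rw [h γ hγ]
      simpa using hz
    | zero =>
      intro i
      simp [AddSubgroup.zero_mem]
    | add a b _ _ ha hb =>
      intro i
      have h1 : γ (i + (a + b)) - γ i = (γ ((i + a) + b) - γ (i + a)) + (γ (i + a) - γ i) := by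
        rw [add_assoc]
        ring
      rw [h1]
      exact AddSubgroup.add_mem _ (hb _) (ha _)
    | neg a _ ha =>
      intro i
      have h1 := ha (i + -a)
      rw [neg_add_cancel_right] at h1
      have h2 := AddSubgroup.neg_mem _ h1
      rwa [neg_sub] at h2
  have := key (j - i) hij i
  rwa [add_sub_cancel] at this

/-- the stabiliser of a set -/
def Stab (W : Set (ZMod n)) : AddSubgroup (ZMod n) where
  carrier := {x | ∀ y, y + x ∈ W ↔ y ∈ W}
  zero_mem' := by simp
  add_mem' := by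
    intro a b ha hb y
    rw [← add_assoc, hb, ha]
  neg_mem' := by
    intro a ha y
    have := ha (y + -a)
    rw [neg_add_cancel_right] at this
    exact this.symm

theorem mem_Stab {W : Set (ZMod n)} {x : ZMod n} : x ∈ Stab W ↔ ∀ y, y + x ∈ W ↔ y ∈ W := Iff.rfl

theorem isBl_Stab {W : Set (ZMod n)} (h : IsS Γ W) : IsBl Γ (Stab W) := by
  intro γ hγ i j hij y
  have hk : γ (γ.symm (y + γ j)) = y + γ j := Equiv.apply_symm_apply _ _
  set k := γ.symm (y + γ j) with hkdef
  have h1 := h γ hγ i k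
  have h2 := h γ hγ j k
  have h3 := hij (k - j)
  have e1 : y + (γ j - γ i) = γ k - γ i := by rw [hk]; ring
  have e2 : γ k - γ j = y := by rw [hk]; ring
  have e3 : k - j + (j - i) = k - i := by ring
  rw [e1, h1, ← e3, h3, ← h2, e2]

section prim

variable (hprim : ∀ H : AddSubgroup (ZMod n), IsBl Γ H → H = ⊥ ∨ H = ⊤)

include hprim

theorem sub_zero_of_sub_proper {W : Set (ZMod n)} (h : IsS Γ W) (P : AddSubgroup (ZMod n))
    (hP : P ≠ ⊤) (hWP : W ⊆ P) : W ⊆ {0} := by
  have h1 : AddSubgroup.closure W ≤ P := (AddSubgroup.closure_le _).mpr hWP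
  rcases hprim _ (isBl_closure Γ h) with h2 | h2
  · intro z hz
    have h3 : z ∈ AddSubgroup.closure W := AddSubgroup.subset_closure hz
    rw [h2, AddSubgroup.mem_bot] at h3
    exact h3
  · exfalso
    rw [h2] at h1
    exact hP (top_le_iff.mp h1)

theorem stab_bot_or_top {W : Set (ZMod n)} (h : IsS Γ W) : Stab W = ⊥ ∨ Stab W = ⊤ :=
  hprim _ (isBl_Stab Γ h)

end prim

/-- Atoms (basic sets). -/
structure Atom (T : Set (ZMod n)) : Prop where
  isS : IsS Γ T
  min : ∀ y ∈ T, ∀ W : Set (ZMod n), IsS Γ W → y ∈ W → T ⊆ W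

/-- the basic set of a point. -/
def cl (x : ZMod n) : Set (ZMod n) := {y | ∃ γ ∈ Γ, y = γ x - γ 0}

theorem mem_cl (x : ZMod n) : x ∈ cl Γ x := ⟨1, Γ.one_mem, by simp⟩

variable (hτ : ∀ c : ZMod n, (Equiv.addRight c : Equiv.Perm (ZMod n)) ∈ Γ)

include hτ in
theorem isS_cl (x : ZMod n) : IsS Γ (cl Γ x) := by
  have key : ∀ γ ∈ Γ, ∀ i j, j - i ∈ cl Γ x → γ j - γ i ∈ cl Γ x := by
    rintro γ hγ i j ⟨δ, hδ, hj⟩
    refine ⟨γ * (Equiv.addRight (i - δ 0)) * δ, Γ.mul_mem (Γ.mul_mem hγ (hτ _)) hδ, ?_⟩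
    have h1 : (γ * (Equiv.addRight (i - δ 0)) * δ) x = γ j := by
      simp only [Equiv.Perm.coe_mul, Function.comp_apply, Equiv.coe_addRight]
      congr 1
      have : j = δ x - δ 0 + i := by rw [← hj]; ring
      rw [this]
      ring
    have h2 : (γ * (Equiv.addRight (i - δ 0)) * δ) 0 = γ i := by
      simp only [Equiv.Perm.coe_mul, Function.comp_apply, Equiv.coe_addRight]
      congr 1
      ring
    rw [h1, h2]
  intro γ hγ i j
  refine ⟨fun h => ?_, key γ hγ i j⟩
  have := key γ⁻¹ (Γ.inv_mem hγ) (γ i) (γ j) h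
  simpa using this

theorem cl_min {x : ZMod n} {W : Set (ZMod n)} (h : IsS Γ W) (hx : x ∈ W) : cl Γ x ⊆ W := by
  rintro y ⟨γ, hγ, rfl⟩
  rw [h γ hγ]
  simpa using hx

include hτ in
theorem atom_cl (x : ZMod n) : Atom Γ (cl Γ x) := by
  refine ⟨isS_cl Γ hτ x, ?_⟩
  intro y hy W hW hyW
  by_cases hxW : x ∈ W
  · exact cl_min Γ hW hxW
  · exfalso
    have h1 : cl Γ x ⊆ Wᶜ := cl_min Γ hW.compl hxW
    exact h1 hy hyW

end Cfsg.Agent.H19.SchurPP
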