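import Mathlib
import Cfsg.Agent.Lib.H19.Schur1

/-!
Schur's theorem for `p`-power degree, `S`-ring part.
-/

set_option autoImplicit false

namespace Cfsg.Agent.H19.SchurPP

open scoped BigOperators

section arith

variable {p m : ℕ} [hp : Fact p.Prime] [NeZero (p ^ m)]

/-- multiples of `p` -/
def PP (p m : ℕ) [NeZero (p ^ m)] : AddSubgroup (ZMod (p ^ m)) where
  carrier := {z | ∃ c, z = (p : ZMod (p ^ m)) * c}
  zero_mem' := ⟨0, by simp⟩
  add_mem' := by
    rintro a b ⟨c, rfl⟩ ⟨d, rfl⟩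
    exact ⟨c + d, by ring⟩
  neg_mem' := by
    rintro a ⟨c, rfl⟩
    exact ⟨-c, by ring⟩

theorem mem_PP {z : ZMod (p ^ m)} : z ∈ PP p m ↔ ∃ c, z = (p : ZMod (p ^ m)) * c := Iff.rfl

theorem mem_PP_natCast_of_dvd {k : ℕ} (h : p ∣ k) : ((k : ℕ) : ZMod (p ^ m)) ∈ PP p m := by
  obtain ⟨c, rfl⟩ := h
  exact ⟨c, by push_cast; ring⟩

theorem dvd_val_of_mem_PP (hm : 1 ≤ m) {z : ZMod (p ^ m)} (h : z ∈ PP p m) : p ∣ z.val := by
  obtain ⟨c, rfl⟩ := h
  have h1 : (p : ZMod (p ^ m)) * c = ((p * c.val : ℕ) : ZMod (p ^ m)) := by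
    push_cast
    rw [ZMod.natCast_zmod_val]
  rw [h1, ZMod.val_natCast]
  have h2 : p ∣ p ^ m := dvd_pow_self p (by omega)
  exact (Nat.dvd_mod_iff h2).mpr (dvd_mul_right _ _)

theorem one_not_mem_PP (hm : 1 ≤ m) : (1 : ZMod (p ^ m)) ∉ PP p m := by
  intro h
  have h1 := dvd_val_of_mem_PP hm h
  have hgt : 1 < p ^ m := Nat.one_lt_pow (by omega) hp.out.one_lt
  haveI : Fact (1 < p ^ m) := ⟨hgt⟩
  rw [ZMod.val_one] at h1
  exact hp.out.one_lt.ne' (Nat.dvd_one.mp h1)

theorem PP_ne_top (hm : 1 ≤ m) : PP p m ≠ ⊤ := by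
  intro h
  apply one_not_mem_PP (p := p) hm
  rw [h]
  exact AddSubgroup.mem_top _

theorem isUnit_of_not_mem_PP (hm : 1 ≤ m) {z : ZMod (p ^ m)} (h : z ∉ PP p m) : IsUnit z := by
  have h1 : ¬ p ∣ z.val := by
    intro hd
    apply h
    have := mem_PP_natCast_of_dvd (m := m) hd
    rwa [ZMod.natCast_zmod_val] at this
  have h2 : z.val.Coprime (p ^ m) :=
    Nat.Coprime.pow_right m ((Nat.Prime.coprime_iff_not_dvd hp.out).mpr h1).symm
  have := (ZMod.isUnit_iff_coprime z.val (p ^ m)).mpr h2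
  rwa [ZMod.natCast_zmod_val] at this

theorem mem_PP_of_mul_eq_zero (hm : 2 ≤ m) {z : ZMod (p ^ m)} (h : (p : ZMod (p ^ m)) * z = 0) :
    z ∈ PP p m := by
  have h1 : (p : ZMod (p ^ m)) * z = ((p * z.val : ℕ) : ZMod (p ^ m)) := by
    push_cast
    rw [ZMod.natCast_zmod_val]
  rw [h1, ZMod.natCast_eq_zero_iff] at h
  obtain ⟨k, rfl⟩ : ∃ k, m = k + 1 := ⟨m - 1, by omega⟩
  have h2 : p ^ k ∣ z.val := Nat.dvd_of_mul_dvd_mul_left hp.out.pos (by rw [← pow_succ']; exact h)
  have h3 : p ∣ z.val := (dvd_pow_self p (by omega)).trans h2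
  have := mem_PP_natCast_of_dvd (m := k + 1) h3
  rwa [ZMod.natCast_zmod_val] at this

theorem exists_Q_ne (hm : 1 ≤ m) : ∃ q0 : ZMod (p ^ m), q0 ≠ 0 ∧ (p : ZMod (p ^ m)) * q0 = 0 := by
  obtain ⟨k, rfl⟩ : ∃ k, m = k + 1 := ⟨m - 1, by omega⟩
  refine ⟨((p ^ k : ℕ) : ZMod (p ^ (k + 1))), ?_, ?_⟩
  · rw [Ne, ZMod.natCast_eq_zero_iff]
    intro h
    have := Nat.le_of_dvd (pow_pos hp.out.pos _) h
    have h2 : p ^ k < p ^ (k + 1) := Nat.pow_lt_pow_right hp.out.one_lt (Nat.lt_succ_self k)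
    omega
  · rw [← Nat.cast_mul, ZMod.natCast_eq_zero_iff, pow_succ, mul_comm]

theorem card_Q_le : (Finset.univ.filter (fun z : ZMod (p ^ m) => (p : ZMod (p ^ m)) * z = 0)).card ≤ p := by
  have h := IsAddCyclic.card_nsmul_eq_zero_le (α := ZMod (p ^ m)) hp.out.pos
  convert h using 3
  simp [nsmul_eq_mul]

end arith

section main

variable {p m : ℕ} [hp : Fact p.Prime] [NeZero (p ^ m)] (Γ : Subgroup (Equiv.Perm (ZMod (p ^ m))))

theorem fiber_step (hprim : ∀ H : AddSubgroup (ZMod (p ^ m)), IsBl Γ H → H = ⊥ ∨ H = ⊤)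
    (hm : 1 ≤ m) {W : Set (ZMod (p ^ m))} (hW : IsS Γ W) {t q : ZMod (p ^ m)} (ht : t ∈ W)
    (htp : (p : ZMod (p ^ m)) * t ≠ 0) (hq : (p : ZMod (p ^ m)) * q = 0) : t + q ∈ W := by
  classical
  have hS := isS_frobSet Γ p hW
  have hsub : frobSet p W ⊆ (PP p m : Set (ZMod (p ^ m))) := by
    intro z hz
    unfold frobSet at hz
    simp only [Set.mem_setOf_eq] at hz
    have : (Finset.univ.filter (fun t => t ∈ W ∧ p • t = z)).Nonempty := by
      rw [Finset.nonempty_iff_ne_empty]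
      intro he
      apply hz
      convert Nat.cast_zero
      convert Finset.card_empty
    obtain ⟨w, hw⟩ := this
    rw [Finset.mem_filter] at hw
    refine ⟨w, ?_⟩
    rw [← hw.2.2, nsmul_eq_mul]
  have h0 := sub_zero_of_sub_proper Γ hprim hS (PP p m) (PP_ne_top hm) hsub
  have hz : p • t ∉ frobSet p W := by
    intro h
    have := h0 h
    rw [Set.mem_singleton_iff, nsmul_eq_mul] at this
    exact htp this
  unfold frobSet at hz
  simp only [Set.mem_setOf_eq, not_not] at hz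
  set F := Finset.univ.filter (fun t' => t' ∈ W ∧ p • t' = p • t) with hF
  have hcastF : ((F.card : ℕ) : ZMod p) = 0 := by convert hz
  have hdvd : p ∣ F.card := (ZMod.natCast_eq_zero_iff _ _).mp hcastF
  have htF : t ∈ F := by
    rw [hF, Finset.mem_filter]
    exact ⟨Finset.mem_univ _, ht, rfl⟩
  have hge : p ≤ F.card := Nat.le_of_dvd (Finset.card_pos.mpr ⟨t, htF⟩) hdvd
  set Q := Finset.univ.filter (fun z : ZMod (p ^ m) => (p : ZMod (p ^ m)) * z = 0) with hQ
  have hQc : Q.card ≤ p := card_Q_le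
  have himg : F.image (fun t' => t' - t) = Q := by
    apply Finset.eq_of_subset_of_card_le
    · intro z hz
      rw [Finset.mem_image] at hz
      obtain ⟨t', ht', rfl⟩ := hz
      rw [hF, Finset.mem_filter] at ht'
      rw [hQ, Finset.mem_filter]
      refine ⟨Finset.mem_univ _, ?_⟩
      have h1 := ht'.2.2
      rw [nsmul_eq_mul, nsmul_eq_mul] at h1
      rw [mul_sub, h1, sub_self]
    · rw [Finset.card_image_of_injective _ (sub_left_injective)]
      omega
  have hqQ : q ∈ Q := by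
    rw [hQ, Finset.mem_filter]
    exact ⟨Finset.mem_univ _, hq⟩
  rw [← himg, Finset.mem_image] at hqQ
  obtain ⟨t', ht', rfl⟩ := hqQ
  rw [hF, Finset.mem_filter] at ht'
  rw [add_sub_cancel]
  exact ht'.2.1

/-- image under multiplication -/
def mulSet (t : ZMod (p ^ m)) (W : Set (ZMod (p ^ m))) : Set (ZMod (p ^ m)) := (fun z => t * z) '' W

theorem isS_mulSet_prime (hm : 1 ≤ m) {q : ℕ} (hq : q.Prime) (hqp : q.Coprime p)
    {W : Set (ZMod (p ^ m))} (hW : IsS Γ W) : IsS Γ (mulSet (q : ZMod (p ^ m)) W) := by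
  classical
  haveI : Fact q.Prime := ⟨hq⟩
  have hu : IsUnit ((q : ℕ) : ZMod (p ^ m)) :=
    (ZMod.isUnit_iff_coprime q (p ^ m)).mpr (Nat.Coprime.pow_right m hqp)
  have hS := isS_frobSet Γ q hW
  have heq : frobSet q W = mulSet (q : ZMod (p ^ m)) W := by
    ext z
    unfold frobSet mulSet
    simp only [Set.mem_setOf_eq, Set.mem_image]
    constructor
    · intro hz
      have : (Finset.univ.filter (fun t => t ∈ W ∧ q • t = z)).Nonempty := by
        rw [Finset.nonempty_iff_ne_empty]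
        intro he
        apply hz
        convert Nat.cast_zero
        convert Finset.card_empty
      obtain ⟨w, hw⟩ := this
      rw [Finset.mem_filter] at hw
      exact ⟨w, hw.2.1, by rw [← hw.2.2, nsmul_eq_mul]⟩
    · rintro ⟨w, hw, rfl⟩
      have hF : (Finset.univ.filter (fun t => t ∈ W ∧ q • t = (q : ZMod (p ^ m)) * w)) = {w} := by
        ext t
        simp only [Finset.mem_filter, Finset.mem_univ, true_and, Finset.mem_singleton, nsmul_eq_mul]
        constructor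
        · rintro ⟨_, h⟩
          exact hu.mul_right_injective h
        · rintro rfl
          exact ⟨hw, rfl⟩
      convert one_ne_zero (α := ZMod q)
      rw [hF, Finset.card_singleton, Nat.cast_one]
  rw [← heq]
  exact hS

theorem isS_mulSet (hm : 1 ≤ m) (t : ℕ) : t.Coprime p → ∀ {W : Set (ZMod (p ^ m))}, IsS Γ W →
    IsS Γ (mulSet (t : ZMod (p ^ m)) W) := by
  induction t using Nat.recOnMul with
  | zero =>
    intro h
    exact absurd (Nat.coprime_zero_left _ |>.mp h) hp.out.one_lt.ne'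
  | one =>
    intro _ W hW
    have : mulSet ((1 : ℕ) : ZMod (p ^ m)) W = W := by
      unfold mulSet
      simp
    rwa [this]
  | prime q hq =>
    intro h W hW
    exact isS_mulSet_prime Γ hm hq h hW
  | mul a b ha hb =>
    intro h W hW
    have h1 := ha (Nat.Coprime.coprime_mul_right h) (hb (Nat.Coprime.coprime_mul_left h) hW)
    have : mulSet ((a * b : ℕ) : ZMod (p ^ m)) W =
        mulSet (a : ZMod (p ^ m)) (mulSet (b : ZMod (p ^ m)) W) := by
      unfold mulSet
      rw [Set.image_image]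
      push_cast
      simp only [mul_assoc]
    rwa [this]

variable {Γ}

theorem atom_has_Q (hprim : ∀ H : AddSubgroup (ZMod (p ^ m)), IsBl Γ H → H = ⊥ ∨ H = ⊤)
    (hm : 1 ≤ m) {T : Set (ZMod (p ^ m))} (hT : IsS Γ T) (h0 : (0 : ZMod (p ^ m)) ∉ T)
    {x : ZMod (p ^ m)} (hx : x ∈ T) : ∃ y ∈ T, (p : ZMod (p ^ m)) * y = 0 := by
  by_contra hno
  push_neg at hno
  obtain ⟨q0, hq0, hpq0⟩ := exists_Q_ne (p := p) hm
  have hmem : q0 ∈ Stab T := by
    intro y
    constructor
    · intro hy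
      have h1 := fiber_step Γ hprim hm hT hy (hno _ hy) (q := -q0) (by rw [mul_neg, hpq0, neg_zero])
      rwa [add_neg_cancel_right] at h1
    · intro hy
      exact fiber_step Γ hprim hm hT hy (hno _ hy) hpq0
  rcases stab_bot_or_top Γ hprim hT with h | h
  · rw [h, AddSubgroup.mem_bot] at hmem
    exact hq0 hmem
  · have h1 : -x ∈ Stab T := by rw [h]; exact AddSubgroup.mem_top _
    have h2 := (h1 x).mpr hx
    rw [add_neg_cancel] at h2
    exact h0 h2

theorem atom_mul_fix (hm : 1 ≤ m) {T : Set (ZMod (p ^ m))} (hT : Atom Γ T)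
    {y : ZMod (p ^ m)} (hy : y ∈ T) {t : ℕ} (ht : t.Coprime p)
    (hty : (t : ZMod (p ^ m)) * y = y) {u : ZMod (p ^ m)} (hu : u ∈ T) :
    (t : ZMod (p ^ m)) * u ∈ T := by
  have h1 : IsS Γ (mulSet (t : ZMod (p ^ m)) T) := isS_mulSet Γ hm t ht hT.isS
  have h2 : y ∈ mulSet (t : ZMod (p ^ m)) T := ⟨y, hy, hty⟩
  have h3 : T ⊆ mulSet (t : ZMod (p ^ m)) T := hT.min y hy _ h1 h2
  have h4 : T = mulSet (t : ZMod (p ^ m)) T :=
    Set.eq_of_subset_of_ncard_le h3 (Set.ncard_image_le (Set.toFinite _)) (Set.toFinite _)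
  rw [h4]
  exact ⟨u, hu, rfl⟩

theorem atom_P_inv (hm : 1 ≤ m) {T : Set (ZMod (p ^ m))} (hT : Atom Γ T)
    {y : ZMod (p ^ m)} (hy : y ∈ T) (hpy : (p : ZMod (p ^ m)) * y = 0)
    {u : ZMod (p ^ m)} (hu : u ∈ T) (huP : u ∉ PP p m) {y' : ZMod (p ^ m)} (hy' : y' ∈ PP p m) :
    u + y' ∈ T := by
  obtain ⟨c, rfl⟩ := hy'
  obtain ⟨u', hu'⟩ := (isUnit_of_not_mem_PP hm huP).exists_right_inv
  set t0 : ZMod (p ^ m) := 1 + p * (c * u') with ht0
  have hcast : ((t0.val : ℕ) : ZMod (p ^ m)) = t0 := ZMod.natCast_zmod_val t0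
  have hcop : t0.val.Coprime p := by
    apply Nat.Coprime.symm
    rw [Nat.Prime.coprime_iff_not_dvd hp.out]
    intro hd
    have h1 := mem_PP_natCast_of_dvd (m := m) hd
    rw [hcast, ht0] at h1
    apply one_not_mem_PP (p := p) hm
    have h2 : (1 : ZMod (p ^ m)) = (1 + p * (c * u')) + -(p * (c * u')) := by ring
    rw [h2]
    exact AddSubgroup.add_mem _ h1 (AddSubgroup.neg_mem _ ⟨_, rfl⟩)
  have h1 := atom_mul_fix hm hT hy hcop (by
    rw [hcast, ht0]
    calc (1 + p * (c * u')) * y = y + (c * u') * (p * y) := by ring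
      _ = y := by rw [hpy]; ring) hu
  rw [hcast, ht0] at h1
  have h2 : (1 + p * (c * u')) * u = u + p * c := by
    calc (1 + p * (c * u')) * u = u + p * c * (u * u') := by ring
      _ = u + p * c := by rw [hu']; ring
  rwa [h2] at h1

open Classical in
/-- The order of `P`. -/
noncomputable def NN (p m : ℕ) [NeZero (p ^ m)] : ℕ :=
  (Finset.univ.filter (fun z : ZMod (p ^ m) => z ∈ PP p m)).card

open Classical in
theorem NN_dvd (X : Finset (ZMod (p ^ m))) (hX : ∀ x ∈ X, ∀ y ∈ PP p m, x + y ∈ X) :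
    NN p m ∣ X.card := by
  classical
  let π := QuotientAddGroup.mk' (PP p m)
  rw [Finset.card_eq_sum_card_image π X]
  apply Finset.dvd_sum
  intro c hc
  rw [Finset.mem_image] at hc
  obtain ⟨x0, hx0, rfl⟩ := hc
  have : X.filter (fun a => π a = π x0) =
      (Finset.univ.filter (fun z : ZMod (p ^ m) => z ∈ PP p m)).image (fun y => x0 + y) := by
    ext a
    simp only [Finset.mem_filter, Finset.mem_image, Finset.mem_univ, true_and]
    constructor
    · rintro ⟨_, h⟩
      have h1 : -x0 + a ∈ PP p m := QuotientAddGroup.eq.mp h.symm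
      exact ⟨_, h1, by ring⟩
    · rintro ⟨y, hy, rfl⟩
      refine ⟨hX x0 hx0 y hy, ?_⟩
      symm
      apply QuotientAddGroup.eq.mpr
      rw [neg_add_cancel_left]
      exact hy
  rw [this, Finset.card_image_of_injective _ (add_right_injective x0)]
  rfl

open Classical in
/-- the convolution count -/
noncomputable def cc (T : Set (ZMod (p ^ m))) (z : ZMod (p ^ m)) : ℕ :=
  (Finset.univ.filter (fun w => w ∈ T ∧ z - w ∈ T)).card

theorem coeff_chi_mul (T : Set (ZMod (p ^ m))) (z : ZMod (p ^ m)) :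
    (chi ℤ T * chi ℤ T).coeff z = (cc T z : ℤ) := by
  classical
  rw [coeff_mul_sum]
  unfold cc
  rw [Finset.card_filter]
  push_cast
  apply Finset.sum_congr rfl
  intro w _
  rw [coeff_chi, coeff_chi]
  by_cases h1 : w ∈ T <;> by_cases h2 : z - w ∈ T <;> simp [h1, h2]

theorem cc_eq_of_atom {T : Set (ZMod (p ^ m))} (hT : Atom Γ T) {u y : ZMod (p ^ m)} (hu : u ∈ T)
    (hy : y ∈ T) : cc T u = cc T y := by
  have hinv := (inv_chi Γ ℤ hT.isS).mul Γ (inv_chi Γ ℤ hT.isS)
  have hS : IsS Γ {z | cc T z = cc T y} := by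
    intro γ hγ i j
    have h1 := hinv γ hγ i j
    rw [coeff_chi_mul, coeff_chi_mul] at h1
    have h2 : cc T (γ j - γ i) = cc T (j - i) := by exact_mod_cast h1
    simp only [Set.mem_setOf_eq, h2]
  exact hT.min y hy _ hS rfl hu

open Classical in
theorem count_contra (hm : 2 ≤ m) {T : Set (ZMod (p ^ m))} (hT : Atom Γ T)
    {y0 : ZMod (p ^ m)} (hy0 : y0 ∈ T) (hpy0 : (p : ZMod (p ^ m)) * y0 = 0)
    {u : ZMod (p ^ m)} (hu : u ∈ T) (huP : u ∉ PP p m)
    (hlt : 2 * (Finset.univ.filter (fun w : ZMod (p ^ m) => w ∈ T ∧ w ∈ PP p m)).card < NN p m) :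
    False := by
  have hm1 : 1 ≤ m := by omega
  have hy0P : y0 ∈ PP p m := mem_PP_of_mul_eq_zero hm hpy0
  have hPinv : ∀ {x y' : ZMod (p ^ m)}, x ∈ T → x ∉ PP p m → y' ∈ PP p m → x + y' ∈ T :=
    fun hx hxP hy' => atom_P_inv hm1 hT hy0 hpy0 hx hxP hy'
  have hnotP : ∀ {x y' : ZMod (p ^ m)}, x ∉ PP p m → y' ∈ PP p m → x + y' ∉ PP p m := by
    intro x y' hx hy' h
    apply hx
    have : x = (x + y') + -y' := by ring
    rw [this]
    exact AddSubgroup.add_mem _ h (AddSubgroup.neg_mem _ hy')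
  set A := Finset.univ.filter (fun w : ZMod (p ^ m) => w ∈ T ∧ w ∈ PP p m) with hA
  -- decomposition at `u`
  set A' := Finset.univ.filter (fun w : ZMod (p ^ m) => w ∈ T ∧ w ∉ PP p m ∧ u - w ∈ T ∧ u - w ∈ PP p m)
    with hA'
  set E := Finset.univ.filter (fun w : ZMod (p ^ m) => w ∈ T ∧ w ∉ PP p m ∧ u - w ∈ T ∧ u - w ∉ PP p m)
    with hE
  have hcu : cc T u = A.card + A'.card + E.card := by
    unfold cc
    rw [hA, hA', hE, Finset.card_filter, Finset.card_filter, Finset.card_filter, Finset.card_filter,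
      ← Finset.sum_add_distrib, ← Finset.sum_add_distrib]
    apply Finset.sum_congr rfl
    intro w _
    by_cases h1 : w ∈ T
    · by_cases h2 : w ∈ PP p m
      · have h3 : u - w ∈ T := by
          rw [sub_eq_add_neg]
          exact hPinv hu huP (AddSubgroup.neg_mem _ h2)
        simp [h1, h2, h3]
      · by_cases h3 : u - w ∈ T <;> by_cases h4 : u - w ∈ PP p m <;> simp [h1, h2, h3, h4]
    · simp [h1]
  have hA'card : A'.card = A.card := by
    have : A' = A.image (fun w => u - w) := by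
      ext w
      simp only [hA, hA', Finset.mem_filter, Finset.mem_univ, true_and, Finset.mem_image]
      constructor
      · rintro ⟨h1, h2, h3, h4⟩
        exact ⟨u - w, ⟨h3, h4⟩, by ring⟩
      · rintro ⟨w', ⟨h1, h2⟩, rfl⟩
        refine ⟨?_, ?_, ?_, ?_⟩
        · rw [sub_eq_add_neg]
          exact hPinv hu huP (AddSubgroup.neg_mem _ h2)
        · rw [sub_eq_add_neg]
          exact hnotP huP (AddSubgroup.neg_mem _ h2)
        · rwa [sub_sub_cancel]
        · rwa [sub_sub_cancel]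
    rw [this, Finset.card_image_of_injective _ (sub_right_injective)]
  have hEdvd : NN p m ∣ E.card := by
    apply NN_dvd
    intro x hx y' hy'
    simp only [hE, Finset.mem_filter, Finset.mem_univ, true_and] at hx ⊢
    obtain ⟨h1, h2, h3, h4⟩ := hx
    have e : u - (x + y') = (u - x) + -y' := by ring
    refine ⟨hPinv h1 h2 hy', hnotP h2 hy', ?_, ?_⟩
    · rw [e]
      exact hPinv h3 h4 (AddSubgroup.neg_mem _ hy')
    · rw [e]
      exact hnotP h4 (AddSubgroup.neg_mem _ hy')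
  -- decomposition at `y0`
  set D := Finset.univ.filter (fun w : ZMod (p ^ m) => w ∈ T ∧ w ∈ PP p m ∧ y0 - w ∈ T) with hD
  set E' := Finset.univ.filter (fun w : ZMod (p ^ m) => w ∈ T ∧ w ∉ PP p m ∧ y0 - w ∈ T) with hE'
  have hcy : cc T y0 = D.card + E'.card := by
    unfold cc
    rw [hD, hE', Finset.card_filter, Finset.card_filter, Finset.card_filter,
      ← Finset.sum_add_distrib]
    apply Finset.sum_congr rfl
    intro w _
    by_cases h1 : w ∈ T
    · by_cases h2 : w ∈ PP p m <;> by_cases h3 : y0 - w ∈ T <;> simp [h1, h2, h3]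
    · simp [h1]
  have hDle : D.card ≤ A.card := by
    apply Finset.card_le_card
    intro w hw
    simp only [hD, hA, Finset.mem_filter, Finset.mem_univ, true_and] at hw ⊢
    exact ⟨hw.1, hw.2.1⟩
  have hnotP2 : ∀ {w : ZMod (p ^ m)}, w ∉ PP p m → y0 - w ∉ PP p m := by
    intro w hw h
    apply hw
    have : w = y0 + -(y0 - w) := by ring
    rw [this]
    exact AddSubgroup.add_mem _ hy0P (AddSubgroup.neg_mem _ h)
  have hE'dvd : NN p m ∣ E'.card := by
    apply NN_dvd
    intro x hx y' hy'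
    simp only [hE', Finset.mem_filter, Finset.mem_univ, true_and] at hx ⊢
    obtain ⟨h1, h2, h3⟩ := hx
    have e : y0 - (x + y') = (y0 - x) + -y' := by ring
    refine ⟨hPinv h1 h2 hy', hnotP h2 hy', ?_⟩
    rw [e]
    exact hPinv h3 (hnotP2 h2) (AddSubgroup.neg_mem _ hy')
  have hApos : 0 < A.card := by
    apply Finset.card_pos.mpr
    exact ⟨y0, by simp only [hA, Finset.mem_filter, Finset.mem_univ, true_and]; exact ⟨hy0, hy0P⟩⟩
  have heq := cc_eq_of_atom hT hu hy0
  rw [hcu, hcy, hA'card] at heq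
  obtain ⟨k, hk⟩ := hEdvd
  obtain ⟨l, hl⟩ := hE'dvd
  rw [hk, hl] at heq
  set N := NN p m
  set a := A.card
  set d := D.card
  have hNpos : 0 < N := by omega
  rcases Nat.lt_or_ge k l with h | h
  · -- `N * k + N ≤ N * l`
    have h1 : N * (k + 1) ≤ N * l := Nat.mul_le_mul_left _ h
    rw [mul_add, mul_one] at h1
    omega
  · have h1 : N * l ≤ N * k := Nat.mul_le_mul_left _ h
    omega

/-- **Schur's theorem**, combinatorial form. -/
theorem schur_core (hm : 2 ≤ m) (hprim : ∀ H : AddSubgroup (ZMod (p ^ m)), IsBl Γ H → H = ⊥ ∨ H = ⊤)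
    (hτ : ∀ c : ZMod (p ^ m), (Equiv.addRight c : Equiv.Perm (ZMod (p ^ m))) ∈ Γ)
    {x x' : ZMod (p ^ m)} (hx : x ≠ 0) (hx' : x' ≠ 0) : x' ∈ cl Γ x := by
  classical
  by_contra hno
  have hm1 : 1 ≤ m := by omega
  have hzero : ∀ x : ZMod (p ^ m), x ≠ 0 → (0 : ZMod (p ^ m)) ∉ cl Γ x := by
    intro x hx h0
    have h1 : cl Γ x ⊆ ({0} : Set (ZMod (p ^ m)))ᶜ :=
      cl_min Γ (isS_zero Γ).compl (by simpa using hx)
    exact h1 h0 rfl
  have main : ∀ x : ZMod (p ^ m), x ≠ 0 →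
      NN p m ≤ 2 * (Finset.univ.filter (fun w : ZMod (p ^ m) => w ∈ cl Γ x ∧ w ∈ PP p m)).card := by
    intro x hx
    by_contra hlt
    push_neg at hlt
    have hT := atom_cl Γ hτ x
    obtain ⟨y0, hy0, hpy0⟩ := atom_has_Q hprim hm1 hT.isS (hzero x hx) (mem_cl Γ x)
    have : ∃ u ∈ cl Γ x, u ∉ PP p m := by
      by_contra hall
      push_neg at hall
      have h1 := sub_zero_of_sub_proper Γ hprim hT.isS (PP p m) (PP_ne_top hm1) hall
      exact hx (h1 (mem_cl Γ x))
    obtain ⟨u, hu, huP⟩ := this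
    exact count_contra hm hT hy0 hpy0 hu huP hlt
  have h1 := main x hx
  have h2 := main x' hx'
  have hdisj : Disjoint (Finset.univ.filter (fun w : ZMod (p ^ m) => w ∈ cl Γ x ∧ w ∈ PP p m))
      (Finset.univ.filter (fun w : ZMod (p ^ m) => w ∈ cl Γ x' ∧ w ∈ PP p m)) := by
    rw [Finset.disjoint_left]
    intro w hw hw'
    simp only [Finset.mem_filter, Finset.mem_univ, true_and] at hw hw'
    apply hno
    have hT := atom_cl Γ hτ x
    have hT' := atom_cl Γ hτ x'
    exact hT'.min w hw'.1 _ hT.isS hw.1 (mem_cl Γ x')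
  have hsub : (Finset.univ.filter (fun w : ZMod (p ^ m) => w ∈ cl Γ x ∧ w ∈ PP p m)) ∪
      (Finset.univ.filter (fun w : ZMod (p ^ m) => w ∈ cl Γ x' ∧ w ∈ PP p m)) ⊂
      Finset.univ.filter (fun z : ZMod (p ^ m) => z ∈ PP p m) := by
    rw [Finset.ssubset_iff_of_subset]
    · refine ⟨0, ?_, ?_⟩
      · simp only [Finset.mem_filter, Finset.mem_univ, true_and]
        exact AddSubgroup.zero_mem _
      · simp only [Finset.mem_union, Finset.mem_filter, Finset.mem_univ, true_and, not_or, not_and]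
        exact ⟨fun h => absurd h (hzero x hx), fun h => absurd h (hzero x' hx')⟩
    · intro w hw
      simp only [Finset.mem_union, Finset.mem_filter, Finset.mem_univ, true_and] at hw ⊢
      rcases hw with h | h <;> exact h.2
  have h3 := Finset.card_lt_card hsub
  rw [Finset.card_union_of_disjoint hdisj] at h3
  have h4 : (Finset.univ.filter (fun z : ZMod (p ^ m) => z ∈ PP p m)).card = NN p m := rfl
  omega

end main

end Cfsg.Agent.H19.SchurPP
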