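import Mathlib
import Cfsg.Agent.Lib.H19.Schur2

/-!
Schur's theorem for `p`-power degree, bridge to permutation groups.
-/

set_option autoImplicit false

namespace Cfsg.Agent.H19.SchurPP

open scoped Pointwise

section bridge

variable {Ω : Type*} [Fintype Ω] [DecidableEq Ω] {p m : ℕ} [hp : Fact p.Prime] [NeZero (p ^ m)]

theorem exists_phi (hΩ : Fintype.card Ω = p ^ m) (γ0 : Equiv.Perm Ω) (hγ0 : orderOf γ0 = p ^ m)
    (hm : 1 ≤ m) : ∃ e : ZMod (p ^ m) ≃ Ω, ∀ a b : ZMod (p ^ m),
      e (a + b) = (γ0 ^ a.val) (e b) := by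
  classical
  obtain ⟨k, rfl⟩ : ∃ k, m = k + 1 := ⟨m - 1, by omega⟩
  have hne : γ0 ^ p ^ k ≠ 1 := by
    intro h
    have h1 := orderOf_dvd_of_pow_eq_one h
    rw [hγ0] at h1
    have h2 := Nat.le_of_dvd (pow_pos hp.out.pos _) h1
    have h3 : p ^ k < p ^ (k + 1) := Nat.pow_lt_pow_right hp.out.one_lt (Nat.lt_succ_self k)
    omega
  obtain ⟨ω, hω⟩ : ∃ ω, (γ0 ^ p ^ k) ω ≠ ω := by
    by_contra hall
    push_neg at hall
    exact hne (Equiv.ext hall)
  have hone : γ0 ^ p ^ (k + 1) = 1 := by rw [← hγ0]; exact pow_orderOf_eq_one γ0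
  have hperiod : Function.IsPeriodicPt γ0 (p ^ (k + 1)) ω := by
    unfold Function.IsPeriodicPt Function.IsFixedPt
    rw [Equiv.Perm.iterate_eq_pow, hone]
    rfl
  have hmp : Function.minimalPeriod γ0 ω = p ^ (k + 1) := by
    have h1 : Function.minimalPeriod γ0 ω ∣ p ^ (k + 1) := hperiod.minimalPeriod_dvd
    obtain ⟨e, he, hd⟩ := (Nat.dvd_prime_pow hp.out).mp h1
    rcases Nat.lt_or_ge e (k + 1) with h2 | h2
    · exfalso
      apply hω
      have h3 : Function.minimalPeriod γ0 ω ∣ p ^ k := by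
        rw [hd]
        exact pow_dvd_pow _ (by omega)
      have h5 : Function.IsPeriodicPt γ0 (p ^ k) ω :=
        (Function.isPeriodicPt_minimalPeriod γ0 ω).trans_dvd h3
      unfold Function.IsPeriodicPt Function.IsFixedPt at h5
      rwa [Equiv.Perm.iterate_eq_pow] at h5
    · have : e = k + 1 := by omega
      rw [hd, this]
  let φ : ZMod (p ^ (k + 1)) → Ω := fun a => (γ0 ^ a.val) ω
  have hinj : Function.Injective φ := by
    intro a b hab
    have h1 : γ0^[a.val] ω = γ0^[b.val] ω := by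
      rw [Equiv.Perm.iterate_eq_pow, Equiv.Perm.iterate_eq_pow]
      exact hab
    have h2 := (Function.iterate_eq_iterate_iff_of_lt_minimalPeriod (by rw [hmp]; exact ZMod.val_lt a)
      (by rw [hmp]; exact ZMod.val_lt b)).mp h1
    exact ZMod.val_injective _ h2
  have hbij : Function.Bijective φ := by
    rw [Fintype.bijective_iff_injective_and_card]
    refine ⟨hinj, ?_⟩
    rw [ZMod.card, hΩ]
  refine ⟨Equiv.ofBijective φ hbij, ?_⟩
  intro a b
  change (γ0 ^ (a + b).val) ω = (γ0 ^ a.val) ((γ0 ^ b.val) ω)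
  have h := pow_mod_orderOf γ0 (a.val + b.val)
  rw [hγ0] at h
  rw [ZMod.val_add, ← Equiv.Perm.mul_apply, ← pow_add, h]

variable (G : Subgroup (Equiv.Perm Ω))

theorem not_preprimitive_of (hm : 2 ≤ m) (hΩ : Fintype.card Ω = p ^ m)
    (htr : MulAction.IsPretransitive G Ω) (h2 : ¬ MulAction.IsMultiplyPretransitive G Ω 2)
    (g : G) (hg : orderOf g = p ^ m) : ¬ MulAction.IsPreprimitive G Ω := by
  intro hprimG
  classical
  have hγ0 : orderOf (g : Equiv.Perm Ω) = p ^ m := by
    rw [← hg]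
    exact Subgroup.orderOf_coe g
  obtain ⟨e, he⟩ := exists_phi hΩ (g : Equiv.Perm Ω) hγ0 (by omega)
  let Γ : Subgroup (Equiv.Perm (ZMod (p ^ m))) := G.comap e.permCongrHom.toMonoidHom
  have hmemΓ : ∀ δ, δ ∈ Γ ↔ e.permCongr δ ∈ G := fun δ => Iff.rfl
  have hpc : ∀ δ x, (e.permCongr δ) (e x) = e (δ x) := by
    intro δ x
    simp [Equiv.permCongr_apply]
  have hτ : ∀ c : ZMod (p ^ m), (Equiv.addRight c : Equiv.Perm (ZMod (p ^ m))) ∈ Γ := by
    intro c
    rw [hmemΓ]
    have : e.permCongr (Equiv.addRight c) = (g : Equiv.Perm Ω) ^ c.val := by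
      ext x
      obtain ⟨y, rfl⟩ := e.surjective x
      rw [hpc]
      change e (y + c) = _
      rw [add_comm, he]
    rw [this]
    exact G.pow_mem g.2 _
  have hprim : ∀ H : AddSubgroup (ZMod (p ^ m)), IsBl Γ H → H = ⊥ ∨ H = ⊤ := by
    intro H hH
    let B : Set Ω := e '' (H : Set (ZMod (p ^ m)))
    have hstep : ∀ δ ∈ Γ, ∀ h ∈ H, δ h ∈ H → ∀ h'' ∈ H, δ h'' ∈ H := by
      intro δ hδ h hh hd h'' hh''
      have h1 := hH δ hδ h h'' (H.sub_mem hh'' hh)
      have h3 : δ h'' = (δ h'' - δ h) + δ h := by ring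
      rw [h3]
      exact H.add_mem h1 hd
    have hB : MulAction.IsBlock G B := by
      rw [MulAction.isBlock_iff_smul_eq_of_mem]
      rintro γ _ ⟨h, hh, rfl⟩ ⟨h', hh', hh2⟩
      let δ : Equiv.Perm (ZMod (p ^ m)) := e.symm.permCongr (γ : Equiv.Perm Ω)
      have hδ : δ ∈ Γ := by
        rw [hmemΓ]
        have : e.permCongr δ = (γ : Equiv.Perm Ω) := by
          ext x
          simp [δ, Equiv.permCongr_apply]
        rw [this]
        exact γ.2
      have hδe : ∀ x, e (δ x) = (γ : Equiv.Perm Ω) (e x) := by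
        intro x
        simp [δ, Equiv.permCongr_apply]
      have h1 : δ h = h' := by
        apply e.injective
        rw [hδe]
        exact hh2.symm
      ext x
      rw [Set.mem_smul_set_iff_inv_smul_mem]
      constructor
      · rintro ⟨y, hy, hxy⟩
        refine ⟨δ y, hstep δ hδ h hh (by rw [h1]; exact hh') y hy, ?_⟩
        rw [hδe, hxy]
        change γ • (γ⁻¹ • x) = x
        exact smul_inv_smul γ x
      · rintro ⟨y, hy, rfl⟩
        have h3 : δ⁻¹ h' = h := by
          rw [← h1]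
          simp
        refine ⟨δ⁻¹ y, hstep δ⁻¹ (Γ.inv_mem hδ) h' hh' (by rw [h3]; exact hh) y hy, ?_⟩
        have h4 : e y = γ • e (δ⁻¹ y) := by
          change e y = (γ : Equiv.Perm Ω) (e (δ⁻¹ y))
          rw [← hδe]
          simp
        rw [h4, inv_smul_smul]
    rcases hprimG.isTrivialBlock_of_isBlock hB with h | h
    · left
      rw [eq_bot_iff]
      intro z hz
      rw [AddSubgroup.mem_bot]
      have h1 : e z = e 0 := h ⟨z, hz, rfl⟩ ⟨0, H.zero_mem, rfl⟩
      exact e.injective h1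
    · right
      rw [eq_top_iff]
      intro z _
      have h1 : e z ∈ B := by rw [h]; exact Set.mem_univ _
      obtain ⟨w, hw, hwz⟩ := h1
      rwa [← e.injective hwz]
  have hall := fun x x' hx hx' => schur_core (Γ := Γ) hm hprim hτ (x := x) (x' := x') hx hx'
  apply h2
  rw [MulAction.is_two_pretransitive_iff]
  intro a b c d hab hcd
  obtain ⟨i, rfl⟩ := e.surjective a
  obtain ⟨j, rfl⟩ := e.surjective b
  obtain ⟨k, rfl⟩ := e.surjective c
  obtain ⟨l, rfl⟩ := e.surjective d
  have hij : j - i ≠ 0 := by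
    intro h
    apply hab
    rw [sub_eq_zero] at h
    rw [h]
  have hkl : l - k ≠ 0 := by
    intro h
    apply hcd
    rw [sub_eq_zero] at h
    rw [h]
  obtain ⟨δ, hδ, hδx⟩ := hall _ _ hij hkl
  let δ' : Equiv.Perm (ZMod (p ^ m)) :=
    (Equiv.addRight (k - δ 0)) * δ * (Equiv.addRight (-i))
  have hδ' : δ' ∈ Γ := Γ.mul_mem (Γ.mul_mem (hτ _) hδ) (hτ _)
  have h1 : δ' i = k := by
    simp only [δ', Equiv.Perm.coe_mul, Function.comp_apply, Equiv.coe_addRight]
    simp
  have h2' : δ' j = l := by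
    simp only [δ', Equiv.Perm.coe_mul, Function.comp_apply, Equiv.coe_addRight]
    have : j + -i = j - i := by ring
    rw [this]
    have h3 : δ (j - i) = l - k + δ 0 := by rw [hδx]; ring
    rw [h3]
    ring
  refine ⟨⟨e.permCongr δ', hδ'⟩, ?_, ?_⟩
  · change (e.permCongr δ') (e i) = e k
    rw [hpc, h1]
  · change (e.permCongr δ') (e j) = e l
    rw [hpc, h2']

/-- the other half -/
theorem not_pretransitive_closure (hm : 2 ≤ m) (hΩ : Fintype.card Ω = p ^ m)
    (htr : MulAction.IsPretransitive G Ω) (hnp : ¬ MulAction.IsPreprimitive G Ω)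
    (g : G) (hg : orderOf g = p ^ m) :
    ¬ MulAction.IsPretransitive (Subgroup.normalClosure ({g ^ (p ^ (m - 1))} : Set G)) Ω := by
  classical
  have hγ0 : orderOf (g : Equiv.Perm Ω) = p ^ m := by
    rw [← hg]
    exact Subgroup.orderOf_coe g
  obtain ⟨e, he⟩ := exists_phi hΩ (g : Equiv.Perm Ω) hγ0 (by omega)
  obtain ⟨B, hB, hBt⟩ : ∃ B : Set Ω, MulAction.IsBlock G B ∧ ¬ MulAction.IsTrivialBlock B := by
    by_contra hno
    push_neg at hno
    exact hnp { isTrivialBlock_of_isBlock := fun {B} hB => hno B hB }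
  have hBsub : ¬ B.Subsingleton := fun h => hBt (Or.inl h)
  have hBuniv : B ≠ Set.univ := fun h => hBt (Or.inr h)
  obtain ⟨a, ha, b, hb, hab⟩ : ∃ a ∈ B, ∃ b ∈ B, a ≠ b := by
    rw [Set.not_subsingleton_iff] at hBsub
    exact hBsub
  obtain ⟨c, hc⟩ : ∃ c, c ∉ B := by
    by_contra hall
    push_neg at hall
    exact hBuniv (Set.eq_univ_of_forall hall)
  -- the key
  have hkey : ∀ δ : G, (g ^ (p ^ (m - 1))) • (δ • B) = δ • B := by
    intro δ
    have hB' : MulAction.IsBlock G (δ • B) := hB.translate δ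
    have ha' : δ • a ∈ δ • B := ⟨a, ha, rfl⟩
    have hb' : δ • b ∈ δ • B := ⟨b, hb, rfl⟩
    have hab' : δ • a ≠ δ • b := fun h => hab (MulAction.injective δ h)
    obtain ⟨i, hi⟩ := e.surjective (δ • a)
    obtain ⟨j, hj⟩ := e.surjective (δ • b)
    have hij : j - i ≠ 0 := by
      intro h
      apply hab'
      rw [sub_eq_zero] at h
      rw [← hi, ← hj, h]
    set k := (j - i).val with hk
    have hgk : g ^ k • (δ • a) = δ • b := by
      have h1 := he (j - i) i
      rw [sub_add_cancel, hj, hi] at h1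
      rw [h1]
      rfl
    have hs : g ^ k • (δ • B) = δ • B := MulAction.isBlock_iff_smul_eq_of_mem.mp hB' ha' (by
      rw [hgk]
      exact hb')
    let S : Subgroup G := MulAction.stabilizer G (δ • B)
    have hgkS : g ^ k ∈ S := hs
    have hklt : k < p ^ m := ZMod.val_lt _
    have hkne : k ≠ 0 := by
      rw [hk]
      intro h
      exact hij ((ZMod.val_eq_zero _).mp h)
    have hgcd : Nat.gcd k (p ^ m) < p ^ m := by
      have h1 : Nat.gcd k (p ^ m) ≤ k := Nat.gcd_le_left _ (Nat.pos_of_ne_zero hkne)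
      omega
    obtain ⟨j', -, hj'⟩ := Nat.exists_mul_mod_eq_gcd hgcd
    obtain ⟨d, hd, hdeq⟩ := (Nat.dvd_prime_pow hp.out).mp (Nat.gcd_dvd_right k (p ^ m))
    have hd' : d < m := by
      by_contra hge
      have : d = m := by omega
      rw [hdeq, this] at hgcd
      omega
    have h1 : g ^ (p ^ d) ∈ S := by
      have h2 := pow_mod_orderOf g (k * j')
      rw [hg, hj', hdeq] at h2
      rw [h2, pow_mul]
      exact S.pow_mem hgkS _
    have h3 : g ^ (p ^ (m - 1)) = (g ^ (p ^ d)) ^ (p ^ (m - 1 - d)) := by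
      rw [← pow_mul, ← pow_add]
      congr 2
      omega
    rw [h3]
    exact S.pow_mem h1 _
  let K : Subgroup G :=
    { carrier := {ν | ∀ δ : G, ν • (δ • B) = δ • B}
      one_mem' := by
        intro δ
        rw [one_smul]
      mul_mem' := by
        intro x y hx hy δ
        rw [mul_smul, hy, hx]
      inv_mem' := by
        intro x hx δ
        have := hx δ
        nth_rewrite 1 [← this]
        rw [inv_smul_smul] }
  have hKn : K.Normal := by
    constructor
    intro n hn x δ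
    have h1 := hn (x⁻¹ * δ)
    rw [mul_smul, mul_smul, ← mul_smul x⁻¹ δ B, h1, ← mul_smul, mul_inv_cancel_left]
  have hle : Subgroup.normalClosure ({g ^ (p ^ (m - 1))} : Set G) ≤ K := by
    apply Subgroup.normalClosure_le_normal
    rintro x rfl
    exact hkey
  intro htrN
  obtain ⟨ν, hν⟩ := MulAction.exists_smul_eq (Subgroup.normalClosure ({g ^ (p ^ (m - 1))} : Set G)) a c
  apply hc
  have h1 : (ν : G) • B = B := by
    have := hle ν.2 1
    rwa [one_smul] at this
  rw [← h1, ← hν]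
  exact ⟨a, ha, rfl⟩

end bridge

end Cfsg.Agent.H19.SchurPP
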