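import Cfsg.Agent.Lib.H19.CocExt
import Cfsg.Agent.Lib.H19.Hopf3

/-! Multipliers of abelian groups (helper19). -/

set_option autoImplicit false
set_option linter.style.haveILetI false

namespace Cfsg.Agent.H19

open scoped commutatorElement

universe u v

section homs

variable {G : Type u} [CommGroup G] {R : Type v} [CommRing R]

/-- The cocycle `x, y ↦ α x * β y`. -/
def biMulOfHoms (α β : G →* Multiplicative R) : BiMul G R where
  f := fun x y => (α x).toAdd * (β y).toAdd
  hl := by
    intro x y z
    rw [map_mul, toAdd_mul, add_mul]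
  hr := by
    intro x y z
    rw [map_mul, toAdd_mul, mul_add]

end homs

theorem commT_eq_top_zmod {G : Type u} [Group G] {n : ℕ} (b : BiMul G (ZMod n))
    (h : (1 : ZMod n) ∈ CocExt.commT b) : CocExt.commT b = ⊤ := by
  rw [eq_top_iff]
  intro t _
  obtain ⟨k, rfl⟩ := ZMod.intCast_surjective t
  have : ((k : ℤ) : ZMod n) = k • (1 : ZMod n) := by simp
  rw [this]
  exact (CocExt.commT b).zsmul_mem h k

/-- Over a commutative group with commutators generating, the projection is a stem extension. -/
theorem proj_isStem {G : Type u} [CommGroup G] {T : Type v} [AddCommGroup T] (b : BiMul G T)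
    (h : CocExt.commT b = ⊤) : Cfsg.IsStemExtension (CocExt.proj : CocExt b →* G) := by
  have hk : ∀ x : CocExt b, x ∈ (CocExt.proj : CocExt b →* G).ker → x = CocExt.ofT x.t := by
    intro x hx
    ext
    · exact hx
    · rfl
  refine ⟨CocExt.proj_surjective, ?_, ?_⟩
  · intro x hx
    rw [hk x hx]
    exact CocExt.ofT_mem_center _
  · intro x hx
    rw [hk x hx]
    have : x.t ∈ CocExt.commT b := by rw [h]; exact AddSubgroup.mem_top _
    exact this

/-- The kernel of the projection is `T`. -/
def kerEquiv {G : Type u} [Group G] {T : Type v} [AddCommGroup T] (b : BiMul G T) :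
    (CocExt.proj : CocExt b →* G).ker ≃* Multiplicative T where
  toFun := fun x => Multiplicative.ofAdd x.1.t
  invFun := fun t => ⟨CocExt.ofT t.toAdd, rfl⟩
  left_inv := by
    rintro ⟨x, hx⟩
    apply Subtype.ext
    ext
    · exact (hx : x.g = 1).symm
    · rfl
  right_inv := fun t => rfl
  map_mul' := by
    rintro ⟨x, hx⟩ ⟨y, hy⟩
    have hx' : x.g = 1 := hx
    show Multiplicative.ofAdd (x.t + y.t + b.f x.g y.g) = _
    rw [hx', b.f_one_left, add_zero]
    rfl

instance cocExt_finite {G : Type u} [Group G] {T : Type v} [AddCommGroup T] (b : BiMul G T) [Finite G]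
    [Finite T] : Finite (CocExt b) :=
  Finite.of_injective (fun x => (x.g, x.t)) (by
    intro x y h
    have h1 := congrArg Prod.fst h
    have h2 := congrArg Prod.snd h
    exact CocExt.ext h1 h2)

/-- A non-cyclic finite abelian group maps onto `(ℤ/p)²`. -/
theorem exists_two_homs {G : Type u} [CommGroup G] [Finite G] (h : ¬ IsCyclic G) :
    ∃ (p : ℕ) (_ : Fact p.Prime) (α β : G →* Multiplicative (ZMod p)) (x y : G),
      (α x).toAdd = 1 ∧ (β y).toAdd = 1 ∧ (α y).toAdd = 0 ∧ (β x).toAdd = 0 := by
  classical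
  obtain ⟨ι, _, n, hn, ⟨e⟩⟩ := CommGroup.equiv_prod_multiplicative_zmod_of_finite G
  by_cases hc : Pairwise (Function.onFun Nat.Coprime n)
  · exfalso
    apply h
    let ψ : Multiplicative (ZMod (∏ i, n i)) →* G :=
      { toFun := fun z => e.symm (fun i => Multiplicative.ofAdd ((ZMod.prodEquivPi n hc z.toAdd) i))
        map_one' := by
          have : (fun i => Multiplicative.ofAdd ((ZMod.prodEquivPi n hc (1 : Multiplicative _).toAdd) i))
              = (1 : (i : ι) → Multiplicative (ZMod (n i))) := by
            ext i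
            simp
          rw [this, map_one]
        map_mul' := by
          intro a b
          rw [← map_mul]
          congr 1
          funext i
          rw [toAdd_mul, map_add]
          rfl }
    have hψ : Function.Surjective ψ := by
      intro g
      refine ⟨Multiplicative.ofAdd ((ZMod.prodEquivPi n hc).symm (fun i => (e g i).toAdd)), ?_⟩
      show e.symm _ = g
      rw [MulEquiv.symm_apply_eq]
      funext i
      rw [toAdd_ofAdd, RingEquiv.apply_symm_apply]
      rfl
    exact isCyclic_of_surjective ψ hψ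
  · unfold Pairwise at hc
    push Not at hc
    obtain ⟨i, j, hij, hcop⟩ := hc
    obtain ⟨p, hp, hpi, hpj⟩ := Nat.Prime.not_coprime_iff_dvd.mp hcop
    haveI : Fact p.Prime := ⟨hp⟩
    let cast_i : ZMod (n i) →+* ZMod p := ZMod.castHom hpi (ZMod p)
    let cast_j : ZMod (n j) →+* ZMod p := ZMod.castHom hpj (ZMod p)
    let α : G →* Multiplicative (ZMod p) :=
      { toFun := fun g => Multiplicative.ofAdd (cast_i (e g i).toAdd)
        map_one' := by simp
        map_mul' := by
          intro a b
          simp [map_mul] }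
    let β : G →* Multiplicative (ZMod p) :=
      { toFun := fun g => Multiplicative.ofAdd (cast_j (e g j).toAdd)
        map_one' := by simp
        map_mul' := by
          intro a b
          simp [map_mul] }
    refine ⟨p, inferInstance, α, β, e.symm (Pi.mulSingle i (Multiplicative.ofAdd 1)),
      e.symm (Pi.mulSingle j (Multiplicative.ofAdd 1)), ?_, ?_, ?_, ?_⟩
    · show cast_i (e (e.symm _) i).toAdd = 1
      rw [MulEquiv.apply_symm_apply, Pi.mulSingle_eq_same]
      simp
    · show cast_j (e (e.symm _) j).toAdd = 1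
      rw [MulEquiv.apply_symm_apply, Pi.mulSingle_eq_same]
      simp
    · show cast_i (e (e.symm _) i).toAdd = 0
      rw [MulEquiv.apply_symm_apply, Pi.mulSingle_eq_of_ne hij]
      simp
    · show cast_j (e (e.symm _) j).toAdd = 0
      rw [MulEquiv.apply_symm_apply, Pi.mulSingle_eq_of_ne hij.symm]
      simp

/-- S3950 -/
theorem hasCyclic_one_iff_isCyclic {G : Type u} [CommGroup G] [Finite G] :
    Cfsg.HasCyclicSchurMultiplier G 1 ↔ IsCyclic G := by
  constructor
  · intro hm
    by_contra hc
    obtain ⟨p, hp, α, β, x, y, h1, h2, h3, h4⟩ := exists_two_homs hc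
    rw [Hopf.hasCyclic_one_iff] at hm
    let b := biMulOfHoms α β
    have hx : x * y = y * x := mul_comm x y
    have h5 := CocExt.comm_mem_commT (b := b) x y hx
    have h6 : b.f x y - b.f y x = 1 := by
      show (α x).toAdd * (β y).toAdd - (α y).toAdd * (β x).toAdd = 1
      rw [h1, h2, h3, h4]
      simp
    rw [h6] at h5
    have htop := commT_eq_top_zmod b h5
    have hstem := proj_isStem b htop
    have hbot := hm (CocExt b) CocExt.proj hstem
    have hmem : (CocExt.ofT 1 : CocExt b) ∈ (CocExt.proj : CocExt b →* G).ker := rfl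
    rw [hbot] at hmem
    have h7 : (CocExt.ofT 1 : CocExt b).t = 0 := by
      rw [Subgroup.mem_bot.mp hmem]
      rfl
    exact one_ne_zero h7
  · intro hc
    rw [Hopf.hasCyclic_one_iff]
    intro Δ _ _ τ hτ
    have hcomm : ∀ a b : Δ, a * b = b * a := by
      have := MonoidHom.isMulCommutative_of_isCyclic_of_ker_le_center τ hτ.2.1
      exact fun a b => mul_comm' a b
    rw [eq_bot_iff]
    refine hτ.2.2.trans ?_
    rw [commutator_eq_closure, Subgroup.closure_le]
    rintro _ ⟨a, b, rfl⟩
    rw [commutatorElement_def, hcomm a b]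
    simp

/-- If the commutators of a generating set lie in a normal subgroup, so does the commutator subgroup. -/
theorem commutator_le_of_gens {Δ : Type*} [Group Δ] (S : Set Δ) (hS : Subgroup.closure S = ⊤)
    (N : Subgroup Δ) [N.Normal] (h : ∀ x ∈ S, ∀ y ∈ S, ⁅x, y⁆ ∈ N) : commutator Δ ≤ N := by
  let π := QuotientGroup.mk' N
  have hπ : Function.Surjective π := QuotientGroup.mk'_surjective N
  have hgen : Subgroup.closure (π '' S) = ⊤ := by
    have h1 := MonoidHom.map_closure π S
    rw [hS, Subgroup.map_top_of_surjective π hπ] at h1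
    exact h1.symm
  have hk : ∀ x ∈ π '' S, ∀ y ∈ π '' S, x * y = y * x := by
    rintro _ ⟨x, hx, rfl⟩ _ ⟨y, hy, rfl⟩
    have h1 : π ⁅x, y⁆ = 1 := (QuotientGroup.eq_one_iff _).mpr (h x hx y hy)
    rw [map_commutatorElement, commutatorElement_eq_one_iff_commute] at h1
    exact h1.eq
  have hall : ∀ y z : Δ ⧸ N, y * z = z * y := by
    intro y z
    have hy : y ∈ Subgroup.closure (π '' S) := hgen ▸ Subgroup.mem_top y
    have hz : z ∈ Subgroup.closure (π '' S) := hgen ▸ Subgroup.mem_top z
    letI := Subgroup.closureCommGroupOfComm hk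
    have := mul_comm (⟨y, hy⟩ : Subgroup.closure (π '' S)) ⟨z, hz⟩
    exact congrArg Subtype.val this
  rw [commutator_def, Subgroup.commutator_le]
  intro x _ y _
  rw [← QuotientGroup.eq_one_iff]
  show π ⁅x, y⁆ = 1
  rw [map_commutatorElement, commutatorElement_eq_one_iff_commute]
  exact hall _ _

/-- A hom out of `ZMod n` sending `1` to an element of order dividing `n`. -/
theorem exists_hom_zmod {K : Type*} [Group K] (z : K) (n : ℕ) (hz : z ^ n = 1) :
    ∃ f : Multiplicative (ZMod n) →* K, ∀ k : ℤ, f (Multiplicative.ofAdd (k : ZMod n)) = z ^ k := by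
  let g : ℤ →+ Additive K := zmultiplesHom (Additive K) (Additive.ofMul z)
  have hg : g n = 0 := by
    show (n : ℤ) • Additive.ofMul z = 0
    rw [natCast_zsmul]
    show Additive.ofMul (z ^ n) = 0
    rw [hz]
    rfl
  let h : ZMod n →+ Additive K := ZMod.lift n ⟨g, hg⟩
  refine ⟨AddMonoidHom.toMultiplicativeLeft h, ?_⟩
  intro k
  have h1 : h (k : ZMod n) = g k := ZMod.lift_coe n _ k
  show Additive.toMul (h (k : ZMod n)) = z ^ k
  rw [h1]
  show Additive.toMul (k • Additive.ofMul z) = z ^ k
  rfl

/-- If `K` lies in the cyclic group generated by `z ∈ K`, of order dividing `n`, then `ZMod n` surjects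
onto `K`. -/
theorem exists_surjection_zmod {Δ : Type*} [Group Δ] (K : Subgroup Δ) (z : Δ) (hz : z ∈ K)
    (hKz : K ≤ Subgroup.zpowers z) (n : ℕ) (hn : z ^ n = 1) :
    ∃ π : Multiplicative (ZMod n) →* K, Function.Surjective π := by
  have hz' : (⟨z, hz⟩ : K) ^ n = 1 := Subtype.ext hn
  obtain ⟨f, hf⟩ := exists_hom_zmod (⟨z, hz⟩ : K) n hz'
  refine ⟨f, ?_⟩
  rintro ⟨x, hx⟩
  obtain ⟨k, rfl⟩ := Subgroup.mem_zpowers_iff.mp (hKz hx)
  refine ⟨Multiplicative.ofAdd (k : ZMod n), ?_⟩
  rw [hf]
  apply Subtype.ext
  rfl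

/-- S3951 -/
theorem hasCyclic_zmod_prod (m n : ℕ) [NeZero m] [NeZero n] (hnm : n ∣ m) :
    Cfsg.HasCyclicSchurMultiplier (Multiplicative (ZMod m × ZMod n)) n := by
  classical
  let G := Multiplicative (ZMod m × ZMod n)
  let cst : ZMod m →+* ZMod n := ZMod.castHom hnm (ZMod n)
  let α : G →* Multiplicative (ZMod n) :=
    { toFun := fun g => Multiplicative.ofAdd (cst g.toAdd.1)
      map_one' := by
        show Multiplicative.ofAdd (cst (0 : ZMod m)) = 1
        rw [map_zero]
        rfl
      map_mul' := by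
        intro a b
        show Multiplicative.ofAdd (cst ((Multiplicative.toAdd a).1 + (Multiplicative.toAdd b).1)) = _
        rw [map_add]
        rfl }
  let β : G →* Multiplicative (ZMod n) :=
    { toFun := fun g => Multiplicative.ofAdd g.toAdd.2
      map_one' := rfl
      map_mul' := fun _ _ => rfl }
  let x : G := Multiplicative.ofAdd (1, 0)
  let y : G := Multiplicative.ofAdd (0, 1)
  constructor
  · let b := biMulOfHoms α β
    have h5 := CocExt.comm_mem_commT (b := b) x y (mul_comm x y)
    have h6 : b.f x y - b.f y x = 1 := by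
      show (cst (1 : ZMod m)) * (1 : ZMod n) - (cst (0 : ZMod m)) * (0 : ZMod n) = 1
      simp
    rw [h6] at h5
    have htop := commT_eq_top_zmod b h5
    exact ⟨CocExt b, inferInstance, inferInstance, CocExt.proj, proj_isStem b htop, ⟨kerEquiv b⟩⟩
  · intro Δ _ _ τ hτ
    obtain ⟨a, ha⟩ := hτ.1 x
    obtain ⟨b, hb⟩ := hτ.1 y
    set ζ : Δ := ⁅a, b⁆ with hζ
    have hdec : ∀ g : G, g = x ^ (g.toAdd.1.val) * y ^ (g.toAdd.2.val) := by
      intro g
      have h1 : ∀ k : ℕ, x ^ k = Multiplicative.ofAdd ((k : ZMod m), (0 : ZMod n)) := by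
        intro k
        show Multiplicative.ofAdd (k • ((1 : ZMod m), (0 : ZMod n))) = _
        simp
      have h2 : ∀ k : ℕ, y ^ k = Multiplicative.ofAdd ((0 : ZMod m), (k : ZMod n)) := by
        intro k
        show Multiplicative.ofAdd (k • ((0 : ZMod m), (1 : ZMod n))) = _
        simp
      rw [h1, h2]
      show g = Multiplicative.ofAdd (((g.toAdd.1.val : ℕ) : ZMod m) + 0, 0 + ((g.toAdd.2.val : ℕ) : ZMod n))
      simp
    have hζker : ζ ∈ τ.ker := by
      rw [MonoidHom.mem_ker, hζ, map_commutatorElement, commutatorElement_eq_one_iff_commute]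
      exact mul_comm _ _
    have hζc : ∀ g, g * ζ = ζ * g := Subgroup.mem_center_iff.mp (hτ.2.1 hζker)
    haveI hN : (Subgroup.zpowers ζ).Normal := by
      have hle : Subgroup.zpowers ζ ≤ Subgroup.center Δ := by
        rw [Subgroup.zpowers_le]
        exact hτ.2.1 hζker
      exact Hopf.normal_of_le_center' hle
    have hgen : Subgroup.closure (({a, b} : Set Δ) ∪ τ.ker) = ⊤ := by
      rw [eq_top_iff]
      intro d _
      have h1 := hdec (τ d)
      have h2 : a ^ ((τ d).toAdd.1.val) * b ^ ((τ d).toAdd.2.val) ∈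
          Subgroup.closure (({a, b} : Set Δ) ∪ τ.ker) := by
        apply Subgroup.mul_mem
        · exact Subgroup.pow_mem _ (Subgroup.subset_closure (by simp)) _
        · exact Subgroup.pow_mem _ (Subgroup.subset_closure (by simp)) _
      have h3 : (a ^ ((τ d).toAdd.1.val) * b ^ ((τ d).toAdd.2.val))⁻¹ * d ∈ τ.ker := by
        rw [MonoidHom.mem_ker, map_mul, map_inv, map_mul, map_pow, map_pow, ha, hb, ← h1, inv_mul_cancel]
      have h4 := Subgroup.mul_mem _ h2 (Subgroup.subset_closure (Or.inr h3))
      rwa [mul_inv_cancel_left] at h4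
    have hcomm : commutator Δ ≤ Subgroup.zpowers ζ := by
      apply commutator_le_of_gens _ hgen
      have hcen1 : ∀ k ∈ τ.ker, ∀ g : Δ, ⁅k, g⁆ = 1 := by
        intro k hk g
        rw [commutatorElement_eq_one_iff_commute]
        exact (Subgroup.mem_center_iff.mp (hτ.2.1 hk) g).symm
      have hcen2 : ∀ k ∈ τ.ker, ∀ g : Δ, ⁅g, k⁆ = 1 := by
        intro k hk g
        rw [commutatorElement_eq_one_iff_commute]
        exact (Subgroup.mem_center_iff.mp (hτ.2.1 hk) g)
      rintro u (hu | hu) v (hv | hv)
      · rcases hu with rfl | rfl <;> rcases hv with rfl | rfl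
        · rw [commutatorElement_self]; exact Subgroup.one_mem _
        · exact Subgroup.mem_zpowers _
        · rw [← commutatorElement_inv]; exact Subgroup.inv_mem _ (Subgroup.mem_zpowers _)
        · rw [commutatorElement_self]; exact Subgroup.one_mem _
      · rw [hcen2 v hv]; exact Subgroup.one_mem _
      · rw [hcen1 u hu]; exact Subgroup.one_mem _
      · rw [hcen1 u hu]; exact Subgroup.one_mem _
    have hbn : b ^ n ∈ τ.ker := by
      rw [MonoidHom.mem_ker, map_pow, hb]
      show Multiplicative.ofAdd (n • ((0 : ZMod m), (1 : ZMod n))) = 1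
      simp
    have hζn : ζ ^ n = 1 := by
      have h1 : a * b * a⁻¹ = ζ * b := by
        rw [hζ, commutatorElement_def]
        group
      have h2 : (a * b * a⁻¹) ^ n = a * b ^ n * a⁻¹ := conj_pow
      have h3 : a * b ^ n * a⁻¹ = b ^ n := by
        rw [Subgroup.mem_center_iff.mp (hτ.2.1 hbn) a, mul_inv_cancel_right]
      have hcom : Commute ζ b := (hζc b).symm
      have h4 : (ζ * b) ^ n = ζ ^ n * b ^ n := hcom.mul_pow n
      rw [h1, h4, h3] at h2
      exact mul_eq_right.mp h2
    exact exists_surjection_zmod τ.ker ζ hζker (fun k hk => hcomm (hτ.2.2 hk)) n hζn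

end Cfsg.Agent.H19
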