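import Cfsg.Agent.Lib.H19.SchurAb

/-! Multipliers of dihedral and dicyclic groups (helper19). -/

set_option autoImplicit false
set_option linter.style.haveILetI false

namespace Cfsg.Agent.H19

open scoped commutatorElement

universe u v

section inv

variable {Δ : Type*} {X : Type*} [Group Δ] [Group X] (τ : Δ →* X) (hτ : Cfsg.IsStemExtension τ)
  {r s : X} (hgen : Subgroup.closure ({r, s} : Set X) = ⊤) (hrel : s * r * s⁻¹ = r⁻¹)
  {A S : Δ} (hA : τ A = r) (hS : τ S = s)

include hτ hrel hA hS in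
theorem inv_setup : ∃ k ∈ τ.ker, S * A * S⁻¹ = A⁻¹ * k := by
  refine ⟨A * (S * A * S⁻¹), ?_, by group⟩
  rw [MonoidHom.mem_ker, map_mul, map_mul, map_mul, map_inv, hA, hS, hrel, mul_inv_cancel]

include hτ hrel hA hS in
theorem conj_A_c : A * (S * A * S⁻¹ * A⁻¹) * A⁻¹ = S * A * S⁻¹ * A⁻¹ := by
  obtain ⟨k, hk, h⟩ := inv_setup τ hτ hrel hA hS
  have hc := Subgroup.mem_center_iff.mp (hτ.2.1 hk)
  rw [h]
  calc A * (A⁻¹ * k * A⁻¹) * A⁻¹ = k * A⁻¹ * A⁻¹ := by group
    _ = A⁻¹ * k * A⁻¹ := by rw [hc A⁻¹]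

include hτ hrel hA hS in
theorem conj_S_c : S * (S * A * S⁻¹ * A⁻¹) * S⁻¹ = (S * A * S⁻¹ * A⁻¹)⁻¹ := by
  obtain ⟨k, hk, h⟩ := inv_setup τ hτ hrel hA hS
  have hc := Subgroup.mem_center_iff.mp (hτ.2.1 hk)
  have hci : ∀ g, g * k⁻¹ = k⁻¹ * g := fun g => by
    rw [eq_inv_mul_iff_mul_eq, ← mul_assoc, ← hc g, mul_inv_cancel_right]
  have h1 : S * A⁻¹ * S⁻¹ = k⁻¹ * A := by
    have : S * A⁻¹ * S⁻¹ = (S * A * S⁻¹)⁻¹ := by group
    rw [this, h, mul_inv_rev, inv_inv]
  rw [h]
  have e : A⁻¹ * k * A⁻¹ = k * A⁻¹ * A⁻¹ := by rw [hc A⁻¹]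
  rw [e]
  calc S * (k * A⁻¹ * A⁻¹) * S⁻¹ = (S * k) * (A⁻¹ * A⁻¹) * S⁻¹ := by simp only [mul_assoc]
    _ = k * S * (A⁻¹ * A⁻¹) * S⁻¹ := by rw [hc S]
    _ = k * ((S * A⁻¹ * S⁻¹) * (S * A⁻¹ * S⁻¹)) := by group
    _ = k * ((k⁻¹ * A) * (k⁻¹ * A)) := by rw [h1]
    _ = k * (k⁻¹ * (A * k⁻¹) * A) := by simp only [mul_assoc]
    _ = k * (k⁻¹ * (k⁻¹ * A) * A) := by rw [hci A]
    _ = k⁻¹ * A * A := by group
    _ = (k * A⁻¹ * A⁻¹)⁻¹ := by
        simp only [mul_inv_rev, inv_inv]
        rw [← hci A, mul_assoc, ← hci A]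

include hτ hrel hA hS in
/-- Conjugates of `c`. -/
theorem conj_c_dich (hgen' : Subgroup.closure (({A, S} : Set Δ) ∪ τ.ker) = ⊤) (g : Δ) :
    g * (S * A * S⁻¹ * A⁻¹) * g⁻¹ = S * A * S⁻¹ * A⁻¹ ∨
      g * (S * A * S⁻¹ * A⁻¹) * g⁻¹ = (S * A * S⁻¹ * A⁻¹)⁻¹ := by
  set c := S * A * S⁻¹ * A⁻¹ with hc
  have hg : g ∈ Subgroup.closure (({A, S} : Set Δ) ∪ τ.ker) := hgen' ▸ Subgroup.mem_top g
  induction hg using Subgroup.closure_induction with
  | mem x hx =>
    rcases hx with (rfl | rfl) | hx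
    · left; exact conj_A_c τ hτ hrel hA hS
    · right; exact conj_S_c τ hτ hrel hA hS
    · left
      rw [← Subgroup.mem_center_iff.mp (hτ.2.1 hx) c, mul_inv_cancel_right]
  | one => left; simp
  | mul x y _ _ hx hy =>
    have e : x * y * c * (x * y)⁻¹ = x * (y * c * y⁻¹) * x⁻¹ := by group
    have e' : ∀ z, x * z⁻¹ * x⁻¹ = (x * z * x⁻¹)⁻¹ := fun z => by group
    rcases hy with hy | hy
    · rw [e, hy]; exact hx
    · rw [e, hy, e']
      rcases hx with hx | hx
      · right; rw [hx]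
      · left; rw [hx, inv_inv]
  | inv x _ hx =>
    have e : x⁻¹ * c * x⁻¹⁻¹ = c ∨ x⁻¹ * c * x⁻¹⁻¹ = c⁻¹ := by
      rcases hx with hx | hx
      · left
        calc x⁻¹ * c * x⁻¹⁻¹ = x⁻¹ * (x * c * x⁻¹) * x⁻¹⁻¹ := by rw [hx]
          _ = c := by group
      · right
        have : x * c⁻¹ * x⁻¹ = c := by
          have h2 : x * c⁻¹ * x⁻¹ = (x * c * x⁻¹)⁻¹ := by group
          rw [h2, hx, inv_inv]
        calc x⁻¹ * c * x⁻¹⁻¹ = x⁻¹ * (x * c⁻¹ * x⁻¹) * x⁻¹⁻¹ := by rw [this]
          _ = c⁻¹ := by group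
    exact e

include hτ hrel hA hS hgen in
theorem closure_gen_ker : Subgroup.closure (({A, S} : Set Δ) ∪ τ.ker) = ⊤ := by
  rw [eq_top_iff]
  intro d _
  have h1 : τ d ∈ Subgroup.closure ({r, s} : Set X) := hgen ▸ Subgroup.mem_top _
  have h2 : Subgroup.closure ({r, s} : Set X) = (Subgroup.closure ({A, S} : Set Δ)).map τ := by
    rw [MonoidHom.map_closure, Set.image_pair, hA, hS]
  rw [h2] at h1
  obtain ⟨w, hw, hwd⟩ := h1
  have h3 : w⁻¹ * d ∈ τ.ker := by
    rw [MonoidHom.mem_ker, map_mul, map_inv, hwd, inv_mul_cancel]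
  have h4 : w ∈ Subgroup.closure (({A, S} : Set Δ) ∪ τ.ker) :=
    Subgroup.closure_mono Set.subset_union_left hw
  have h5 := Subgroup.mul_mem _ h4 (Subgroup.subset_closure (Or.inr h3))
  rwa [mul_inv_cancel_left] at h5

include hτ hrel hA hS hgen in
/-- The kernel lies in the cyclic subgroup generated by `c = [S, A]`. -/
theorem ker_le_zpowers_c : τ.ker ≤ Subgroup.zpowers (S * A * S⁻¹ * A⁻¹) := by
  have hgen' := closure_gen_ker τ hτ hgen hrel hA hS
  set c := S * A * S⁻¹ * A⁻¹ with hc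
  have hdich : ∀ g, g * c * g⁻¹ = c ∨ g * c * g⁻¹ = c⁻¹ := fun g =>
    conj_c_dich τ hτ hrel hA hS hgen' g
  haveI hN : (Subgroup.zpowers c).Normal := by
    constructor
    intro n hn g
    obtain ⟨k, rfl⟩ := Subgroup.mem_zpowers_iff.mp hn
    rw [← conj_zpow]
    rcases hdich g with h | h <;> rw [h]
    · exact Subgroup.zpow_mem _ (Subgroup.mem_zpowers c) k
    · exact Subgroup.zpow_mem _ (Subgroup.inv_mem _ (Subgroup.mem_zpowers c)) k
  have hcomm : commutator Δ ≤ Subgroup.zpowers c := by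
    apply commutator_le_of_gens _ hgen'
    have hcen1 : ∀ k ∈ τ.ker, ∀ g : Δ, ⁅k, g⁆ = 1 := by
      intro k hk g
      rw [commutatorElement_eq_one_iff_commute]
      exact (Subgroup.mem_center_iff.mp (hτ.2.1 hk) g).symm
    have hcen2 : ∀ k ∈ τ.ker, ∀ g : Δ, ⁅g, k⁆ = 1 := by
      intro k hk g
      rw [commutatorElement_eq_one_iff_commute]
      exact (Subgroup.mem_center_iff.mp (hτ.2.1 hk) g)
    have hSA : ⁅S, A⁆ = c := rfl
    rintro u (hu | hu) v (hv | hv)
    · rcases hu with rfl | rfl <;> rcases hv with rfl | rfl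
      · rw [commutatorElement_self]; exact Subgroup.one_mem _
      · rw [← commutatorElement_inv, hSA]; exact Subgroup.inv_mem _ (Subgroup.mem_zpowers _)
      · rw [hSA]; exact Subgroup.mem_zpowers _
      · rw [commutatorElement_self]; exact Subgroup.one_mem _
    · rw [hcen2 v hv]; exact Subgroup.one_mem _
    · rw [hcen1 u hu]; exact Subgroup.one_mem _
    · rw [hcen1 u hu]; exact Subgroup.one_mem _
  exact fun k hk => hcomm (hτ.2.2 hk)

include hτ hrel hA hS hgen in
theorem sq_eq_one_of_ker {z : Δ} (hz : z ∈ τ.ker) : z ^ 2 = 1 := by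
  have hle := ker_le_zpowers_c τ hτ hgen hrel hA hS
  set c := S * A * S⁻¹ * A⁻¹ with hc
  obtain ⟨k, rfl⟩ := Subgroup.mem_zpowers_iff.mp (hle hz)
  have h1 : S * c ^ k * S⁻¹ = (c ^ k)⁻¹ := by
    rw [← conj_zpow, conj_S_c τ hτ hrel hA hS, inv_zpow]
  have h2 : S * c ^ k * S⁻¹ = c ^ k := by
    rw [Subgroup.mem_center_iff.mp (hτ.2.1 hz) S, mul_inv_cancel_right]
  have h3 : c ^ k = (c ^ k)⁻¹ := h2.symm.trans h1
  rw [pow_two]
  nth_rw 1 [h3]
  exact inv_mul_cancel _

include hτ hrel hA hS in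
/-- If `A ^ n` is normalized by `S` then `c ^ n = 1`. -/
theorem c_pow_eq_one {n : ℕ} (hn : S * A ^ n * S⁻¹ = A ^ n) : (S * A * S⁻¹ * A⁻¹) ^ n = 1 := by
  obtain ⟨k, hk, h⟩ := inv_setup τ hτ hrel hA hS
  have hc := Subgroup.mem_center_iff.mp (hτ.2.1 hk)
  have hcomm1 : Commute A⁻¹ k := (hc A⁻¹)
  have h1 : (S * A * S⁻¹) ^ n = S * A ^ n * S⁻¹ := conj_pow
  rw [hn, h, hcomm1.mul_pow] at h1
  -- `A⁻ⁿ kⁿ = Aⁿ`
  have hkn : Commute (A⁻¹ ^ n) (k ^ n) := hcomm1.pow_pow n n
  have h2 : (A⁻¹ * k * A⁻¹) = k * A⁻¹ * A⁻¹ := by rw [hc A⁻¹]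
  rw [h, h2]
  have hcomm2 : Commute k (A⁻¹ * A⁻¹) := ((hc _)).symm
  rw [mul_assoc, hcomm2.mul_pow]
  have hAA : Commute A⁻¹ A⁻¹ := Commute.refl _
  rw [hAA.mul_pow]
  calc k ^ n * (A⁻¹ ^ n * A⁻¹ ^ n) = (A⁻¹ ^ n * k ^ n) * A⁻¹ ^ n := by
        rw [← mul_assoc, hkn.eq]
    _ = A ^ n * A⁻¹ ^ n := by rw [h1]
    _ = 1 := by rw [inv_pow, mul_inv_cancel]

end inv

section dihedral

open DihedralGroup

theorem dihedral_closure (n : ℕ) [NeZero n] :
    Subgroup.closure ({(r 1 : DihedralGroup n), sr 0} : Set (DihedralGroup n)) = ⊤ := by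
  rw [eq_top_iff]
  rintro g -
  have h1 : (r 1 : DihedralGroup n) ∈ Subgroup.closure ({(r 1 : DihedralGroup n), sr 0} : Set (DihedralGroup n)) :=
    Subgroup.subset_closure (by simp)
  have h2 : (sr 0 : DihedralGroup n) ∈ Subgroup.closure ({(r 1 : DihedralGroup n), sr 0} : Set (DihedralGroup n)) :=
    Subgroup.subset_closure (by simp)
  have hr : ∀ i : ZMod n, (r i : DihedralGroup n) ∈
      Subgroup.closure ({(r 1 : DihedralGroup n), sr 0} : Set (DihedralGroup n)) := by
    intro i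
    have : (r i : DihedralGroup n) = r 1 ^ i.val := by
      rw [r_one_pow, ZMod.natCast_zmod_val]
    rw [this]
    exact Subgroup.pow_mem _ h1 _
  cases g with
  | r i => exact hr i
  | sr i =>
    have : (sr i : DihedralGroup n) = sr 0 * r i := by
      rw [sr_mul_r, zero_add]
    rw [this]
    exact Subgroup.mul_mem _ h2 (hr i)

theorem dihedral_rel (n : ℕ) : (sr 0 : DihedralGroup n) * r 1 * (sr 0)⁻¹ = (r 1)⁻¹ := by
  rw [inv_sr, sr_mul_r, sr_mul_sr, inv_r]
  congr 1
  ring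

/-- S3964 -/
theorem dihedral_odd (n : ℕ) (hn : Odd n) : Cfsg.HasCyclicSchurMultiplier (DihedralGroup n) 1 := by
  haveI : NeZero n := ⟨fun h => by rw [h] at hn; exact absurd hn (by decide)⟩
  rw [Hopf.hasCyclic_one_iff]
  intro Δ _ _ τ hτ
  obtain ⟨A, hA⟩ := hτ.1 (r 1)
  obtain ⟨S, hS⟩ := hτ.1 (sr 0)
  have hgen := dihedral_closure n
  have hrel := dihedral_rel n
  have hAn : A ^ n ∈ τ.ker := by
    rw [MonoidHom.mem_ker, map_pow, hA, r_one_pow_n]
  have hSn : S * A ^ n * S⁻¹ = A ^ n := by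
    rw [Subgroup.mem_center_iff.mp (hτ.2.1 hAn) S, mul_inv_cancel_right]
  have hcn := c_pow_eq_one τ hτ hrel hA hS hSn
  have hle := ker_le_zpowers_c τ hτ hgen hrel hA hS
  rw [eq_bot_iff]
  intro z hz
  have h2 := sq_eq_one_of_ker τ hτ hgen hrel hA hS hz
  obtain ⟨k, rfl⟩ := Subgroup.mem_zpowers_iff.mp (hle hz)
  set c := S * A * S⁻¹ * A⁻¹ with hc
  have h3 : (c ^ k) ^ n = 1 := by
    rw [← zpow_natCast, ← zpow_mul, mul_comm, zpow_mul, zpow_natCast, hcn, one_zpow]
  obtain ⟨t, ht⟩ := hn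
  have h4 : c ^ k = 1 := by
    have h5 : (c ^ k) ^ n = c ^ k * ((c ^ k) ^ 2) ^ t := by
      rw [ht, pow_succ', pow_mul]
    rw [h2, one_pow, mul_one] at h5
    rw [← h5, h3]
  rw [h4]
  exact Subgroup.one_mem _

end dihedral

section quaternion

open QuaternionGroup

theorem quaternion_closure (n : ℕ) [NeZero n] :
    Subgroup.closure ({(a 1 : QuaternionGroup n), xa 0} : Set (QuaternionGroup n)) = ⊤ := by
  rw [eq_top_iff]
  rintro g -
  have h1 : (a 1 : QuaternionGroup n) ∈ Subgroup.closure ({(a 1 : QuaternionGroup n), xa 0} : Set (QuaternionGroup n)) :=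
    Subgroup.subset_closure (by simp)
  have h2 : (xa 0 : QuaternionGroup n) ∈ Subgroup.closure ({(a 1 : QuaternionGroup n), xa 0} : Set (QuaternionGroup n)) :=
    Subgroup.subset_closure (by simp)
  have hr : ∀ i : ZMod (2 * n), (a i : QuaternionGroup n) ∈
      Subgroup.closure ({(a 1 : QuaternionGroup n), xa 0} : Set (QuaternionGroup n)) := by
    intro i
    have : (a i : QuaternionGroup n) = a 1 ^ i.val := by
      rw [a_one_pow, ZMod.natCast_zmod_val]
    rw [this]
    exact Subgroup.pow_mem _ h1 _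
  cases g with
  | a i => exact hr i
  | xa i =>
    have : (xa i : QuaternionGroup n) = xa 0 * a i := by
      rw [xa_mul_a, zero_add]
    rw [this]
    exact Subgroup.mul_mem _ h2 (hr i)

theorem quaternion_rel (n : ℕ) : (xa 0 : QuaternionGroup n) * a 1 * (xa 0)⁻¹ = (a 1)⁻¹ := by
  rw [mul_inv_eq_iff_eq_mul, xa_mul_a]
  have h1 : (a 1 : QuaternionGroup n)⁻¹ = a (-1) := by
    rw [inv_eq_iff_mul_eq_one, a_mul_a, add_neg_cancel, a_zero]
  rw [h1, a_mul_xa]
  congr 1
  ring

/-- S3963 -/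
theorem quaternion_trivial (n : ℕ) [NeZero n] : Cfsg.HasCyclicSchurMultiplier (QuaternionGroup n) 1 := by
  haveI : NeZero (2 * n) := ⟨by have := NeZero.ne n; omega⟩
  rw [Hopf.hasCyclic_one_iff]
  intro Δ _ _ τ hτ
  obtain ⟨A, hA⟩ := hτ.1 (a 1)
  obtain ⟨S, hS⟩ := hτ.1 (xa 0)
  have hgen := quaternion_closure n
  have hrel := quaternion_rel n
  have hS2 : (S ^ 2)⁻¹ * A ^ n ∈ τ.ker := by
    rw [MonoidHom.mem_ker, map_mul, map_inv, map_pow, map_pow, hA, hS, a_one_pow, xa_sq, inv_mul_cancel]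
  have hSn : S * A ^ n * S⁻¹ = A ^ n := by
    have h1 : A ^ n = S ^ 2 * ((S ^ 2)⁻¹ * A ^ n) := by group
    have hc := Subgroup.mem_center_iff.mp (hτ.2.1 hS2)
    generalize (S ^ 2)⁻¹ * A ^ n = k at h1 hc
    rw [h1]
    calc S * (S ^ 2 * k) * S⁻¹ = S * S ^ 2 * (k * S⁻¹) := by simp only [mul_assoc]
      _ = S * S ^ 2 * (S⁻¹ * k) := by rw [hc S⁻¹]
      _ = S ^ 2 * k := by group
  have hcn := c_pow_eq_one τ hτ hrel hA hS hSn
  have hle := ker_le_zpowers_c τ hτ hgen hrel hA hS
  rw [eq_bot_iff]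
  intro z hz
  obtain ⟨k, rfl⟩ := Subgroup.mem_zpowers_iff.mp (hle hz)
  set c := S * A * S⁻¹ * A⁻¹ with hc
  have hτc : τ c = a (-2) := by
    rw [hc, map_mul, map_mul, map_mul, map_inv, map_inv, hA, hS, hrel]
    have h1 : (a 1 : QuaternionGroup n)⁻¹ = a (-1) := by
      rw [inv_eq_iff_mul_eq_one, a_mul_a, add_neg_cancel, a_zero]
    rw [h1, a_mul_a]
    congr 1
    ring
  have hz' : τ (c ^ k) = 1 := hz
  have hzp : ∀ j : ℤ, (a (-2) : QuaternionGroup n) ^ j = a ((-2 : ZMod (2 * n)) * (j : ZMod (2 * n))) := by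
    intro j
    have e1 : ∀ m : ℕ, (a (-2) : QuaternionGroup n) ^ m = a ((-2 : ZMod (2 * n)) * (m : ZMod (2 * n))) := by
      intro m
      induction m with
      | zero => simp
      | succ m ih =>
        rw [pow_succ, ih, a_mul_a]
        congr 1
        push_cast
        ring
    cases j with
    | ofNat m =>
      simpa using e1 m
    | negSucc m =>
      rw [zpow_negSucc, e1, inv_eq_iff_mul_eq_one, a_mul_a, ← a_zero]
      congr 1
      push_cast
      ring
  rw [map_zpow, hτc, hzp] at hz'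
  have h6 : (-2 : ZMod (2 * n)) * (k : ZMod (2 * n)) = 0 := by
    have := congrArg (fun x : QuaternionGroup n => x) hz'
    rw [one_def] at this
    exact a.inj this
  have h7 : ((-2 * k : ℤ) : ZMod (2 * n)) = 0 := by
    push_cast
    exact h6
  rw [ZMod.intCast_zmod_eq_zero_iff_dvd] at h7
  have h8 : (n : ℤ) ∣ k := by
    push_cast at h7
    have hn0 : (2 : ℤ) ≠ 0 := by norm_num
    have : (2 : ℤ) * n ∣ 2 * (- k) := by
      have e : (-2 * k : ℤ) = 2 * (-k) := by ring
      rwa [e] at h7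
    have h9 := (mul_dvd_mul_iff_left hn0).mp this
    exact (dvd_neg).mp h9
  obtain ⟨l, rfl⟩ := h8
  have : c ^ ((n : ℤ) * l) = 1 := by
    rw [zpow_mul, zpow_natCast, hcn, one_zpow]
  rw [this]
  exact Subgroup.one_mem _

end quaternion

section dihedral_even

open DihedralGroup

/-- The map `D_{2n} → D_n`. -/
def dihedralDouble (n : ℕ) : DihedralGroup (2 * n) →* DihedralGroup n :=
  let c : ZMod (2 * n) →+* ZMod n := ZMod.castHom (Dvd.intro_left 2 rfl) (ZMod n)
  { toFun := fun g => match g with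
      | r i => r (c i)
      | sr i => sr (c i)
    map_one' := by
      show r (c 0) = r 0
      rw [map_zero]
    map_mul' := by
      intro x y
      cases x <;> cases y <;> simp [map_add, map_sub] }

/-- S3965 -/
theorem dihedral_even (n : ℕ) [NeZero n] (hn : Even n) :
    Cfsg.HasCyclicSchurMultiplier (DihedralGroup n) 2 := by
  classical
  haveI h2n : NeZero (2 * n) := ⟨by have := NeZero.ne n; omega⟩
  have hnpos : 0 < n := Nat.pos_of_ne_zero (NeZero.ne n)
  constructor
  · -- existence: `D_{2n} → D_n`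
    let f := dihedralDouble n
    let c : ZMod (2 * n) →+* ZMod n := ZMod.castHom (Dvd.intro_left 2 rfl) (ZMod n)
    have hfr : ∀ i, f (r i) = r (c i) := fun _ => rfl
    have hfs : ∀ i, f (sr i) = sr (c i) := fun _ => rfl
    have hcsurj : Function.Surjective c := ZMod.castHom_surjective _
    have hfsurj : Function.Surjective f := by
      intro g
      cases g with
      | r i =>
        obtain ⟨j, rfl⟩ := hcsurj i
        exact ⟨r j, rfl⟩
      | sr i =>
        obtain ⟨j, rfl⟩ := hcsurj i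
        exact ⟨sr j, rfl⟩
    -- the kernel
    have hkerc : ∀ i : ZMod (2 * n), c i = 0 → i = 0 ∨ i = (n : ZMod (2 * n)) := by
      intro i hi
      have h1 : c i = ((i.val : ℕ) : ZMod n) := by
        conv_lhs => rw [← ZMod.natCast_zmod_val i]
        exact map_natCast c _
      rw [h1, ZMod.natCast_eq_zero_iff] at hi
      obtain ⟨t, ht⟩ := hi
      have hlt : i.val < 2 * n := ZMod.val_lt i
      have ht2 : t < 2 := by
        rw [ht] at hlt
        nlinarith
      interval_cases t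
      · left
        have : i.val = 0 := by simpa using ht
        exact (ZMod.val_eq_zero i).mp this
      · right
        have : i.val = n := by simpa using ht
        have e : ((i.val : ℕ) : ZMod (2 * n)) = i := ZMod.natCast_zmod_val i
        rw [this] at e
        exact e.symm
    have hker : ∀ g, f g = 1 → g = 1 ∨ g = r (n : ZMod (2 * n)) := by
      intro g hg
      cases g with
      | r i =>
        have h1 : c i = 0 := by
          have : (r (c i) : DihedralGroup n) = r 0 := hg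
          exact r.inj this
        rcases hkerc i h1 with rfl | rfl
        · left; rfl
        · right; rfl
      | sr i =>
        exfalso
        have : (sr (c i) : DihedralGroup n) = r 0 := hg
        cases this
    have h2ncast : ((2 * n : ℕ) : ZMod (2 * n)) = 0 := ZMod.natCast_self _
    have hnn : (n : ZMod (2 * n)) + (n : ZMod (2 * n)) = 0 := by
      rw [← two_mul]
      exact_mod_cast h2ncast
    have hnne : (n : ZMod (2 * n)) ≠ 0 := by
      intro h
      rw [ZMod.natCast_eq_zero_iff] at h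
      have := Nat.le_of_dvd hnpos h
      omega
    have hz : (r (n : ZMod (2 * n)) : DihedralGroup (2 * n)) ∈ f.ker := by
      show r (c (n : ZMod (2 * n))) = r 0
      rw [map_natCast, ZMod.natCast_self]
    have hzc : (r (n : ZMod (2 * n)) : DihedralGroup (2 * n)) ∈ Subgroup.center (DihedralGroup (2 * n)) := by
      rw [Subgroup.mem_center_iff]
      intro g
      cases g with
      | r i => rw [r_mul_r, r_mul_r, add_comm]
      | sr i =>
        rw [sr_mul_r, r_mul_sr]
        congr 1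
        have : (n : ZMod (2 * n)) = - (n : ZMod (2 * n)) := eq_neg_of_add_eq_zero_left hnn
        rw [sub_eq_add_neg, ← this]
    have hzcomm : (r (n : ZMod (2 * n)) : DihedralGroup (2 * n)) ∈ commutator (DihedralGroup (2 * n)) := by
      obtain ⟨t, ht⟩ := hn
      have h1 : ⁅(sr 0 : DihedralGroup (2 * n)), r (t : ZMod (2 * n))⁆ = r (n : ZMod (2 * n)) := by
        rw [commutatorElement_def, inv_sr, inv_r, sr_mul_r, sr_mul_sr, r_mul_r]
        congr 1
        have h3 : (n : ZMod (2 * n)) = - (n : ZMod (2 * n)) := eq_neg_of_add_eq_zero_left hnn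
        rw [h3, ht]
        push_cast
        ring
      rw [← h1, commutator_def]
      exact Subgroup.commutator_mem_commutator (Subgroup.mem_top _) (Subgroup.mem_top _)
    have hstem : Cfsg.IsStemExtension f := by
      refine ⟨hfsurj, ?_, ?_⟩
      · intro g hg
        rcases hker g hg with rfl | rfl
        · exact Subgroup.one_mem _
        · exact hzc
      · intro g hg
        rcases hker g hg with rfl | rfl
        · exact Subgroup.one_mem _
        · exact hzcomm
    refine ⟨DihedralGroup (2 * n), inferInstance, inferInstance, f, hstem, ?_⟩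
    -- the kernel has order 2
    have hz2 : (r (n : ZMod (2 * n)) : DihedralGroup (2 * n)) ^ 2 = 1 := by
      rw [pow_two, r_mul_r, hnn]
      rfl
    have hz2' : (⟨_, hz⟩ : f.ker) ^ 2 = 1 := Subtype.ext hz2
    obtain ⟨φ, hφ⟩ := exists_hom_zmod (⟨_, hz⟩ : f.ker) 2 hz2'
    have hφb : Function.Bijective φ := by
      constructor
      · rw [injective_iff_map_eq_one]
        intro x hx
        have hcases : ∀ y : ZMod 2, y = 0 ∨ y = 1 := by decide
        have hx' : x = 1 ∨ x = Multiplicative.ofAdd (((1 : ℤ)) : ZMod 2) := by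
          rcases hcases x.toAdd with h | h
          · left
            exact h
          · right
            have h' : Multiplicative.toAdd x = ((1 : ℤ) : ZMod 2) := by
              rw [h]
              simp
            exact h'
        rcases hx' with rfl | rfl
        · rfl
        · exfalso
          rw [hφ] at hx
          have h3 : (r (n : ZMod (2 * n)) : DihedralGroup (2 * n)) = 1 := by
            have := congrArg Subtype.val hx
            simpa using this
          have : (r (n : ZMod (2 * n)) : DihedralGroup (2 * n)) = r 0 := h3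
          exact hnne (r.inj this)
      · rintro ⟨g, hg⟩
        rcases hker g hg with rfl | rfl
        · exact ⟨1, map_one φ⟩
        · refine ⟨Multiplicative.ofAdd ((1 : ℤ) : ZMod 2), ?_⟩
          rw [hφ]
          apply Subtype.ext
          simp
    exact ⟨(MulEquiv.ofBijective φ hφb).symm⟩
  · intro Δ _ _ τ hτ
    obtain ⟨A, hA⟩ := hτ.1 (r 1)
    obtain ⟨S, hS⟩ := hτ.1 (sr 0)
    have hgen := dihedral_closure n
    have hrel := dihedral_rel n
    have hle := ker_le_zpowers_c τ hτ hgen hrel hA hS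
    set c := S * A * S⁻¹ * A⁻¹ with hc
    -- a generator of the kernel
    let K := τ.ker.subgroupOf (Subgroup.zpowers c)
    haveI : IsCyclic (Subgroup.zpowers c) := inferInstance
    haveI : IsCyclic K := inferInstance
    obtain ⟨g, hg⟩ := IsCyclic.exists_generator (α := K)
    have hgmem : (g.1.1 : Δ) ∈ τ.ker := Subgroup.mem_subgroupOf.mp g.2
    have hK : τ.ker ≤ Subgroup.zpowers (g.1.1 : Δ) := by
      intro z hz
      have h1 : (⟨z, hle hz⟩ : Subgroup.zpowers c) ∈ K := Subgroup.mem_subgroupOf.mpr hz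
      obtain ⟨k, hk⟩ := Subgroup.mem_zpowers_iff.mp (hg ⟨_, h1⟩)
      have h2 := congrArg (fun y : K => ((y.1 : Subgroup.zpowers c) : Δ)) hk
      simp only at h2
      rw [← h2]
      exact ⟨k, by simp⟩
    exact exists_surjection_zmod τ.ker _ hgmem hK 2 (sq_eq_one_of_ker τ hτ hgen hrel hA hS hgmem)

end dihedral_even

end Cfsg.Agent.H19
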